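import Cfsg.Agent.Lib.ChevOdd.Invol
import Cfsg.Agent.Lib.Chevalley.SL2Root

/-!
The Cayley transform: an element `z` of `N` with `z τ(z) = 1` negating a fundamental root `α` with
parameter a norm `μ τ(μ)` can be replaced by the element `z n_α(…)` of `N` in its twisted conjugacy
class; the reduction of such elements to the torus.
-/

set_option autoImplicit false
set_option linter.unusedSectionVars false

namespace Cfsg.Agent.Lib.ChevOdd.Cayley

open Cfsg.Lie Cfsg.Agent.Lib.ChevBN.Elem Cfsg.Agent.Lib.ChevBN.Entries Cfsg.Agent.Lib.ChevBN.Table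
open Cfsg.Agent.Lib.ChevBN.Collect Cfsg.Agent.Lib.ChevBN.Rel Cfsg.Agent.Lib.ChevBN.Torus
open Cfsg.Agent.Lib.ChevBN.Monomial Cfsg.Agent.Lib.ChevBN.Core Cfsg.Agent.Lib.ChevBN.Pair
open Cfsg.Agent.Lib.ChevBN.Stmts Cfsg.Agent.Lib.ChevBN.BruhatForm Cfsg.Agent.Lib.ChevBN.Opp
open Cfsg.Agent.Lib.ChevBN.ConjH Cfsg.Agent.Lib.ChevBN.Fix Cfsg.Agent.Lib.ChevBN.RootCent
open Cfsg.Agent.Lib.ChevOrder.Chev Cfsg.Agent.Lib.ChevOrder.BNCount Cfsg.Agent.Lib.ChevOrder.Cox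
open Cfsg.Agent.Lib.BNPair.CoxeterExchange
open Cfsg.Agent.Lib.BNPair.Basic Cfsg.Agent.Lib.BNPair.Parabolic
open Cfsg.Agent.Lib.ChevOdd.Kappa Cfsg.Agent.Lib.ChevOdd.Invol
open Cfsg.Agent.Lib.Chevalley
open Cfsg.Agent.Lib.ChevBN.H1

variable {D : ChevalleyDatum} {F : Type*} [Field F] {η : ℕ → ℕ → ℤ}

variable (hR : Sys D F η) (hT : Tbl D)

local notation "σ'" => σW hR hT
local notation "f'" => fW hR hT
local notation "L'" => LL (pair hR hT)

section SL2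

include hR hT

/-- The identity in `SL₂`. -/
theorem sl2_identity (hO : OddTab D) (hη : ∀ i < D.rank, η i (D.simple i) = -1) (h2 : (2 : F) ≠ 0)
    {r : ℕ} (hr : r < D.nroots) {ν : F} (hν : ν ≠ 0) :
    X hR.toAddRel (D.neg r) (ν / 2) * X hR.toAddRel r (-ν⁻¹) * X hR.toAddRel (D.neg r) ν *
      X hR.toAddRel r (-(2 * ν)⁻¹) = nG hR.toAddRel r (-ν⁻¹) := by
  have hrel := SL2Root.rel hR hT hO.two hη hr
  have e : SL2Hom.Y (ν / 2) * SL2Hom.X (-ν⁻¹) * SL2Hom.Y ν * SL2Hom.X (-(2 * ν)⁻¹) =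
      SL2Hom.X (-ν⁻¹) * SL2Hom.Y ν * SL2Hom.X (-ν⁻¹) := by
    apply SL2Hom.sl2_ext <;>
      simp only [SL2Hom.coe_mul', SL2Hom.X_coe, SL2Hom.Y_coe, Matrix.mul_apply, Fin.sum_univ_two] <;>
      simp <;> field_simp <;> first | ring1 | simp
  have h3 := congrArg (SL2Hom.hom hrel) e
  simp only [map_mul, SL2Hom.hom_X, SL2Hom.hom_Y] at h3
  rw [h3, nG]
  congr 2
  congr 1
  simp

end SL2

/-- The element of the Cayley transform. -/
noncomputable def gg (hR : Sys D F η) (r : ℕ) (μ : F) : GL D.Idx F :=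
  X hR.toAddRel (D.neg r) μ * X hR.toAddRel r (-(2 * μ)⁻¹)

include hR hT

/-- The Cayley transform. -/
theorem cayley (hO : OddTab D) (hη : ∀ i < D.rank, η i (D.simple i) = -1) (h2 : (2 : F) ≠ 0)
    {r : ℕ} (hr : r < D.nroots) {z : GL D.Idx F} {μ ν : F} (hμ : μ ≠ 0) (hν : ν ≠ 0)
    (h1 : ∀ c, z * X hR.toAddRel r c * z⁻¹ = X hR.toAddRel (D.neg r) (μ * ν * c))
    (h3 : ∀ c, z * X hR.toAddRel (D.neg r) c * z⁻¹ = X hR.toAddRel r ((μ * ν)⁻¹ * c)) :
    (gg hR r μ)⁻¹ * z * gg hR r ν = z * nG hR.toAddRel r (-ν⁻¹) := by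
  have e1 : z⁻¹ * X hR.toAddRel r (2 * μ)⁻¹ * z = X hR.toAddRel (D.neg r) (ν / 2) := by
    have := h3 (ν / 2)
    have e0 : (μ * ν)⁻¹ * (ν / 2) = (2 * μ)⁻¹ := by
      field_simp
    rw [e0] at this
    rw [← this]
    group
  have e2 : z⁻¹ * X hR.toAddRel (D.neg r) (-μ) * z = X hR.toAddRel r (-ν⁻¹) := by
    have := h1 (-ν⁻¹)
    have e0 : μ * ν * -ν⁻¹ = -μ := by
      field_simp
    rw [e0] at this
    rw [← this]
    group
  have e3 : (gg hR r μ)⁻¹ * z * gg hR r ν =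
      z * (z⁻¹ * X hR.toAddRel r (2 * μ)⁻¹ * z) * (z⁻¹ * X hR.toAddRel (D.neg r) (-μ) * z) *
        (X hR.toAddRel (D.neg r) ν * X hR.toAddRel r (-(2 * ν)⁻¹)) := by
    rw [gg, gg, mul_inv_rev, X_inv, X_inv, neg_neg]
    group
  rw [e3, e1, e2, ← sl2_identity hR hT hO hη h2 hr hν]
  group

section Tau

variable (τ : F →+* F)

theorem mapG_gg (r : ℕ) (μ : F) : mapG D τ (gg hR r μ) = gg hR r (τ μ) := by
  rw [gg, gg, map_mul, mapG_X τ hR.toAddRel hR.toAddRel, mapG_X τ hR.toAddRel hR.toAddRel]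
  have h2τ : τ 2 = 2 := map_ofNat τ 2
  simp [h2τ]

theorem mapG_A (i : ℕ) : mapG D τ (A hR i) = A hR i := by
  rw [A, mapG_nG τ hR.toAddRel hR.toAddRel, map_one]

theorem mapG_nL (l : List (Fin D.rank)) :
    mapG D τ ((nL hR hT l : ↥(D.group F)) : GL D.Idx F) = ((nL hR hT l : ↥(D.group F)) : GL D.Idx F) := by
  induction l with
  | nil =>
    have : ((nL hR hT [] : ↥(D.group F)) : GL D.Idx F) = 1 := rfl
    rw [this, map_one]
  | cons i l ih =>
    have ec : ((nL hR hT (i :: l) : ↥(D.group F)) : GL D.Idx F) =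
        A hR i * ((nL hR hT l : ↥(D.group F)) : GL D.Idx F) := rfl
    rw [ec, map_mul, ih, mapG_A hR hT]

theorem mapG_N {n : GL D.Idx F} (hn : n ∈ D.monomialSubgroup F) :
    mapG D τ n ∈ D.monomialSubgroup F := by
  obtain ⟨c, l, hc, rfl, -, -⟩ := exists_word_form hR hT hn
  rw [map_mul, mapG_nL hR hT]
  exact Subgroup.mul_mem _ (H_le_N hR (mapG_H hR hT τ (hP_mem_H' hR hT hc))) (nL_N hR hT l)

theorem wOf_mapG {n : GL D.Idx F} (hn : n ∈ D.monomialSubgroup F) :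
    wOf hR hT (mapG_N hR hT τ hn) = wOf hR hT hn := by
  rw [wOf_eq_iff]
  obtain ⟨c, l, hc, rfl, -, -⟩ := exists_word_form hR hT hn
  rw [map_mul, mapG_nL hR hT]
  have e : (mapG D τ (hP hR c) * ((nL hR hT l : ↥(D.group F)) : GL D.Idx F))⁻¹ *
      (hP hR c * ((nL hR hT l : ↥(D.group F)) : GL D.Idx F)) =
      ((nL hR hT l : ↥(D.group F)) : GL D.Idx F)⁻¹ * ((mapG D τ (hP hR c))⁻¹ * hP hR c) *
        (((nL hR hT l : ↥(D.group F)) : GL D.Idx F)⁻¹)⁻¹ := by group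
  rw [e]
  exact H_norm_N hR hT (Subgroup.inv_mem _ (nL_N hR hT l))
    (Subgroup.mul_mem _ (Subgroup.inv_mem _ (mapG_H hR hT τ (hP_mem_H' hR hT hc))) (hP_mem_H' hR hT hc))

/-- The data for a Cayley transform at a fundamental root. -/
structure Good (hR : Sys D F η) (hT : Tbl D) (τ : F →+* F) (t z : GL D.Idx F)
    (hz : z ∈ D.monomialSubgroup F) (i : Fin D.rank) : Prop where
  neg : σW hR hT (wOf hR hT hz) (alphaR hT i) = negF hT (alphaR hT i)
  comm : ∀ c : F, t * X hR.toAddRel (D.simple i) c = X hR.toAddRel (D.simple i) c * t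
  norm : ∃ μ : F, μ ≠ 0 ∧ ∀ c : F, z * X hR.toAddRel (D.simple i) c * z⁻¹ =
    X hR.toAddRel (D.neg (D.simple i)) (μ * τ μ * c)

theorem gg_mem_G (r : ℕ) (hr : r < D.nroots) (μ : F) : gg hR r μ ∈ D.group F :=
  Subgroup.mul_mem _ (X_mem_G hR hT (hT.neg_lt hr) _) (X_mem_G hR hT hr _)

variable {τ}

/-- The Cayley step. -/
theorem cayley_step (hO : OddTab D) (hη : ∀ i < D.rank, η i (D.simple i) = -1) (h2 : (2 : F) ≠ 0)
    (hτ : ∀ x, τ (τ x) = x) {t z : GL D.Idx F} (hz : z ∈ D.monomialSubgroup F)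
    (ht : t ∈ D.diagonalSubgroup F) {i : Fin D.rank} (hG : Good hR hT τ t z hz i)
    (hzt : z * t = t * z) (hzz : z * mapG D τ z = 1) (htτ : mapG D τ t = t) :
    ∃ g ∈ D.group F, g * t = t * g ∧ ∃ hz₂ : g⁻¹ * z * mapG D τ g ∈ D.monomialSubgroup F,
      wOf hR hT hz₂ = wOf hR hT hz * f' i ∧
      (g⁻¹ * z * mapG D τ g) * t = t * (g⁻¹ * z * mapG D τ g) ∧
      (g⁻¹ * z * mapG D τ g) * mapG D τ (g⁻¹ * z * mapG D τ g) = 1 := by
  obtain ⟨hneg, hcomm, μ, hμ, hnorm⟩ := hG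
  have hp : D.simple i < D.nroots := hT.simple_lt i.2
  have hν : τ μ ≠ 0 := by simpa using hμ
  set ν := τ μ with hνdef
  have hκ : ∀ u : F, z * X hR.toAddRel (alphaR hT i : Fin D.nroots) u * z⁻¹ =
      X hR.toAddRel (σW hR hT (wOf hR hT hz) (alphaR hT i) : Fin D.nroots) (μ * ν * u) := by
    intro u
    rw [hneg]
    exact hnorm u
  have hneg2 := conj_neg hR hT hz (alphaR hT i) hκ
  rw [hneg] at hneg2
  have h3 : ∀ c : F, z * X hR.toAddRel (D.neg (D.simple i)) c * z⁻¹ =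
      X hR.toAddRel (D.simple i) ((μ * ν)⁻¹ * c) := by
    intro c
    have := hneg2 c
    have e : D.neg (negF hT (alphaR hT i) : Fin D.nroots) = D.simple i := hT.neg_neg _ hp
    rw [e] at this
    exact this
  have hcay := cayley hR hT hO hη h2 hp hμ hν hnorm h3
  -- the torus element commutes
  obtain ⟨c₀, hc₀, rfl⟩ := (mem_torus hR).1 (by rw [← diagonal_eq hR hT]; exact ht)
  have hχ : chi D c₀ (D.simple i) = 1 := by
    have h4 := hP_conj hR hc₀ hp 1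
    rw [mul_one] at h4
    rw [hcomm 1, mul_inv_cancel_right] at h4
    have h5 := Cfsg.Agent.Lib.ChevBN.GraphFix.X_param_inj hR hT hp h4
    exact h5.symm
  have hχ' : chi D c₀ (D.neg (D.simple i)) = 1 := by
    rw [chi_neg hT c₀ hp, hχ, inv_one]
  have hcX : ∀ c : F, hP hR c₀ * X hR.toAddRel (D.neg (D.simple i)) c =
      X hR.toAddRel (D.neg (D.simple i)) c * hP hR c₀ := by
    intro c
    have h4 := hP_conj hR hc₀ (hT.neg_lt hp) c
    rw [hχ', one_mul, mul_inv_eq_iff_eq_mul] at h4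
    exact h4
  have hcg : ∀ a : F, gg hR (D.simple i) a * hP hR c₀ = hP hR c₀ * gg hR (D.simple i) a := by
    intro a
    rw [gg, mul_assoc, ← hcomm, ← mul_assoc, ← hcX, mul_assoc]
  set g := gg hR (D.simple i) μ with hg
  have hτg : mapG D τ g = gg hR (D.simple i) ν := mapG_gg hR hT τ _ _
  have hz₂e : g⁻¹ * z * mapG D τ g = z * nG hR.toAddRel (D.simple i) (-ν⁻¹) := by
    rw [hτg]
    exact hcay
  have hνν : -ν⁻¹ ≠ 0 := neg_ne_zero.mpr (inv_ne_zero hν)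
  have hmem : z * nG hR.toAddRel (D.simple i) (-ν⁻¹) ∈ D.monomialSubgroup F :=
    Subgroup.mul_mem _ hz (nG_c_mem_N hR hT hp hνν)
  have hz₂ : g⁻¹ * z * mapG D τ g ∈ D.monomialSubgroup F := by
    rw [hz₂e]
    exact hmem
  refine ⟨g, gg_mem_G hR hT _ hp _, hcg μ, hz₂, ?_, ?_, ?_⟩
  · have e1 : wOf hR hT hz₂ = wOf hR hT hmem := by
      simp only [hz₂e]
    rw [e1]
    have e2 : wOf hR hT hmem = wOf hR hT hz * wOf hR hT (nG_c_mem_N hR hT hp hνν) := rfl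
    rw [e2, wOf_nG hR hT hp hνν]
    rfl
  · have e1 : g * hP hR c₀ = hP hR c₀ * g := hcg μ
    have e2 := hcg ν
    rw [hτg]
    calc g⁻¹ * z * gg hR (D.simple i) ν * hP hR c₀
        = g⁻¹ * z * (gg hR (D.simple i) ν * hP hR c₀) := by group
      _ = g⁻¹ * (z * hP hR c₀) * gg hR (D.simple i) ν := by rw [e2]; group
      _ = g⁻¹ * (hP hR c₀ * z) * gg hR (D.simple i) ν := by rw [hzt]
      _ = (g⁻¹ * hP hR c₀) * z * gg hR (D.simple i) ν := by group
      _ = (hP hR c₀ * g⁻¹) * z * gg hR (D.simple i) ν := by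
          congr 2
          rw [inv_mul_eq_iff_eq_mul, ← mul_assoc, e1, mul_inv_cancel_right]
      _ = _ := by group
  · have hτ2 := mapG_mapG (D := D) hR τ hτ
    have e : mapG D τ (g⁻¹ * z * mapG D τ g) = (mapG D τ g)⁻¹ * mapG D τ z * g := by
      rw [map_mul, map_mul, map_inv, hτ2]
    rw [e]
    calc g⁻¹ * z * mapG D τ g * ((mapG D τ g)⁻¹ * mapG D τ z * g) = g⁻¹ * (z * mapG D τ z) * g := by group
      _ = 1 := by rw [hzz]; group

theorem wOf_proof_irrel {n m : GL D.Idx F} (hn : n ∈ D.monomialSubgroup F)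
    (hm : m ∈ D.monomialSubgroup F) (h : n = m) : wOf hR hT hn = wOf hR hT hm := by
  subst h
  rfl

theorem wOf_sq_of_cocycle {z : GL D.Idx F} (hz : z ∈ D.monomialSubgroup F)
    (hzz : z * mapG D τ z = 1) : wOf hR hT hz * wOf hR hT hz = 1 := by
  have h1 : z * mapG D τ z ∈ D.diagonalSubgroup F := by
    rw [hzz]
    exact Subgroup.one_mem _
  have h2 := (wOf_eq_one_iff hR hT (Subgroup.mul_mem _ hz (mapG_N hR hT τ hz))).2 h1
  rw [wOf_mul hR hT hz (mapG_N hR hT τ hz), wOf_mapG] at h2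
  exact h2

/-- Conjugation by a word. -/
theorem wOf_conj {x z : GL D.Idx F} (hx : x ∈ D.monomialSubgroup F) (hz : z ∈ D.monomialSubgroup F)
    (hm : x * z * x⁻¹ ∈ D.monomialSubgroup F) :
    wOf hR hT hm = wOf hR hT hx * wOf hR hT hz * (wOf hR hT hx)⁻¹ := rfl

/-- The main reduction: a cocycle in `N ∩ C(t)` is cohomologous in `C(t)` to an element of `H`. -/
theorem reduce_aux (hO : OddTab D) (hη : ∀ i < D.rank, η i (D.simple i) = -1) (h2 : (2 : F) ≠ 0)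
    (hτ : ∀ x, τ (τ x) = x) (Q : GL D.Idx F → Prop)
    (hQH : ∀ t, Q t → t ∈ D.diagonalSubgroup F ∧ mapG D τ t = t)
    (hQA : ∀ t (i : Fin D.rank), Q t → Q (A hR i * t * (A hR i)⁻¹))
    (hgood : ∀ (t z : GL D.Idx F) (hz : z ∈ D.monomialSubgroup F), Q t → z * t = t * z →
      z * mapG D τ z = 1 → wOf hR hT hz ≠ 1 → AllEig hR hT (wOf hR hT hz) →
      ∃ (l : List (Fin D.rank)) (i : Fin D.rank)
        (hz₁ : ((nL hR hT l : ↥(D.group F)) : GL D.Idx F) * z *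
          ((nL hR hT l : ↥(D.group F)) : GL D.Idx F)⁻¹ ∈ D.monomialSubgroup F),
        Good hR hT τ (((nL hR hT l : ↥(D.group F)) : GL D.Idx F) * t *
          ((nL hR hT l : ↥(D.group F)) : GL D.Idx F)⁻¹) _ hz₁ i) :
    ∀ (k m : ℕ) (t z : GL D.Idx F) (hz : z ∈ D.monomialSubgroup F), Q t → z * t = t * z →
      z * mapG D τ z = 1 → (Phi hR hT (wOf hR hT hz)).card = k → L' (wOf hR hT hz) = m →
      ∃ c ∈ D.group F, c * t = t * c ∧ c⁻¹ * z * mapG D τ c ∈ D.diagonalSubgroup F := by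
  have hQl : ∀ (l : List (Fin D.rank)) (t : GL D.Idx F), Q t →
      Q (((nL hR hT l : ↥(D.group F)) : GL D.Idx F) * t *
        ((nL hR hT l : ↥(D.group F)) : GL D.Idx F)⁻¹) := by
    intro l
    induction l with
    | nil =>
      intro t ht
      have : ((nL hR hT [] : ↥(D.group F)) : GL D.Idx F) = 1 := rfl
      rw [this]
      simpa using ht
    | cons i l ih =>
      intro t ht
      have ec : ((nL hR hT (i :: l) : ↥(D.group F)) : GL D.Idx F) =
          A hR i * ((nL hR hT l : ↥(D.group F)) : GL D.Idx F) := rfl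
      have e : ((nL hR hT (i :: l) : ↥(D.group F)) : GL D.Idx F) * t *
          ((nL hR hT (i :: l) : ↥(D.group F)) : GL D.Idx F)⁻¹ =
          A hR i * (((nL hR hT l : ↥(D.group F)) : GL D.Idx F) * t *
            ((nL hR hT l : ↥(D.group F)) : GL D.Idx F)⁻¹) * (A hR i)⁻¹ := by
        rw [ec]; group
      rw [e]
      exact hQA _ i (ih t ht)
  intro k
  induction k using Nat.strong_induction_on with
  | _ k IHk =>
  intro m
  induction m using Nat.strong_induction_on with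
  | _ m IHm =>
  intro t z hz hQ hzt hzz hk hm
  have hw := wOf_sq_of_cocycle hR hT hz hzz
  by_cases hw1 : wOf hR hT hz = 1
  · refine ⟨1, Subgroup.one_mem _, by simp, ?_⟩
    have := (wOf_eq_one_iff hR hT hz).1 hw1
    simpa using this
  by_cases hE : AllEig hR hT (wOf hR hT hz)
  · -- the Cayley step
    obtain ⟨l, i, hz₁, hgd⟩ := hgood t z hz hQ hzt hzz hw1 hE
    set x := ((nL hR hT l : ↥(D.group F)) : GL D.Idx F) with hx
    have hxN : x ∈ D.monomialSubgroup F := nL_N hR hT l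
    have hxG : x ∈ D.group F := (nL hR hT l).2
    have hτx : mapG D τ x = x := mapG_nL hR hT τ l
    have hQ₁ := hQl l t hQ
    rw [← hx] at hQ₁
    obtain ⟨ht₁, ht₁τ⟩ := hQH _ hQ₁
    have hzt₁ : (x * z * x⁻¹) * (x * t * x⁻¹) = (x * t * x⁻¹) * (x * z * x⁻¹) := by
      calc (x * z * x⁻¹) * (x * t * x⁻¹) = x * (z * t) * x⁻¹ := by group
        _ = x * (t * z) * x⁻¹ := by rw [hzt]
        _ = _ := by group
    have hzz₁ : (x * z * x⁻¹) * mapG D τ (x * z * x⁻¹) = 1 := by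
      rw [map_mul, map_mul, map_inv, hτx]
      calc x * z * x⁻¹ * (x * mapG D τ z * x⁻¹) = x * (z * mapG D τ z) * x⁻¹ := by group
        _ = 1 := by rw [hzz]; group
    obtain ⟨g, hgG, hgt, hz₂, hwz₂, hz₂t, hz₂z⟩ :=
      cayley_step hR hT hO hη h2 hτ hz₁ ht₁ hgd hzt₁ hzz₁ ht₁τ
    have hlt : (Phi hR hT (wOf hR hT hz₂)).card < k := by
      rw [hwz₂]
      have h3 := Phi_mul_lt hR hT hO hgd.neg
      have h4 : wOf hR hT hz₁ = wOf hR hT hxN * wOf hR hT hz * (wOf hR hT hxN)⁻¹ := rfl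
      rw [h4, card_Phi_conj, hk] at h3
      rw [h4]
      exact h3
    obtain ⟨c₂, hc₂G, hc₂t, hc₂⟩ := IHk _ hlt _ _ _ hz₂ hQ₁ hz₂t hz₂z rfl rfl
    refine ⟨x⁻¹ * g * c₂ * x, ?_, ?_, ?_⟩
    · exact Subgroup.mul_mem _ (Subgroup.mul_mem _ (Subgroup.mul_mem _ (Subgroup.inv_mem _ hxG) hgG) hc₂G) hxG
    · calc x⁻¹ * g * c₂ * x * t = x⁻¹ * g * (c₂ * (x * t * x⁻¹)) * x := by group
        _ = x⁻¹ * g * ((x * t * x⁻¹) * c₂) * x := by rw [hc₂t]
        _ = x⁻¹ * (g * (x * t * x⁻¹)) * c₂ * x := by group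
        _ = x⁻¹ * ((x * t * x⁻¹) * g) * c₂ * x := by rw [hgt]
        _ = _ := by group
    · have e : (x⁻¹ * g * c₂ * x)⁻¹ * z * mapG D τ (x⁻¹ * g * c₂ * x) =
          x⁻¹ * (c₂⁻¹ * (g⁻¹ * (x * z * x⁻¹) * mapG D τ g) * mapG D τ c₂) * x⁻¹⁻¹ := by
        simp only [map_mul, map_inv, hτx]
        group
      rw [e]
      exact H_norm_N hR hT (Subgroup.inv_mem _ hxN) hc₂
  · -- conjugation by a fundamental reflection
    simp only [AllEig, not_forall] at hE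
    obtain ⟨i, hi1, hi2⟩ := hE
    have hA := A_mem_N hR hT i.2
    have hAG : A hR i ∈ D.group F := N_le_G hR hT hA
    have hz₁ : A hR i * z * (A hR i)⁻¹ ∈ D.monomialSubgroup F :=
      Subgroup.mul_mem _ (Subgroup.mul_mem _ hA hz) (Subgroup.inv_mem _ hA)
    have hwz₁ : wOf hR hT hz₁ = f' i * wOf hR hT hz * f' i := by
      rw [wOf_conj hR hT hA hz hz₁, wOf_A hR hT i, inv_f' hR hT]
    have hL := conj_reduce hR hT hw i hi1 hi2
    have hτA : mapG D τ (A hR i) = A hR i := mapG_A hR hT τ i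
    have hzt₁ : (A hR i * z * (A hR i)⁻¹) * (A hR i * t * (A hR i)⁻¹) =
        (A hR i * t * (A hR i)⁻¹) * (A hR i * z * (A hR i)⁻¹) := by
      calc (A hR i * z * (A hR i)⁻¹) * (A hR i * t * (A hR i)⁻¹) = A hR i * (z * t) * (A hR i)⁻¹ := by
            group
        _ = A hR i * (t * z) * (A hR i)⁻¹ := by rw [hzt]
        _ = _ := by group
    have hzz₁ : (A hR i * z * (A hR i)⁻¹) * mapG D τ (A hR i * z * (A hR i)⁻¹) = 1 := by
      rw [map_mul, map_mul, map_inv, hτA]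
      calc A hR i * z * (A hR i)⁻¹ * (A hR i * mapG D τ z * (A hR i)⁻¹) =
            A hR i * (z * mapG D τ z) * (A hR i)⁻¹ := by group
        _ = 1 := by rw [hzz]; group
    have hcard : (Phi hR hT (wOf hR hT hz₁)).card = k := by
      rw [hwz₁, ← hk]
      have := card_Phi_conj hR hT (f' i) (wOf hR hT hz)
      rwa [inv_f' hR hT] at this
    have hlt : L' (wOf hR hT hz₁) < m := by
      rw [hwz₁]
      omega
    obtain ⟨c₁, hc₁G, hc₁t, hc₁⟩ := IHm _ hlt _ _ hz₁ (hQA t i hQ) hzt₁ hzz₁ hcard rfl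
    refine ⟨(A hR i)⁻¹ * c₁ * A hR i, ?_, ?_, ?_⟩
    · exact Subgroup.mul_mem _ (Subgroup.mul_mem _ (Subgroup.inv_mem _ hAG) hc₁G) hAG
    · calc (A hR i)⁻¹ * c₁ * A hR i * t = (A hR i)⁻¹ * (c₁ * (A hR i * t * (A hR i)⁻¹)) * A hR i := by
            group
        _ = (A hR i)⁻¹ * ((A hR i * t * (A hR i)⁻¹) * c₁) * A hR i := by rw [hc₁t]
        _ = _ := by group
    · have e : ((A hR i)⁻¹ * c₁ * A hR i)⁻¹ * z * mapG D τ ((A hR i)⁻¹ * c₁ * A hR i) =
          (A hR i)⁻¹ * (c₁⁻¹ * (A hR i * z * (A hR i)⁻¹) * mapG D τ c₁) * A hR i := by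
        simp only [map_mul, map_inv, hτA]
        group
      rw [e]
      exact A_inv_conj_H hR hT i.2 hc₁

end Tau

end Cfsg.Agent.Lib.ChevOdd.Cayley
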