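import Cfsg.Agent.Lib.ChevOdd.Good

/-!
The order of the centraliser of an element `t` of order two in `H`, as a sum over the Weyl group.
-/

set_option autoImplicit false
set_option linter.unusedSectionVars false

namespace Cfsg.Agent.Lib.ChevOdd.CentCard

open Cfsg.Lie Cfsg.Agent.Lib.ChevBN.Elem Cfsg.Agent.Lib.ChevBN.Entries Cfsg.Agent.Lib.ChevBN.Table
open Cfsg.Agent.Lib.ChevBN.Collect Cfsg.Agent.Lib.ChevBN.Rel Cfsg.Agent.Lib.ChevBN.Torus
open Cfsg.Agent.Lib.ChevBN.Monomial Cfsg.Agent.Lib.ChevBN.Core Cfsg.Agent.Lib.ChevBN.Pair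
open Cfsg.Agent.Lib.ChevBN.Stmts Cfsg.Agent.Lib.ChevBN.BruhatForm Cfsg.Agent.Lib.ChevBN.Opp
open Cfsg.Agent.Lib.ChevBN.ConjH Cfsg.Agent.Lib.ChevBN.Fix Cfsg.Agent.Lib.ChevBN.RootCent
open Cfsg.Agent.Lib.ChevOrder.Chev Cfsg.Agent.Lib.ChevOrder.BNCount Cfsg.Agent.Lib.ChevOrder.Cox
open Cfsg.Agent.Lib.BNPair.CoxeterExchange
open Cfsg.Agent.Lib.BNPair.Basic Cfsg.Agent.Lib.BNPair.Parabolic
open Cfsg.Agent.Lib.ChevOdd.Kappa Cfsg.Agent.Lib.ChevOdd.Invol Cfsg.Agent.Lib.ChevOdd.Cayley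
open Cfsg.Agent.Lib.ChevOdd.GoodRoot

variable {D : ChevalleyDatum} {F : Type*} [Field F] {η : ℕ → ℕ → ℤ}

variable (hR : Sys D F η) (hT : Tbl D)

local notation "σ'" => σW hR hT
local notation "f'" => fW hR hT
local notation "L'" => LL (pair hR hT)

include hR hT

/-! ### Ordered products fixed by `t` -/

theorem conj_W_list {c₀ : ℕ → F} (hc₀ : ∀ j < D.rank, c₀ j ≠ 0) (f : ℕ → F) (L : List ℕ)
    (hL : ∀ r ∈ L, r < D.nroots) :
    hP hR c₀ * W hR.toAddRel (L.map fun r => (r, f r)) * (hP hR c₀)⁻¹ =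
      W hR.toAddRel (L.map fun r => (r, chi D c₀ r * f r)) := by
  induction L with
  | nil => simp
  | cons a L ih =>
    have h1 := ih fun r hr => hL r (List.mem_cons_of_mem _ hr)
    simp only [List.map_cons, W_cons]
    rw [← h1, ← hP_conj hR hc₀ (hL a (by simp))]
    group

open Classical in
/-- The number of ordered products fixed by `t`. -/
theorem card_fix_gen [Finite F] (h2 : (2 : F) ≠ 0) {c₀ : ℕ → F} (hc₀ : ∀ j < D.rank, c₀ j ≠ 0)
    (hs : ∀ s < D.nroots, chi D c₀ s = 1 ∨ chi D c₀ s = -1) (L : List ℕ) (hL : L.Pairwise (· < ·))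
    (hp : ∀ r ∈ L, D.IsPosRoot r)
    (hcl : ∀ r ∈ L, ∀ s ∈ L, r < s → ∀ c ∈ D.commTerms r s, c.1 ∈ L) :
    Nat.card {u : GL D.Idx F // u ∈ gen hR.toAddRel {r | r ∈ L} ∧ hP hR c₀ * u = u * hP hR c₀} =
      Nat.card F ^ (L.filter fun r => chi D c₀ r = 1).length := by
  set K := L.filter fun r => chi D c₀ r = 1 with hK'
  let ext : ({r // r ∈ K} → F) → (ℕ → F) := fun t r =>
    if h : r ∈ K then t ⟨r, h⟩ else 0
  have hlt : ∀ r ∈ L, r < D.nroots := fun r hr => (hp r hr).1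
  have hmemK : ∀ r, r ∈ K ↔ r ∈ L ∧ chi D c₀ r = 1 := by
    intro r
    simp [hK']
  have hfix : ∀ (t : {r // r ∈ K} → F) (r : ℕ), chi D c₀ r * ext t r = ext t r := by
    intro t r
    by_cases h : r ∈ K
    · rw [((hmemK r).1 h).2, one_mul]
    · simp only [ext, dif_neg h, mul_zero]
  have hmem : ∀ t : {r // r ∈ K} → F, W hR.toAddRel (L.map fun r => (r, ext t r)) ∈
      gen hR.toAddRel {r | r ∈ L} ∧ hP hR c₀ * W hR.toAddRel (L.map fun r => (r, ext t r)) =
        W hR.toAddRel (L.map fun r => (r, ext t r)) * hP hR c₀ := by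
    intro t
    constructor
    · apply W_mem_gen
      intro p hp'
      obtain ⟨r, hr, rfl⟩ := List.mem_map.mp hp'
      exact hr
    · have h1 := conj_W_list hR hT hc₀ (ext t) L hlt
      simp only [hfix] at h1
      rw [mul_inv_eq_iff_eq_mul] at h1
      exact h1
  let Φ : ({r // r ∈ K} → F) → {u : GL D.Idx F // u ∈ gen hR.toAddRel {r | r ∈ L} ∧
      hP hR c₀ * u = u * hP hR c₀} := fun t => ⟨_, hmem t⟩
  have hΦ : Function.Bijective Φ := by
    constructor
    · intro t t' he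
      have h1 := congrArg Subtype.val he
      funext r
      have h2' := ordered_unique (hA := hR.toAddRel) hT L hL hp (ext t) (ext t') h1 r
        ((hmemK r).1 r.2).1
      simpa only [ext, dif_pos r.2] using h2'
    · rintro ⟨g, hg, hgt⟩
      obtain ⟨t, rfl⟩ := exists_ordered hT (commPos hR) L hL hp hcl g hg
      have h1 := conj_W_list hR hT hc₀ t L hlt
      rw [hgt, mul_inv_cancel_right] at h1
      have h3 := ordered_unique (hA := hR.toAddRel) hT L hL hp _ _ h1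
      refine ⟨fun r => t r, Subtype.ext ?_⟩
      show W hR.toAddRel (L.map fun r => (r, ext (fun r => t r) r)) = _
      congr 1
      apply List.map_congr_left
      intro r hr
      show (r, ext (fun r => t r) r) = (r, t r)
      congr 1
      by_cases h4 : r ∈ K
      · simp only [ext, dif_pos h4]
      · simp only [ext, dif_neg h4]
        have h5 : chi D c₀ r = -1 := by
          rcases hs r (hlt r hr) with h6 | h6
          · exact absurd ((hmemK r).2 ⟨hr, h6⟩) h4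
          · exact h6
        have h6 := h3 r hr
        rw [h5] at h6
        have h7 : (2 : F) * t r = 0 := by
          linear_combination h6
        have h8 := (mul_eq_zero.mp h7).resolve_left h2
        rw [h8]
  rw [← Nat.card_congr (Equiv.ofBijective Φ hΦ), Nat.card_fun]
  congr 1
  have hnd : K.Nodup := (hL.imp (fun h => ne_of_lt h)).filter _
  rw [Nat.card_eq_fintype_card]
  have : Fintype.card {r // r ∈ K} = K.toFinset.card :=
    Fintype.card_of_subtype _ (fun r => by simp)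
  rw [this, List.toFinset_card_of_nodup hnd]

/-! ### The subgroup `Un` -/

open Classical in
/-- The positive roots made negative. -/
noncomputable def Lw (hR : Sys D F η) (hT : Tbl D) (w : WW (pair hR hT)) : List ℕ :=
  D.posRoots.filter fun r => ∃ h : r < D.nroots, σW hR hT w ⟨r, h⟩ ∉ PosR D

open Classical in
theorem mem_Lw (w : WW (pair hR hT)) {r : ℕ} :
    r ∈ Lw hR hT w ↔ D.IsPosRoot r ∧ ∃ h : r < D.nroots, σ' w ⟨r, h⟩ ∉ PosR D := by
  simp only [Lw, List.mem_filter, decide_eq_true_eq, Cfsg.Agent.Lib.ChevBN.Stmts.mem_posRoots]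

theorem Lw_sorted (w : WW (pair hR hT)) : (Lw hR hT w).Pairwise (· < ·) :=
  List.Pairwise.filter _ posRoots_sorted

theorem Lw_pos (w : WW (pair hR hT)) : ∀ r ∈ Lw hR hT w, D.IsPosRoot r :=
  fun _ hr => ((mem_Lw hR hT w).1 hr).1

theorem Un_eq {n : GL D.Idx F} (hn : n ∈ D.monomialSubgroup F) :
    Un D F n = gen hR.toAddRel {r | r ∈ Lw hR hT (wOf hR hT hn)} := by
  apply le_antisymm
  · rw [Un, Subgroup.closure_le]
    rintro x ⟨r, t, hr, hm, hx⟩
    rw [eq_X hR.toAddRel] at hx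
    subst hx
    apply X_mem_gen
    refine (mem_Lw hR hT _).2 ⟨hr, hr.1, fun hpos => ?_⟩
    obtain ⟨κ, hκ, h1⟩ := conj_X_wOf hR hT hn ⟨r, hr.1⟩
    have h3 : n * X hR.toAddRel r 1 * n⁻¹ ∈ D.negUnipotent F := by
      apply hm
      refine ⟨_, ?_, rfl⟩
      rw [rootSubgroup_eq hR.toAddRel]
      exact X_mem_gen _ (Set.mem_singleton _) 1
    have h4 := h1 1
    simp only at h4
    rw [h4] at h3
    have h5 : X hR.toAddRel (σ' (wOf hR hT hn) ⟨r, hr.1⟩) (κ * 1) ∈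
        D.borelSubgroup F ⊓ D.negUnipotent F := ⟨U_le_B hR hT (X_mem_U hR hT hpos _), h3⟩
    rw [B_inf_V hR hT, Subgroup.mem_bot] at h5
    rw [← X_zero hR.toAddRel (σ' (wOf hR hT hn) ⟨r, hr.1⟩ : Fin D.nroots)] at h5
    have h6 := Cfsg.Agent.Lib.ChevBN.GraphFix.X_param_inj hR hT (Fin.isLt _) h5
    simp at h6
    exact hκ h6
  · refine gen_le _ ?_
    intro r hr t
    obtain ⟨h1, h2, h3⟩ := (mem_Lw hR hT _).1 hr
    apply Subgroup.subset_closure
    refine ⟨r, t, h1, ?_, coe_X _ _ _⟩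
    rw [Subgroup.map_le_iff_le_comap, rootSubgroup_eq hR.toAddRel]
    refine gen_le _ ?_
    intro r' hr' t'
    rw [Set.mem_singleton_iff] at hr'
    subst hr'
    rw [Subgroup.mem_comap]
    show n * X hR.toAddRel r' t' * n⁻¹ ∈ _
    obtain ⟨κ, hκ, h4⟩ := conj_X_wOf hR hT hn ⟨r', h2⟩
    rw [h4 t', negUnipotent_eq hR.toAddRel]
    apply X_mem_gen
    rcases hT.pos_or_neg (Fin.isLt (σ' (wOf hR hT hn) ⟨r', h2⟩)) with h5 | h5
    · exact absurd h5 h3
    · exact h5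

/-! ### Table facts on the commutator relations -/

omit hR hT in
/-- Linearity of the commutator terms and a positive functional. -/
structure CommLin (D : ChevalleyDatum) : Prop where
  hpos : ∃ m : ℕ → ℤ, ∀ s < D.nroots, D.IsPosRoot s → 0 < Ad D m s
  lin : ∀ r s, D.IsPosRoot r → D.IsPosRoot s → r ≠ s → ∀ c ∈ D.commTerms r s,
    1 ≤ c.2.2.1 ∧ 1 ≤ c.2.2.2 ∧
      ∀ l < D.rank, D.cartan l c.1 = c.2.2.1 * D.cartan l r + c.2.2.2 * D.cartan l s

/-- The Weyl group acts linearly on the Cartan vectors of roots. -/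
theorem cartan_word (w : WW (pair hR hT)) {x y z : Fin D.nroots} {i j : ℤ}
    (h : ∀ l < D.rank, D.cartan l x = i * D.cartan l y + j * D.cartan l z) :
    ∀ l < D.rank, D.cartan l (σ' w x) = i * D.cartan l (σ' w y) + j * D.cartan l (σ' w z) := by
  obtain ⟨l, rfl, -⟩ := (setupW hR hT).ex w
  induction l with
  | nil => simpa using h
  | cons a l ih =>
    intro k hk
    rw [pr_cons, map_mul, Equiv.Perm.mul_apply, Equiv.Perm.mul_apply, Equiv.Perm.mul_apply, σW_fW]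
    simp only [Tbl.wPerm_val]
    rw [hT.cartan_w k hk a a.2 _ (Fin.isLt _), hT.cartan_w k hk a a.2 _ (Fin.isLt _),
      hT.cartan_w k hk a a.2 _ (Fin.isLt _), ih k hk, ih a a.2]
    ring

theorem Ad_neg_root {m : ℕ → ℤ} (hm : ∀ s < D.nroots, D.IsPosRoot s → 0 < Ad D m s)
    {x : Fin D.nroots} (hx : x ∉ PosR D) : Ad D m x < 0 := by
  have h1 : negF hT x ∈ PosR D := (posR_neg_iff hR hT x).2 hx
  have h2 := hm _ (Fin.isLt _) h1
  have h3 : Ad D m (negF hT x) = - Ad D m x := by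
    rw [Ad_eq_sum, Ad_eq_sum, ← Finset.sum_neg_distrib]
    apply Finset.sum_congr rfl
    intro j hj
    have : D.cartan j (negF hT x : Fin D.nroots) = - D.cartan j x :=
      hT.cartan_neg j (Finset.mem_range.mp hj) x x.isLt
    rw [this]
    ring
  omega

theorem Lw_closed (hC : CommLin D) (w : WW (pair hR hT)) : ∀ r ∈ Lw hR hT w, ∀ s ∈ Lw hR hT w, r < s →
    ∀ c ∈ D.commTerms r s, c.1 ∈ Lw hR hT w := by
  intro r hr s hs hrs c hc
  obtain ⟨hr1, hr2, hr3⟩ := (mem_Lw hR hT w).1 hr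
  obtain ⟨hs1, hs2, hs3⟩ := (mem_Lw hR hT w).1 hs
  have hne : r ≠ s := ne_of_lt hrs
  obtain ⟨-, -, hc3, -⟩ := hT.comm_keys r s hr1 hs1 hne c hc
  obtain ⟨hi, hj, hlin⟩ := hC.lin r s hr1 hs1 hne c hc
  obtain ⟨m, hm⟩ := hC.hpos
  refine (mem_Lw hR hT w).2 ⟨hc3, hc3.1, fun hpos => ?_⟩
  have h1 := cartan_word hR hT w (x := ⟨c.1, hc3.1⟩) (y := ⟨r, hr2⟩) (z := ⟨s, hs2⟩)
    (i := c.2.2.1) (j := c.2.2.2) hlin
  have h2 : Ad D m (σ' w ⟨c.1, hc3.1⟩) = c.2.2.1 * Ad D m (σ' w ⟨r, hr2⟩) +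
      c.2.2.2 * Ad D m (σ' w ⟨s, hs2⟩) := by
    rw [Ad_eq_sum, Ad_eq_sum, Ad_eq_sum, Finset.mul_sum, Finset.mul_sum, ← Finset.sum_add_distrib]
    apply Finset.sum_congr rfl
    intro k hk
    rw [h1 k (Finset.mem_range.mp hk)]
    ring
  have h3 := hm _ (Fin.isLt _) hpos
  have h4 := Ad_neg_root hR hT hm hr3
  have h5 := Ad_neg_root hR hT hm hs3
  rw [h2] at h3
  have h6 : ((c.2.2.1 : ℕ) : ℤ) * Ad D m (σ' w ⟨r, hr2⟩) < 0 :=
    mul_neg_of_pos_of_neg (by exact_mod_cast hi) h4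
  have h7 : ((c.2.2.2 : ℕ) : ℤ) * Ad D m (σ' w ⟨s, hs2⟩) < 0 :=
    mul_neg_of_pos_of_neg (by exact_mod_cast hj) h5
  omega

/-! ### Monomial elements commuting with `t` -/

theorem stab_of_comm {c₀ : ℕ → F} (hc₀ : ∀ j < D.rank, c₀ j ≠ 0) {n : GL D.Idx F}
    (hn : n ∈ D.monomialSubgroup F) (hnt : n * hP hR c₀ = hP hR c₀ * n) (s : Fin D.nroots) :
    chi D c₀ (σ' (wOf hR hT hn) s) = chi D c₀ s := by
  obtain ⟨κ, hκ, h1⟩ := conj_X_wOf hR hT hn s
  have h3 : hP hR c₀ * (n * X hR.toAddRel s 1 * n⁻¹) * (hP hR c₀)⁻¹ =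
      n * (hP hR c₀ * X hR.toAddRel s 1 * (hP hR c₀)⁻¹) * n⁻¹ := by
    calc hP hR c₀ * (n * X hR.toAddRel s 1 * n⁻¹) * (hP hR c₀)⁻¹ =
          (hP hR c₀ * n) * X hR.toAddRel s 1 * (hP hR c₀ * n)⁻¹ := by group
      _ = (n * hP hR c₀) * X hR.toAddRel s 1 * (n * hP hR c₀)⁻¹ := by rw [hnt]
      _ = _ := by group
  rw [h1, hP_conj hR hc₀ (Fin.isLt _), hP_conj hR hc₀ s.isLt, h1] at h3
  have h4 := Cfsg.Agent.Lib.ChevBN.GraphFix.X_param_inj hR hT (Fin.isLt _) h3
  have h5 : chi D c₀ (σ' (wOf hR hT hn) s) * κ = κ * chi D c₀ s := by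
    simpa using h4
  rw [mul_comm] at h5
  exact mul_left_cancel₀ hκ h5

theorem comm_of_stab {c₀ : ℕ → F} (hc₀ : ∀ j < D.rank, c₀ j ≠ 0) {n : GL D.Idx F}
    (hn : n ∈ D.monomialSubgroup F)
    (h : ∀ s : Fin D.nroots, chi D c₀ (σ' (wOf hR hT hn) s) = chi D c₀ s) :
    n * hP hR c₀ = hP hR c₀ * n := by
  have h1 : n * hP hR c₀ * n⁻¹ ∈ D.diagonalSubgroup F :=
    H_norm_N hR hT hn (hP_mem_H' hR hT hc₀)
  obtain ⟨c', hc', h2⟩ := (mem_torus hR).1 (by rw [← diagonal_eq hR hT]; exact h1)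
  have hχ : ∀ s : Fin D.nroots, chi D c' s = chi D c₀ s := by
    intro s
    obtain ⟨s', rfl⟩ := (σ' (wOf hR hT hn)).surjective s
    rw [h s']
    obtain ⟨κ, hκ, h3⟩ := conj_X_wOf hR hT hn s'
    have h4 : hP hR c' * (n * X hR.toAddRel s' 1 * n⁻¹) * (hP hR c')⁻¹ =
        n * (hP hR c₀ * X hR.toAddRel s' 1 * (hP hR c₀)⁻¹) * n⁻¹ := by
      rw [← h2]
      group
    rw [h3, hP_conj hR hc' (Fin.isLt _), hP_conj hR hc₀ s'.isLt, h3] at h4
    have h5 := Cfsg.Agent.Lib.ChevBN.GraphFix.X_param_inj hR hT (Fin.isLt _) h4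
    have h6 : chi D c' (σ' (wOf hR hT hn) s') * κ = κ * chi D c₀ s' := by
      simpa using h5
    rw [mul_comm] at h6
    exact mul_left_cancel₀ hκ h6
  have h7 : hP hR c' = hP hR c₀ := by
    apply Units.ext
    rw [coe_hP hR hc', coe_hP hR hc₀]
    congr 1
    funext s
    exact hχ s
  rw [h7] at h2
  rw [mul_inv_eq_iff_eq_mul] at h2
  exact h2

theorem conj_gen_mem {c₀ : ℕ → F} (hc₀ : ∀ j < D.rank, c₀ j ≠ 0) {Ψ : Set ℕ} (hΨ : ∀ r ∈ Ψ, r < D.nroots)
    {u : GL D.Idx F} (hu : u ∈ gen hR.toAddRel Ψ) :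
    hP hR c₀ * u * (hP hR c₀)⁻¹ ∈ gen hR.toAddRel Ψ := by
  refine gen_induction hR.toAddRel (P := fun u => hP hR c₀ * u * (hP hR c₀)⁻¹ ∈ gen hR.toAddRel Ψ)
    (by simp) ?_ ?_ hu
  · intro r hr t
    rw [hP_conj hR hc₀ (hΨ r hr)]
    exact X_mem_gen _ hr _
  · intro a b ha hb
    have e : hP hR c₀ * (a * b) * (hP hR c₀)⁻¹ =
        (hP hR c₀ * a * (hP hR c₀)⁻¹) * (hP hR c₀ * b * (hP hR c₀)⁻¹) := by group
    rw [e]
    exact Subgroup.mul_mem _ ha hb

/-! ### The order of the centraliser -/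

section Main

open Classical

/-- The order of the centraliser of an element of order two in `H`, as a sum over the stabiliser in
the Weyl group. -/
theorem card_cent [Finite F] [Fintype (WW (pair hR hT))] (hC : CommLin D) (h2 : (2 : F) ≠ 0)
    {c₀ : ℕ → F} (hc₀ : ∀ j < D.rank, c₀ j ≠ 0)
    (hs : ∀ s < D.nroots, chi D c₀ s = 1 ∨ chi D c₀ s = -1) :
    Nat.card {g : GL D.Idx F // g ∈ D.group F ∧ hP hR c₀ * g = g * hP hR c₀} =
      Nat.card F ^ (D.posRoots.filter fun r => chi D c₀ r = 1).length *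
        Nat.card (D.diagonalSubgroup F) *
        ∑ w ∈ Finset.univ.filter (fun w : WW (pair hR hT) =>
            ∀ s : Fin D.nroots, chi D c₀ (σ' w s) = chi D c₀ s),
          Nat.card F ^ ((Lw hR hT w).filter fun r => chi D c₀ r = 1).length := by
  set t := hP hR c₀ with ht
  have htH : t ∈ D.diagonalSubgroup F := hP_mem_H' hR hT hc₀
  choose ρ hρ hρw using mk_out_eq hR hT
  let T := {w : WW (pair hR hT) // ∀ s : Fin D.nroots, chi D c₀ (σ' w s) = chi D c₀ s}
  let CU := {u : GL D.Idx F // u ∈ gen hR.toAddRel {r | r ∈ D.posRoots} ∧ t * u = u * t}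
  let CV := fun w : WW (pair hR hT) =>
    {u : GL D.Idx F // u ∈ gen hR.toAddRel {r | r ∈ Lw hR hT w} ∧ t * u = u * t}
  have hUe := posUnipotent_eq_list (F := F) hR hT
  have hρt : ∀ w : T, t * ρ w.1 = ρ w.1 * t := by
    intro w
    have := comm_of_stab hR hT hc₀ (hρ w.1) (by rw [hρw]; exact w.2)
    exact this.symm
  have hVU : ∀ w : WW (pair hR hT), gen hR.toAddRel {r | r ∈ Lw hR hT w} ≤ D.posUnipotent F := by
    intro w
    rw [hUe]
    refine gen_mono _ ?_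
    intro r hr
    exact Cfsg.Agent.Lib.ChevBN.Stmts.mem_posRoots.2 (Lw_pos hR hT w r hr)
  let toG : (Σ w : T, CU × ↥(D.diagonalSubgroup F) × CV w.1) → GL D.Idx F :=
    fun p => p.2.1.1 * (p.2.2.1 : GL D.Idx F) * ρ p.1.1 * p.2.2.2.1
  have hUm : ∀ {x : GL D.Idx F}, x ∈ gen hR.toAddRel {r | r ∈ D.posRoots} → x ∈ D.posUnipotent F := by
    intro x hx
    rw [hUe]
    exact hx
  have hG : ∀ p, toG p ∈ D.group F ∧ t * toG p = toG p * t := by
    rintro ⟨w, ⟨a, ha, hat⟩, h, ⟨b, hb, hbt⟩⟩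
    constructor
    · refine Subgroup.mul_mem _ (Subgroup.mul_mem _ (Subgroup.mul_mem _ ?_ ?_) ?_) ?_
      · exact U_le_G hR hT (hUm ha)
      · exact H_le_G hR hT h.2
      · exact N_le_G hR hT (hρ _)
      · exact U_le_G hR hT (hVU _ hb)
    · show t * (a * (h : GL D.Idx F) * ρ w.1 * b) = a * (h : GL D.Idx F) * ρ w.1 * b * t
      have h3 : t * (h : GL D.Idx F) = (h : GL D.Idx F) * t := H_comm hR hT htH h.2
      calc t * (a * (h : GL D.Idx F) * ρ w.1 * b) = (t * a) * (h : GL D.Idx F) * ρ w.1 * b := by group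
        _ = a * (t * (h : GL D.Idx F)) * ρ w.1 * b := by rw [hat]; group
        _ = a * (h : GL D.Idx F) * (t * ρ w.1) * b := by rw [h3]; group
        _ = a * (h : GL D.Idx F) * ρ w.1 * (t * b) := by rw [hρt w]; group
        _ = _ := by rw [hbt]; group
  let Ψ' : (Σ w : T, CU × ↥(D.diagonalSubgroup F) × CV w.1) →
      {g : GL D.Idx F // g ∈ D.group F ∧ t * g = g * t} := fun p => ⟨toG p, hG p⟩
  -- uniqueness in `U H`
  have hUH : ∀ {a a' h h' : GL D.Idx F}, a ∈ D.posUnipotent F → a' ∈ D.posUnipotent F →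
      h ∈ D.diagonalSubgroup F → h' ∈ D.diagonalSubgroup F → a * h = a' * h' → a = a' ∧ h = h' := by
    intro a a' h h' ha ha' hh hh' e
    have h6 : a'⁻¹ * a = h' * h⁻¹ := by
      rw [inv_mul_eq_iff_eq_mul, ← mul_assoc, eq_mul_inv_iff_mul_eq]
      exact e
    have h7 : a'⁻¹ * a ∈ D.posUnipotent F ⊓ D.diagonalSubgroup F := by
      refine ⟨Subgroup.mul_mem _ (Subgroup.inv_mem _ ha') ha, ?_⟩
      rw [h6]
      exact Subgroup.mul_mem _ hh' (Subgroup.inv_mem _ hh)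
    rw [U_inf_H hR hT, Subgroup.mem_bot] at h7
    have h8 : a = a' := by
      rw [inv_mul_eq_one] at h7
      exact h7.symm
    subst h8
    exact ⟨rfl, mul_left_cancel e⟩
  have hΨ : Function.Bijective Ψ' := by
    constructor
    · rintro ⟨w, ⟨a, ha, hat⟩, h, ⟨b, hb, hbt⟩⟩ ⟨w', ⟨a', ha', hat'⟩, h', ⟨b', hb', hbt'⟩⟩ he
      have he' : a * (h : GL D.Idx F) * ρ w.1 * b = a' * (h' : GL D.Idx F) * ρ w'.1 * b' :=
        congrArg Subtype.val he
      have haB : a * (h : GL D.Idx F) ∈ D.borelSubgroup F :=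
        Subgroup.mul_mem _ (U_le_B hR hT (hUm ha)) (H_le_B hR hT h.2)
      have haB' : a' * (h' : GL D.Idx F) ∈ D.borelSubgroup F :=
        Subgroup.mul_mem _ (U_le_B hR hT (hUm ha')) (H_le_B hR hT h'.2)
      have hbU : b ∈ Un D F (ρ w.1) := by
        rw [Un_eq hR hT (hρ _), hρw]
        exact hb
      have hbU' : b' ∈ Un D F (ρ w'.1) := by
        rw [Un_eq hR hT (hρ _), hρw]
        exact hb'
      obtain ⟨h1, -⟩ := normal_form_unique hR hT haB haB' (hρ _) (hρ _) hbU hbU' he'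
      have hww : w.1 = w'.1 := by
        have := (wOf_eq_iff hR hT (hρ w.1) (hρ w'.1)).2 h1
        rwa [hρw, hρw] at this
      obtain ⟨w₀, hw₀⟩ := w
      obtain ⟨w₀', hw₀'⟩ := w'
      simp only at hww
      subst hww
      obtain ⟨-, h3⟩ := normal_form_unique hR hT haB haB' (hρ _) (hρ _) hbU hbU' he'
      obtain ⟨h4, h5⟩ := h3 rfl
      subst h5
      obtain ⟨h6, h7⟩ := hUH (hUm ha) (hUm ha') h.2 h'.2 h4
      subst h6
      have h8 : h = h' := Subtype.ext h7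
      subst h8
      rfl
    · rintro ⟨g, hg, hgt⟩
      obtain ⟨b, hb, n, hn, u, hu, e⟩ := normal_form_exists hR hT hg
      set w := wOf hR hT hn with hw
      have hk : n * (ρ w)⁻¹ ∈ D.diagonalSubgroup F := by
        have h1 : wOf hR hT (hρ w) = wOf hR hT hn := by rw [hρw]
        have h2' := (wOf_eq_iff hR hT (hρ w) hn).1 h1
        have h3 := H_norm_N hR hT (hρ w) h2'
        have e2 : ρ w * ((ρ w)⁻¹ * n) * (ρ w)⁻¹ = n * (ρ w)⁻¹ := by group
        rwa [e2] at h3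
      have hn2 : n = (n * (ρ w)⁻¹) * ρ w := by group
      obtain ⟨a, ha, h, hh, e1⟩ := (mem_B_iff hR hT).mp
        (Subgroup.mul_mem _ hb (H_le_B hR hT hk))
      have hu' : u ∈ gen hR.toAddRel {r | r ∈ Lw hR hT w} := by
        rw [← Un_eq hR hT hn]
        exact hu
      have hu'' : u ∈ Un D F (ρ w) := by
        rw [Un_eq hR hT (hρ _), hρw]
        exact hu'
      have hg2 : g = a * h * ρ w * u := by
        rw [e, ← e1]
        nth_rewrite 1 [hn2]
        group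
      -- the commutation with `t`
      have htg : t * g * t⁻¹ = g := by
        rw [hgt]
        group
      set h₁ := t * (ρ w * t⁻¹ * (ρ w)⁻¹) with hh₁
      have hh₁H : h₁ ∈ D.diagonalSubgroup F :=
        Subgroup.mul_mem _ htH (H_norm_N hR hT (hρ w) (Subgroup.inv_mem _ htH))
      have htρ : t * ρ w * t⁻¹ = h₁ * ρ w := by
        rw [hh₁]
        group
      have ht3 : t⁻¹ ∈ D.diagonalSubgroup F := Subgroup.inv_mem _ htH
      have hth : t * h * t⁻¹ = h := by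
        rw [H_comm hR hT htH hh]
        group
      have hta : t * a * t⁻¹ ∈ D.posUnipotent F := H_norm_U hR hT htH ha
      have htu : t * u * t⁻¹ ∈ Un D F (ρ w) := by
        rw [Un_eq hR hT (hρ _), hρw]
        exact conj_gen_mem hR hT hc₀
          (fun r hr => ((mem_Lw hR hT w).1 hr).2.1) hu'
      have e3 : ((t * a * t⁻¹) * (h * h₁)) * ρ w * (t * u * t⁻¹) = (a * h) * ρ w * u := by
        have : t * (a * h * ρ w * u) * t⁻¹ = a * h * ρ w * u := by
          rw [← hg2]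
          exact htg
        calc ((t * a * t⁻¹) * (h * h₁)) * ρ w * (t * u * t⁻¹) =
            (t * a * t⁻¹) * h * (h₁ * ρ w) * (t * u * t⁻¹) := by group
          _ = (t * a * t⁻¹) * (t * h * t⁻¹) * (t * ρ w * t⁻¹) * (t * u * t⁻¹) := by rw [htρ, hth]
          _ = t * (a * h * ρ w * u) * t⁻¹ := by group
          _ = _ := this
      have hB1 : (t * a * t⁻¹) * (h * h₁) ∈ D.borelSubgroup F :=
        Subgroup.mul_mem _ (U_le_B hR hT hta) (H_le_B hR hT (Subgroup.mul_mem _ hh hh₁H))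
      have hB2 : a * h ∈ D.borelSubgroup F :=
        Subgroup.mul_mem _ (U_le_B hR hT ha) (H_le_B hR hT hh)
      obtain ⟨-, h5⟩ := normal_form_unique hR hT hB1 hB2 (hρ w) (hρ w) htu hu'' e3
      obtain ⟨h6, h7⟩ := h5 rfl
      obtain ⟨h8, h9⟩ := hUH hta ha (Subgroup.mul_mem _ hh hh₁H) hh h6
      have hh₁1 : h₁ = 1 := by
        have : h * h₁ = h * 1 := by rw [mul_one]; exact h9
        exact mul_left_cancel this
      have htρ2 : ρ w * t = t * ρ w := by
        rw [hh₁1, one_mul, mul_inv_eq_iff_eq_mul] at htρ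
        exact htρ.symm
      have hstab : ∀ s : Fin D.nroots, chi D c₀ (σ' w s) = chi D c₀ s := by
        intro s
        have := stab_of_comm hR hT hc₀ (hρ w) htρ2 s
        rwa [hρw] at this
      have ha' : t * a = a * t := by
        rw [mul_inv_eq_iff_eq_mul] at h8
        exact h8
      have hu3 : t * u = u * t := by
        rw [mul_inv_eq_iff_eq_mul] at h7
        exact h7
      refine ⟨⟨⟨w, hstab⟩, ⟨a, by rw [← hUe]; exact ha, ha'⟩, ⟨h, hh⟩, ⟨u, hu', hu3⟩⟩, ?_⟩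
      apply Subtype.ext
      exact hg2.symm
  have h10 : Nat.card CU = Nat.card F ^ (D.posRoots.filter fun r => chi D c₀ r = 1).length := by
    have := card_fix_gen hR hT h2 hc₀ hs D.posRoots posRoots_sorted
      (fun r hr => Cfsg.Agent.Lib.ChevBN.Stmts.mem_posRoots.1 hr) (posRoots_closed hR hT)
    exact this
  have h11 : ∀ w : WW (pair hR hT),
      Nat.card (CV w) = Nat.card F ^ ((Lw hR hT w).filter fun r => chi D c₀ r = 1).length := by
    intro w
    exact card_fix_gen hR hT h2 hc₀ hs (Lw hR hT w) (Lw_sorted hR hT w) (Lw_pos hR hT w)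
      (Lw_closed hR hT hC w)
  rw [← Nat.card_congr (Equiv.ofBijective Ψ' hΨ), Nat.card_sigma]
  simp only [Nat.card_prod, h10, h11]
  rw [Finset.mul_sum, Finset.sum_subtype _
    (p := fun w : WW (pair hR hT) => ∀ s : Fin D.nroots, chi D c₀ (σ' w s) = chi D c₀ s) (by simp)]
  apply Finset.sum_congr rfl
  intro x _
  ring

end Main

end Cfsg.Agent.Lib.ChevOdd.CentCard
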