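import Cfsg.Agent.Lib.ChevOdd.OddIdx
import Cfsg.Agent.Lib.ChevBN.H1

/-!
Every involution of the Chevalley group over a finite field of odd order is conjugate to an element of the
torus.
-/

set_option autoImplicit false
set_option linter.unusedSectionVars false

namespace Cfsg.Agent.Lib.ChevOdd.OddCert

open Cfsg.Lie Cfsg.Agent.Lib.ChevBN.Elem Cfsg.Agent.Lib.ChevBN.Entries Cfsg.Agent.Lib.ChevBN.Table
open Cfsg.Agent.Lib.ChevBN.Collect Cfsg.Agent.Lib.ChevBN.Rel Cfsg.Agent.Lib.ChevBN.Torus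
open Cfsg.Agent.Lib.ChevBN.Monomial Cfsg.Agent.Lib.ChevBN.Core Cfsg.Agent.Lib.ChevBN.Pair
open Cfsg.Agent.Lib.ChevBN.Stmts Cfsg.Agent.Lib.ChevBN.BruhatForm Cfsg.Agent.Lib.ChevBN.Opp
open Cfsg.Agent.Lib.ChevBN.ConjH Cfsg.Agent.Lib.ChevBN.Fix Cfsg.Agent.Lib.ChevBN.RootCent
open Cfsg.Agent.Lib.ChevOrder.Chev Cfsg.Agent.Lib.ChevOrder.BNCount Cfsg.Agent.Lib.ChevOrder.Cox
open Cfsg.Agent.Lib.ChevOrder.Level Cfsg.Agent.Lib.ChevOrder.Chain
open Cfsg.Agent.Lib.BNPair.CoxeterExchange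
open Cfsg.Agent.Lib.BNPair.Basic Cfsg.Agent.Lib.BNPair.Parabolic
open Cfsg.Agent.Lib.ChevOdd.Kappa Cfsg.Agent.Lib.ChevOdd.Invol Cfsg.Agent.Lib.ChevOdd.Cayley
open Cfsg.Agent.Lib.ChevOdd.GoodRoot Cfsg.Agent.Lib.ChevOdd.CentCard
open Cfsg.Agent.Lib.ChevOdd.Ext

/-- The table facts for a representative. -/
def RepCert (D : ChevalleyDatum) (full : List (ℕ × List (List ℤ × ℕ))) (e₀ : ℕ) (ds : List ℕ) : Prop :=
  ∃ (gens : List Gen) (c : List Lev1) (words : List (List ℕ)), GenCert D e₀ gens ∧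
    checkChain1 D e₀ gens c = true ∧ (∀ i < gens.length, i ∈ c.map Prod.fst) ∧ OrbCert D e₀ words ∧
    0 < words.length ∧ chainSum 1 full = chainSum 1 (strip c) * words.length ∧
    chainPoly (strip c) = degPoly ds

/-- All the table facts. -/
structure OddData (D : ChevalleyDatum) (η : ℕ → ℕ → ℤ) (full : List (ℕ × List (List ℤ × ℕ)))
    (fds : List ℕ) (reps : List (ℕ × List ℕ)) : Prop where
  hT : Tbl D
  hC : CommLin D
  hO : OddTab D
  hCI : CartanInv D 1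
  hη : ∀ i < D.rank, η i (D.simple i) = -1
  hfull : checkChain D full = true
  hfall : ∀ i < D.rank, i ∈ full.map Prod.fst
  hfpoly : chainPoly full = degPoly fds
  hfne : peval 1 (degPoly fds) ≠ 0
  hreps : ∀ r ∈ reps, RepCert D full r.1 r.2 ∧ peval 1 (degPoly r.2) ≠ 0
  cover : ∀ e < 2 ^ D.rank, e = 0 ∨ ∃ r ∈ reps, ∃ l : List ℕ, (∀ i ∈ l, i < D.rank) ∧ actW D r.1 l = e

variable {D : ChevalleyDatum} {η : ℕ → ℕ → ℤ}

section Counts

variable {F : Type*} [Field F] [Finite F] (hR : Sys D F η) (hT : Tbl D)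
include hR hT

theorem chainSum_eq (q : ℕ) {c : List (ℕ × List (List ℤ × ℕ))} {ds : List ℕ}
    (h : chainPoly c = degPoly ds) : chainSum q c = peval q (degPoly ds) := by
  rw [← peval_chainPoly, h]

/-- The centraliser of an element with a code in the list of representatives. -/
theorem card_cent_rep {full : List (ℕ × List (List ℤ × ℕ))} {e₀ : ℕ} {ds : List ℕ} (hC : CommLin D)
    (hCI : CartanInv D 1) (h2 : (2 : F) ≠ 0) (hfull : checkChain D full = true)
    (hfall : ∀ i < D.rank, i ∈ full.map Prod.fst) (hr : RepCert D full e₀ ds) :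
    Nat.card {g : GL D.Idx F // g ∈ D.group F ∧ hP hR (cE F e₀) * g = g * hP hR (cE F e₀)} =
      Nat.card F ^ (posOf D e₀).length * Nat.card (D.diagonalSubgroup F) *
        peval (Nat.card F) (degPoly ds) := by
  classical
  haveI : Fintype (WW (pair hR hT)) := Fintype.ofFinite _
  obtain ⟨gens, c, words, hG, hc, hall, hO, hw, hnum, hpoly⟩ := hr
  have h1 := card_cent hR hT hC h2 (c₀ := cE F e₀) (fun j _ => cE_ne e₀ j)
    (fun s _ => chi_sign e₀ s)
  rw [h1, sum_stab hR hT hG hCI h2 hO hw hc hall hfull hfall hnum (Nat.card F),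
    chainSum_eq hR hT _ hpoly]
  congr 3
  rw [posOf]
  congr 1
  apply List.filter_congr
  intro r _
  have := chi_eq_one_iff (D := D) h2 e₀ r
  by_cases h3 : parB D e₀ r = false
  · simp [h3, this.2 h3]
  · have h4 : ¬ chi D (cE F e₀) r = 1 := fun h5 => h3 (this.1 h5)
    simp [h3, h4]

/-- The part of `N` in the centraliser. -/
theorem card_NC_rep {full : List (ℕ × List (List ℤ × ℕ))} {e₀ : ℕ} {ds : List ℕ}
    (hCI : CartanInv D 1) (h2 : (2 : F) ≠ 0) (hfull : checkChain D full = true)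
    (hfall : ∀ i < D.rank, i ∈ full.map Prod.fst) (hr : RepCert D full e₀ ds) :
    Nat.card {n : GL D.Idx F // n ∈ D.monomialSubgroup F ∧
        hP hR (cE F e₀) * n = n * hP hR (cE F e₀)} =
      Nat.card (D.diagonalSubgroup F) * peval 1 (degPoly ds) := by
  classical
  haveI : Fintype (WW (pair hR hT)) := Fintype.ofFinite _
  obtain ⟨gens, c, words, hG, hc, hall, hO, hw, hnum, hpoly⟩ := hr
  haveI : Fintype ↥(W₁ hR hT gens) := Fintype.ofFinite _
  rw [card_N_stab hR hT e₀, ← stab_eq hR hT hG hCI h2 hO hw hc hall hfull hfall hnum,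
    card_W₁ hR hT hG hc hall, chainSum_eq hR hT _ hpoly]

theorem cE_zero (j : ℕ) : cE F 0 j = 1 := by
  simp [cE]

theorem hP_cE_zero : hP hR (cE F 0) = 1 := by
  rw [← hP_one hR]
  exact hP_congr hR hT fun j _ => cE_zero hR hT j

/-- The group `N`. -/
theorem card_N {full : List (ℕ × List (List ℤ × ℕ))} {fds : List ℕ}
    (hfull : checkChain D full = true) (hfall : ∀ i < D.rank, i ∈ full.map Prod.fst)
    (hpoly : chainPoly full = degPoly fds) :
    Nat.card (D.monomialSubgroup F) = Nat.card (D.diagonalSubgroup F) * peval 1 (degPoly fds) := by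
  classical
  haveI : Fintype (WW (pair hR hT)) := Fintype.ofFinite _
  have h1 := card_N_stab hR hT (F := F) 0
  rw [hP_cE_zero hR hT] at h1
  have h3 : stabS hR hT 0 = (⊤ : Subgroup (WW (pair hR hT))) := by
    rw [eq_top_iff]
    intro w _ s
    rw [chi_cE_par, chi_cE_par]
    have h5 : ∀ r : ℕ, parB D 0 r = false := by
      intro r
      have : Ad D (vE 0) r = 0 := by
        rw [Ad_eq_sum]
        apply Finset.sum_eq_zero
        intro j _
        simp [vE]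
      simp [parB, this]
    simp [h5]
  rw [h3, Subgroup.card_top] at h1
  have h4 : Nat.card (WW (pair hR hT)) = peval 1 (degPoly fds) := by
    rw [← chainSum_eq hR hT _ hpoly, ← sum_W hR hT 1 hfull hfall]
    simp
  rw [h4] at h1
  rw [← h1]
  apply Nat.card_congr
  apply Equiv.subtypeEquivRight
  intro x
  simp

theorem H_card_pos : 0 < Nat.card (D.diagonalSubgroup F) := Nat.card_pos

/-- The index of `N` in the group is odd when `|F|` is `1` modulo `4`. -/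
theorem index_N_odd {full : List (ℕ × List (List ℤ × ℕ))} {fds : List ℕ} (hQ : Nat.card F % 4 = 1)
    (hfull : checkChain D full = true) (hfall : ∀ i < D.rank, i ∈ full.map Prod.fst)
    (hpoly : chainPoly full = degPoly fds) (hne : peval 1 (degPoly fds) ≠ 0) :
    ¬ 2 ∣ ((D.monomialSubgroup F).subgroupOf (D.group F)).index := by
  classical
  haveI : Fintype (WW (pair hR hT)) := Fintype.ofFinite _
  have hle : D.monomialSubgroup F ≤ D.group F := N_le_G hR hT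
  have h1 := Subgroup.card_mul_index ((D.monomialSubgroup F).subgroupOf (D.group F))
  rw [Nat.card_congr (Subgroup.subgroupOfEquivOfLe hle).toEquiv, card_N hR hT hfull hfall hpoly,
    card_group_chain hR hT hfull hfall, chainSum_eq hR hT _ hpoly] at h1
  have h3 : ((D.monomialSubgroup F).subgroupOf (D.group F)).index * peval 1 (degPoly fds) =
      Nat.card F ^ D.posRoots.length * peval (Nat.card F) (degPoly fds) := by
    have h4 := H_card_pos hR hT (F := F)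
    apply Nat.eq_of_mul_eq_mul_left h4
    calc _ = Nat.card (D.diagonalSubgroup F) * peval 1 (degPoly fds) *
          ((D.monomialSubgroup F).subgroupOf (D.group F)).index := by ring
      _ = _ := by rw [h1]; ring
  have h4 := odd_of_mul hQ h3 hne
  rw [Nat.odd_iff] at h4
  omega

/-- The centraliser as a subgroup. -/
def Cg (D : ChevalleyDatum) (F : Type*) [Field F] (t : GL D.Idx F) : Subgroup (GL D.Idx F) :=
  D.group F ⊓ Subgroup.centralizer {t}

omit [Finite F] hR hT in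
theorem mem_Cg {t g : GL D.Idx F} : g ∈ Cg D F t ↔ g ∈ D.group F ∧ t * g = g * t := by
  rw [Cg, Subgroup.mem_inf, Subgroup.mem_centralizer_singleton_iff]
  constructor
  · rintro ⟨h1, h2⟩
    exact ⟨h1, h2.symm⟩
  · rintro ⟨h1, h2⟩
    exact ⟨h1, h2.symm⟩

/-- The index of `N ∩ C(t)` in `C(t)` is odd when `|F|` is `1` modulo `4`. -/
theorem index_NC_odd {full : List (ℕ × List (List ℤ × ℕ))} {e₀ : ℕ} {ds : List ℕ} (hQ : Nat.card F % 4 = 1)
    (hC : CommLin D) (hCI : CartanInv D 1) (h2 : (2 : F) ≠ 0) (hfull : checkChain D full = true)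
    (hfall : ∀ i < D.rank, i ∈ full.map Prod.fst) (hr : RepCert D full e₀ ds)
    (hne : peval 1 (degPoly ds) ≠ 0) :
    ¬ 2 ∣ ((D.monomialSubgroup F).subgroupOf (Cg D F (hP hR (cE F e₀)))).index := by
  set t := hP hR (cE F e₀) with ht
  have h1 := Subgroup.card_mul_index ((D.monomialSubgroup F).subgroupOf (Cg D F t))
  have h3 : Nat.card ↥(Cg D F t) = Nat.card {g : GL D.Idx F // g ∈ D.group F ∧ t * g = g * t} := by
    apply Nat.card_congr
    apply Equiv.subtypeEquivRight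
    intro g
    exact mem_Cg
  have h4 : Nat.card ↥((D.monomialSubgroup F).subgroupOf (Cg D F t)) =
      Nat.card {n : GL D.Idx F // n ∈ D.monomialSubgroup F ∧ t * n = n * t} := by
    apply Nat.card_congr
    refine ⟨fun x => ⟨x.1.1, Subgroup.mem_subgroupOf.1 x.2, (mem_Cg.1 x.1.2).2⟩,
      fun x => ⟨⟨x.1, mem_Cg.2 ⟨N_le_G hR hT x.2.1, x.2.2⟩⟩, Subgroup.mem_subgroupOf.2 x.2.1⟩, ?_, ?_⟩
    · intro x
      rfl
    · intro x
      rfl
  rw [h3, h4, card_cent_rep hR hT hC hCI h2 hfull hfall hr, card_NC_rep hR hT hCI h2 hfull hfall hr] at h1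
  have h5 : ((D.monomialSubgroup F).subgroupOf (Cg D F t)).index * peval 1 (degPoly ds) =
      Nat.card F ^ (posOf D e₀).length * peval (Nat.card F) (degPoly ds) := by
    have h6 := H_card_pos hR hT (F := F)
    apply Nat.eq_of_mul_eq_mul_left h6
    calc _ = Nat.card (D.diagonalSubgroup F) * peval 1 (degPoly ds) *
          ((D.monomialSubgroup F).subgroupOf (Cg D F t)).index := by ring
      _ = _ := by rw [h1]; ring
  have h6 := odd_of_mul hQ h5 hne
  rw [Nat.odd_iff] at h6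
  omega

end Counts

/-! ### Descent -/

theorem exists_code {F : Type*} [Field F] (c : ℕ → F) (n : ℕ) (h : ∀ j < n, c j = 1 ∨ c j = -1) :
    ∃ e < 2 ^ n, ∀ j < n, c j = cE F e j := by
  induction n with
  | zero => exact ⟨0, by simp, by simp⟩
  | succ n ih =>
    obtain ⟨e, he, h1⟩ := ih fun j hj => h j (by omega)
    have hbit : e.testBit n = false := Nat.testBit_lt_two_pow he
    rcases h n (by omega) with h2 | h2
    · refine ⟨e, by rw [pow_succ]; omega, fun j hj => ?_⟩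
      by_cases hjn : j = n
      · subst hjn
        rw [h2]
        simp [cE, hbit]
      · exact h1 j (by omega)
    · refine ⟨2 ^ n + e, by rw [pow_succ]; omega, fun j hj => ?_⟩
      by_cases hjn : j = n
      · subst hjn
        rw [h2]
        simp [cE, Nat.testBit_two_pow_add_eq, hbit]
      · have hj' : j < n := by omega
        rw [h1 j hj']
        simp [cE, Nat.testBit_two_pow_add_gt hj']

section Main

variable {F K : Type*} [Field F] [Field K] [Finite F] [Finite K]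
variable (hRF : Sys D F η) (hRK : Sys D K η) (ι : F →+* K) (τ : K →+* K)

theorem two_ne_of_odd {K : Type*} [Field K] [Finite K] (h : Odd (Nat.card K)) : (2 : K) ≠ 0 := by
  haveI := Fintype.ofFinite K
  intro h2
  have h3 : ringChar K = 2 := by
    apply CharP.ringChar_of_prime_eq_zero Nat.prime_two
    exact_mod_cast h2
  have h4 := FiniteField.even_card_iff_char_two.1 h3
  rw [← Nat.card_eq_fintype_card] at h4
  rw [Nat.odd_iff] at h
  omega

include hRF hRK in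
theorem mapG_hP_ext (c : ℕ → F) : mapG D ι (hP hRF c) = hP hRK (fun j => ι (c j)) := by
  rw [hP, hP, map_list_prod, List.map_map]
  congr 1
  apply List.map_congr_left
  intro j _
  simp only [Function.comp, mapG_hG ι hRF.toAddRel hRK.toAddRel]

theorem map_cE (f : F →+* K) (e j : ℕ) : f (cE F e j) = cE K e j := by
  unfold cE
  split_ifs <;> simp

include hRF hRK in
/-- Every involution is conjugate to one of the representatives. -/
theorem descent {full : List (ℕ × List (List ℤ × ℕ))} {fds : List ℕ} {reps : List (ℕ × List ℕ)}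
    (hD : OddData D η full fds reps) (hq : Odd (Nat.card F)) (hcard : Nat.card K = Nat.card F ^ 2)
    (hτ : ∀ x, τ (τ x) = x) (hfix : ∀ y, τ y = y ↔ ∃ t, ι t = y)
    (hnorm : ∀ a : K, a ≠ 0 → τ a = a → ∃ μ : K, μ ≠ 0 ∧ μ * τ μ = a) (hne : ∃ x, τ x ≠ x)
    {u : GL D.Idx F} (hu : u ∈ D.group F) (huu : u * u = 1) (hu1 : u ≠ 1) :
    ∃ r ∈ reps, ∃ y ∈ D.group F, y⁻¹ * u * y = hP hRF (cE F r.1) := by
  have hT := hD.hT
  have hO := hD.hO
  have hη := hD.hη
  have hCI := hD.hCI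
  have hKodd : Odd (Nat.card K) := by
    rw [hcard]
    exact hq.pow
  have h2 : (2 : K) ≠ 0 := two_ne_of_odd hKodd
  have hQ : Nat.card K % 4 = 1 := by
    rw [hcard]
    obtain ⟨m, hm⟩ := hq
    rw [hm]
    have : (2 * m + 1) ^ 2 = 4 * (m * m + m) + 1 := by ring
    rw [this]
    omega
  have hm1 : IsSquare (-1 : K) := isSquare_neg_one_of_card hq hcard
  have hsq3 := sq3 (K := K) h2
  have hιinj : Function.Injective ι := ι.injective
  set Φ := mapG D τ with hΦdef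
  have hΦΦ : ∀ g, Φ (Φ g) = g := Cfsg.Agent.Lib.ChevBN.H1.mapG_mapG hRK τ hτ
  have hΦG : ∀ {g}, g ∈ D.group K → Φ g ∈ D.group K := by
    intro g hg
    rw [group_eq hRK.toAddRel] at hg ⊢
    exact mapG_gen τ _ _ hg
  -- the image of `u`
  set T := mapG D ι u with hTdef
  have hTG : T ∈ D.group K := by
    rw [group_eq hRF.toAddRel] at hu
    rw [group_eq hRK.toAddRel]
    exact mapG_gen ι _ _ hu
  have hTT : T * T = 1 := by
    rw [hTdef, ← map_mul, huu, map_one]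
  have hT1 : T ≠ 1 := by
    intro h
    apply hu1
    apply mapG_inj ι hιinj
    rw [map_one]
    exact h
  have hΦT : Φ T = T := by
    apply Units.ext
    ext i j
    simp only [hΦdef, hTdef, coe_mapG, Matrix.map_apply]
    exact (hfix _).2 ⟨_, rfl⟩
  -- into `N`
  obtain ⟨g, hg, hgN⟩ := exists_twist (D.group K) (D.monomialSubgroup K)
    (index_N_odd hRK hT hQ hD.hfull hD.hfall hD.hfpoly hD.hfne) (MonoidHom.id _) (fun _ => rfl)
    (fun _ h => h) (fun _ h => h) hTG hTT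
  simp only [MonoidHom.id_apply] at hgN
  -- into `H`
  have hzz : (g⁻¹ * T * g) * (g⁻¹ * T * g) = 1 := by
    calc (g⁻¹ * T * g) * (g⁻¹ * T * g) = g⁻¹ * (T * T) * g := by group
      _ = 1 := by rw [hTT]; group
  obtain ⟨c, hc, hcH⟩ := phase1 hRK hT hO hη h2 hCI hm1 hsq3 hgN hzz
  set t₁ := c⁻¹ * (g⁻¹ * T * g) * c with ht₁
  have ht₁t₁ : t₁ * t₁ = 1 := by
    calc t₁ * t₁ = c⁻¹ * ((g⁻¹ * T * g) * (g⁻¹ * T * g)) * c := by rw [ht₁]; group
      _ = 1 := by rw [hzz]; group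
  have ht₁1 : t₁ ≠ 1 := by
    intro h
    apply hT1
    have : T = g * c * t₁ * (g * c)⁻¹ := by
      rw [ht₁]
      group
    rw [this, h]
    group
  obtain ⟨c₁, hc₁, hc₁e⟩ := (mem_torus hRK).1 (by rw [← diagonal_eq hRK hT]; exact hcH)
  have ht₁t₁' : hP hRK c₁ * hP hRK c₁ = 1 := by
    rw [← hc₁e]
    exact ht₁t₁
  obtain ⟨-, hsgn⟩ := sign_of_sq hRK hT hCI hc₁ ht₁t₁'
  obtain ⟨e, he, hce⟩ := exists_code c₁ D.rank hsgn
  have ht₁e : t₁ = hP hRK (cE K e) := by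
    rw [hc₁e]
    exact hP_congr hRK hT hce
  have he0 : e ≠ 0 := by
    rintro rfl
    apply ht₁1
    rw [ht₁e]
    exact hP_cE_zero hRK hT
  obtain ⟨r, hr, l, hl, hle⟩ := (hD.cover e he).resolve_left he0
  obtain ⟨hrc, hrne⟩ := hD.hreps r hr
  set e₀ := r.1 with he₀
  obtain ⟨n, hn, hnw⟩ := mk_out_eq hRK hT (pr (fN hRK hT) l)
  have hconj : n * hP hRK (cE K e) * n⁻¹ = hP hRK (cE K e₀) := by
    apply conj_hP hRK hT (fun j _ => cE_ne e j) (fun j _ => cE_ne e₀ j) hn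
    intro s
    rw [hnw, chi_prN hRK hT hl, hle]
  set t₂ := hP hRK (cE K e₀) with ht₂
  have ht₂H : t₂ ∈ D.diagonalSubgroup K := hP_mem_H' hRK hT fun j _ => cE_ne e₀ j
  have ht₂t₂ : t₂ * t₂ = 1 := by
    rw [← hconj, ← ht₁e]
    calc n * t₁ * n⁻¹ * (n * t₁ * n⁻¹) = n * (t₁ * t₁) * n⁻¹ := by group
      _ = 1 := by
        rw [ht₁t₁]
        group
  have hnG := N_le_G hRK hT hn
  set g₂ := g * c * n⁻¹ with hg₂
  have hg₂G : g₂ ∈ D.group K :=
    Subgroup.mul_mem _ (Subgroup.mul_mem _ hg hc) (Subgroup.inv_mem _ hnG)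
  have hg₂T : g₂⁻¹ * T * g₂ = t₂ := by
    rw [← hconj, ← ht₁e, ht₁, hg₂]
    group
  have hΦt₂ : Φ t₂ = t₂ := by
    rw [hΦdef, ht₂, mapG_hP hRK hT]
    exact hP_congr hRK hT fun j _ => map_cE τ e₀ j
  -- the cocycle
  set z := g₂⁻¹ * Φ g₂ with hz
  have hzG : z ∈ D.group K := Subgroup.mul_mem _ (Subgroup.inv_mem _ hg₂G) (hΦG hg₂G)
  have hT2 : T = g₂ * t₂ * g₂⁻¹ := by
    rw [← hg₂T]
    group
  have hzt : t₂ * z = z * t₂ := by
    have h3 : T = Φ g₂ * t₂ * (Φ g₂)⁻¹ := by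
      conv_lhs => rw [← hΦT, hT2]
      rw [map_mul, map_mul, map_inv, hΦt₂]
    have h4 : g₂ * t₂ * g₂⁻¹ = Φ g₂ * t₂ * (Φ g₂)⁻¹ := hT2.symm.trans h3
    have h5 : z * t₂ * z⁻¹ = t₂ := by
      rw [hz]
      calc g₂⁻¹ * Φ g₂ * t₂ * (g₂⁻¹ * Φ g₂)⁻¹ = g₂⁻¹ * (Φ g₂ * t₂ * (Φ g₂)⁻¹) * g₂ := by group
        _ = g₂⁻¹ * (g₂ * t₂ * g₂⁻¹) * g₂ := by rw [h4]
        _ = t₂ := by group
    rw [mul_inv_eq_iff_eq_mul] at h5
    exact h5.symm
  have hzC : z ∈ Cg D K t₂ := mem_Cg.2 ⟨hzG, hzt⟩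
  have hzΦ : z * Φ z = 1 := by
    have e1 : Φ z = (Φ g₂)⁻¹ * g₂ := by
      rw [hz, map_mul Φ g₂⁻¹ (Φ g₂), map_inv, hΦΦ]
    rw [e1, hz]
    group
  have hΦC : ∀ x ∈ Cg D K t₂, Φ x ∈ Cg D K t₂ := by
    intro x hx
    obtain ⟨h3, h4⟩ := mem_Cg.1 hx
    refine mem_Cg.2 ⟨hΦG h3, ?_⟩
    have := congrArg Φ h4
    rwa [map_mul, map_mul, hΦt₂] at this
  obtain ⟨x, hxC, hxN⟩ := exists_twist (Cg D K t₂) (D.monomialSubgroup K)
    (index_NC_odd hRK hT hQ hD.hC hCI h2 hD.hfull hD.hfall hrc hrne) Φ hΦΦ hΦC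
    (fun _ h => mapG_N hRK hT τ h) hzC hzΦ
  set z₁ := x⁻¹ * z * Φ x with hz₁
  have hz₁C : z₁ ∈ Cg D K t₂ :=
    Subgroup.mul_mem _ (Subgroup.mul_mem _ (Subgroup.inv_mem _ hxC) hzC) (hΦC x hxC)
  have hz₁Φ : z₁ * Φ z₁ = 1 := by
    have e1 : Φ z₁ = (Φ x)⁻¹ * Φ z * x := by
      rw [hz₁, map_mul, map_mul, map_inv, hΦΦ]
    rw [e1, hz₁]
    calc x⁻¹ * z * Φ x * ((Φ x)⁻¹ * Φ z * x) = x⁻¹ * (z * Φ z) * x := by group
      _ = 1 := by rw [hzΦ]; group
  obtain ⟨c', hc', hc't, hc'H⟩ := phase2 hRK hT hO hη h2 hCI hτ hnorm ht₂H ht₂t₂ hxN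
    ((mem_Cg.1 hz₁C).2).symm hz₁Φ
  have hc'C : c' ∈ Cg D K t₂ := mem_Cg.2 ⟨hc', hc't.symm⟩
  set h := c'⁻¹ * z₁ * Φ c' with hh
  have hhΦ : h * Φ h = 1 := by
    have e1 : Φ h = (Φ c')⁻¹ * Φ z₁ * c' := by
      rw [hh, map_mul, map_mul, map_inv, hΦΦ]
    rw [e1, hh]
    calc c'⁻¹ * z₁ * Φ c' * ((Φ c')⁻¹ * Φ z₁ * c') = c'⁻¹ * (z₁ * Φ z₁) * c' := by group
      _ = 1 := by rw [hz₁Φ]; group
  have hd1 : ∀ a : K, a ^ 1 = 1 → a = 1 := fun a ha => by simpa using ha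
  obtain ⟨y, hy, hhy⟩ := Cfsg.Agent.Lib.ChevBN.H1.cocycle_H hRK hT τ hCI hd1 hne hτ hc'H hhΦ
  have hyC : y⁻¹ ∈ Cg D K t₂ := by
    refine mem_Cg.2 ⟨H_le_G hRK hT (Subgroup.inv_mem _ hy), H_comm hRK hT ht₂H (Subgroup.inv_mem _ hy)⟩
  set b := x * c' * y⁻¹ with hb
  have hbC : b ∈ Cg D K t₂ := Subgroup.mul_mem _ (Subgroup.mul_mem _ hxC hc'C) hyC
  have hbz : b⁻¹ * z * Φ b = 1 := by
    have e1 : Φ b = Φ x * Φ c' * (Φ y)⁻¹ := by
      rw [hb, map_mul, map_mul, map_inv]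
    rw [e1, hb]
    have e2 : (x * c' * y⁻¹)⁻¹ * z * (Φ x * Φ c' * (Φ y)⁻¹) = y * (c'⁻¹ * (x⁻¹ * z * Φ x) * Φ c') * (Φ y)⁻¹ := by
      group
    have hhy' : h = y⁻¹ * Φ y := hhy
    rw [e2, ← hz₁, ← hh, hhy']
    group
  set Y := g₂ * b with hY
  have hYG : Y ∈ D.group K := Subgroup.mul_mem _ hg₂G (mem_Cg.1 hbC).1
  have hΦY : Φ Y = Y := by
    have e1 : Φ g₂ = g₂ * z := by
      rw [hz]
      group
    rw [hY, map_mul, e1]
    have e2 : z * Φ b = b := by
      have e3 : z * Φ b = b * (b⁻¹ * z * Φ b) := by group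
      rw [e3, hbz, mul_one]
    rw [mul_assoc, e2]
  -- descend
  have hYfix : Y ∈ fixL hRK τ :=
    (mem_fixL_iff hRK hT τ hCI hd1).2 ⟨hYG, hΦY⟩
  rw [← map_group_eq hRK hRF.toAddRel τ ι hfix] at hYfix
  obtain ⟨y₀, hy₀, hy₀e⟩ := hYfix
  have hy₀e' : mapG D ι y₀ = Y := hy₀e
  refine ⟨r, hr, y₀, hy₀, ?_⟩
  apply mapG_inj ι hιinj
  rw [map_mul, map_mul, map_inv, hy₀e', mapG_hP_ext hRF hRK ι]
  have e4 : (fun j => ι (cE F e₀ j)) = cE K e₀ := by
    funext j
    exact map_cE ι e₀ j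
  rw [e4, hY]
  have hbt := (mem_Cg.1 hbC).2
  calc (g₂ * b)⁻¹ * T * (g₂ * b) = b⁻¹ * (g₂⁻¹ * T * g₂) * b := by group
    _ = b⁻¹ * (t₂ * b) := by rw [hg₂T]; group
    _ = t₂ := by rw [hbt]; group

end Main

end Cfsg.Agent.Lib.ChevOdd.OddCert
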