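import Mathlib

/-!
Odd index arguments for cocycles, and the quadratic extension of a finite field of odd order.
-/

set_option autoImplicit false

namespace Cfsg.Agent.Lib.ChevOdd.Ext

/-- A cocycle of an involutory endomorphism can be moved into a subgroup of odd index. -/
theorem exists_twist {A : Type*} [Group A] (Γ Λ : Subgroup A) [Finite Γ]
    (hodd : ¬ 2 ∣ (Λ.subgroupOf Γ).index) (φ : A →* A) (hφφ : ∀ x, φ (φ x) = x)
    (hφΓ : ∀ x ∈ Γ, φ x ∈ Γ) (hφΛ : ∀ x ∈ Λ, φ x ∈ Λ) {a : A} (ha : a ∈ Γ) (h : a * φ a = 1) :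
    ∃ g ∈ Γ, g⁻¹ * a * φ g ∈ Λ := by
  classical
  haveI : Fact (Nat.Prime 2) := ⟨Nat.prime_two⟩
  let G₁ := ↥Γ
  let B₁ : Subgroup G₁ := Λ.subgroupOf Γ
  let Φ₁ : G₁ → G₁ := fun x => ⟨φ x, hφΓ _ x.2⟩
  let g₁ : G₁ := ⟨a, ha⟩
  have hΦ₁mul : ∀ a b : G₁, Φ₁ (a * b) = Φ₁ a * Φ₁ b := fun a b =>
    Subtype.ext (map_mul φ a.1 b.1)
  have hΦ₁inv : ∀ a : G₁, Φ₁ a⁻¹ = (Φ₁ a)⁻¹ := fun a =>
    Subtype.ext (map_inv φ a.1)
  have hΦ₁Φ₁ : ∀ a : G₁, Φ₁ (Φ₁ a) = a := fun a => Subtype.ext (hφφ a.1)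
  have hg₁ : g₁ * Φ₁ g₁ = 1 := Subtype.ext h
  have hΦ₁B : ∀ a : G₁, a ∈ B₁ → Φ₁ a ∈ B₁ := fun a ha =>
    Subgroup.mem_subgroupOf.mpr (hφΛ _ (Subgroup.mem_subgroupOf.mp ha))
  let τf : G₁ ⧸ B₁ → G₁ ⧸ B₁ := Quotient.map' (fun x : G₁ => g₁ * Φ₁ x) (by
    intro a b hab
    rw [QuotientGroup.leftRel_apply] at hab ⊢
    have e : (g₁ * Φ₁ a)⁻¹ * (g₁ * Φ₁ b) = Φ₁ (a⁻¹ * b) := by
      rw [hΦ₁mul, hΦ₁inv, mul_inv_rev, mul_assoc, inv_mul_cancel_left]
    rw [e]
    exact hΦ₁B _ hab)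
  have hτf : Function.Involutive τf := by
    intro a
    induction a using QuotientGroup.induction_on with
    | H x =>
      show ((g₁ * Φ₁ (g₁ * Φ₁ x) : G₁) : G₁ ⧸ B₁) = x
      congr 1
      rw [hΦ₁mul, hΦ₁Φ₁, ← mul_assoc, hg₁, one_mul]
  letI : Fintype (G₁ ⧸ B₁) := Fintype.ofFinite _
  have hcard : ¬ 2 ∣ Fintype.card (G₁ ⧸ B₁) := by
    rw [← Nat.card_eq_fintype_card, ← Subgroup.index_eq_card]
    exact hodd
  obtain ⟨c, hc⟩ := Equiv.Perm.exists_fixed_point_of_prime (p := 2) (n := 1) hcard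
    (σ := hτf.toPerm) (by
      apply Equiv.ext
      intro a
      simp only [pow_one, Equiv.Perm.mul_apply, pow_two, Equiv.Perm.one_apply]
      exact hτf a)
  induction c using QuotientGroup.induction_on with
  | H x₁ =>
  have ha' : ((g₁ * Φ₁ x₁ : G₁) : G₁ ⧸ B₁) = x₁ := hc
  rw [QuotientGroup.eq] at ha'
  obtain ⟨x, hx⟩ := x₁
  refine ⟨x, hx, ?_⟩
  have h1 := Subgroup.mem_subgroupOf.mp ha'
  have h2 := Subgroup.inv_mem _ h1
  convert h2 using 1
  show x⁻¹ * a * φ x = ((a * φ x)⁻¹ * x)⁻¹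
  group

variable (F : Type*) [Field F] [Finite F]

/-- The quadratic extension. -/
theorem exists_quad_ext : ∃ (K : Type) (_ : Field K) (_ : Finite K) (ι : F →+* K) (τ : K →+* K),
    Nat.card K = Nat.card F ^ 2 ∧ (∀ x, τ (τ x) = x) ∧ (∀ y, τ y = y ↔ ∃ t, ι t = y) ∧
      (∀ a : K, a ≠ 0 → τ a = a → ∃ μ : K, μ ≠ 0 ∧ μ * τ μ = a) ∧ (∃ x, τ x ≠ x) := by
  obtain ⟨p, hp⟩ := CharP.exists F
  haveI : Fact p.Prime := ⟨CharP.char_is_prime F p⟩
  let K := FiniteField.Extension F p 2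
  have hcard : Nat.card K = Nat.card F ^ 2 := FiniteField.natCard_extension F p 2
  let fr := FiniteField.Extension.frob F p 2
  have hfr : ∀ x : K, fr x = x ^ Nat.card F := fun x => FiniteField.Extension.frob_apply F p 2
  have hq1 : 1 < Nat.card F := Finite.one_lt_card
  have hsq : ∀ x : K, x ^ (Nat.card F ^ 2) = x := by
    intro x
    haveI := Fintype.ofFinite K
    have := FiniteField.pow_card x
    rwa [← Nat.card_eq_fintype_card, hcard] at this
  have hff : ∀ x : K, fr (fr x) = x := by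
    intro x
    rw [hfr, hfr, ← pow_mul, ← pow_two, hsq]
  have hfix : ∀ y : K, fr y = y ↔ ∃ t : F, algebraMap F K t = y := by
    intro y
    constructor
    · intro h
      have hall : ∀ g : Gal(K / F), g y = y := by
        intro g
        obtain ⟨i, -, rfl⟩ := FiniteField.Extension.exists_frob_pow_eq F p 2 g
        induction i with
        | zero => simp
        | succ i ih =>
          rw [pow_succ, AlgEquiv.mul_apply]
          have h1 : (FiniteField.Extension.frob F p 2) y = y := h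
          rw [h1]
          exact ih
      have hG : IsGalois F K := inferInstance
      have h2 := (IsGalois.mem_bot_iff_fixed (F := F) (E := K) y).2 hall
      obtain ⟨t, ht⟩ := IntermediateField.mem_bot.1 h2
      exact ⟨t, ht⟩
    · rintro ⟨t, rfl⟩
      exact fr.commutes t
  refine ⟨K, inferInstance, inferInstance, algebraMap F K, (fr : K →+* K), hcard, hff, hfix, ?_, ?_⟩
  · intro a ha h
    obtain ⟨t, rfl⟩ := (hfix a).1 h
    obtain ⟨x, hx⟩ := FiniteField.norm_surjective F K t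
    have h1 := FiniteField.algebraMap_norm_eq_pow (K := F) (K' := K) (x := x)
    rw [hx, hcard] at h1
    have h3 : (Nat.card F ^ 2 - 1) / (Nat.card F - 1) = Nat.card F + 1 := by
      obtain ⟨m, hm⟩ : ∃ m, Nat.card F = m + 2 := ⟨Nat.card F - 2, by omega⟩
      rw [hm]
      have : (m + 2) ^ 2 - 1 = (m + 2 + 1) * (m + 2 - 1) := by
        have e : (m + 2) ^ 2 = (m + 2 + 1) * (m + 1) + 1 := by ring
        rw [e]
        simp
      rw [this]
      exact Nat.mul_div_cancel _ (by omega)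
    rw [h3] at h1
    refine ⟨x, ?_, ?_⟩
    · rintro rfl
      apply ha
      rw [h1]
      simp
    · show x * fr x = _
      rw [hfr, h1, pow_succ, mul_comm]
  · by_contra hcon
    push Not at hcon
    have hsurj : Function.Surjective (algebraMap F K) := fun y => (hfix y).1 (hcon y)
    have h1 := Nat.card_le_card_of_surjective _ hsurj
    rw [hcard] at h1
    nlinarith

section Odd

variable {K : Type*} [Field K] [Finite K]

theorem isSquare_neg_one_of_card {q : ℕ} (hq : Odd q) (hK : Nat.card K = q ^ 2) :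
    IsSquare (-1 : K) := by
  haveI := Fintype.ofFinite K
  classical
  rw [FiniteField.isSquare_neg_one_iff, ← Nat.card_eq_fintype_card, hK]
  obtain ⟨m, rfl⟩ := hq
  have : (2 * m + 1) ^ 2 = 4 * (m * m + m) + 1 := by ring
  rw [this]
  omega

theorem sq3 (h2 : (2 : K) ≠ 0) (a b : K) (ha : a ≠ 0) (hb : b ≠ 0) :
    IsSquare a ∨ IsSquare b ∨ IsSquare (a * b) := by
  haveI := Fintype.ofFinite K
  classical
  have hc : ringChar K ≠ 2 := by
    intro h
    apply h2
    have := ringChar.Nat.cast_ringChar (R := K)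
    rw [h] at this
    exact_mod_cast this
  by_cases h1 : IsSquare a
  · exact Or.inl h1
  by_cases h3 : IsSquare b
  · exact Or.inr (Or.inl h3)
  refine Or.inr (Or.inr ?_)
  have e1 := quadraticChar_neg_one_iff_not_isSquare.2 h1
  have e2 := quadraticChar_neg_one_iff_not_isSquare.2 h3
  rw [← quadraticChar_one_iff_isSquare (mul_ne_zero ha hb), map_mul, e1, e2]
  norm_num

end Odd

end Cfsg.Agent.Lib.ChevOdd.Ext
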