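import Cfsg.Agent.Lib.ChevOdd.Final

/-!
Fast forms of the table checks for involutions: packed tables, values forced before they are used.
-/

set_option autoImplicit false
set_option linter.unusedSectionVars false

namespace Cfsg.Agent.Lib.ChevOdd.OddCert

open Cfsg.Lie Cfsg.Agent.Lib.ChevBN.Table Cfsg.Agent.Lib.ChevBN.Fast
open Cfsg.Agent.Lib.ChevOrder.Level Cfsg.Agent.Lib.ChevOrder.Chain
open Cfsg.Agent.Lib.ChevOdd.CentCard

/-! ### Forcing values -/

/-- Evaluate a number before going on. -/
def forceN {α : Type} (n : ℕ) (k : ℕ → α) : α :=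
  match n with
  | 0 => k 0
  | m + 1 => k (m + 1)

theorem forceN_eq {α : Type} (n : ℕ) (k : ℕ → α) : forceN n k = k n := by
  cases n <;> rfl

/-- Evaluate an integer before going on. -/
def forceZ {α : Type} (x : ℤ) (k : ℤ → α) : α :=
  match x with
  | Int.ofNat n => forceN n fun n' => k (Int.ofNat n')
  | Int.negSucc n => forceN n fun n' => k (Int.negSucc n')

theorem forceZ_eq {α : Type} (x : ℤ) (k : ℤ → α) : forceZ x k = k x := by
  cases x <;> simp [forceZ, forceN_eq]

/-- Evaluate a list of integers before going on. -/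
def forceL {α : Type} : List ℤ → (List ℤ → α) → α
  | [], k => k []
  | x :: xs, k => forceZ x fun x' => forceL xs fun xs' => k (x' :: xs')

theorem forceL_eq {α : Type} (l : List ℤ) (k : List ℤ → α) : forceL l k = k l := by
  induction l generalizing k with
  | nil => rfl
  | cons x xs ih => simp [forceL, forceZ_eq, ih]

/-! ### Fast functions -/

section Defs

variable (T : FastTab) (D : ChevalleyDatum)

/-- `Ad` through the packed table. -/
def adF (v : ℕ → ℤ) (s : ℕ) : ℤ := ((List.range D.rank).map fun j => v j * T.C D j s).sum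

/-- `parB` through the packed table. -/
def parF (e s : ℕ) : Bool := adF T D (vE e) s % 2 != 0

/-- `act` through the packed table. -/
def actF (q e : ℕ) : ℕ := if parF T D e (D.simple q) then e ^^^ (2 ^ q) else e

/-- `actW` through the packed table. -/
def actWF : ℕ → List ℕ → ℕ
  | e, [] => e
  | e, q :: l => forceN (actF T D q e) fun e' => actWF e' l

/-- `wordAct` through the packed table. -/
def wordActF : List ℕ → ℕ → ℕ
  | [], r => r
  | q :: l, r => forceN (wordActF l r) fun r' => T.W D q r'

/-- `beta` through the packed table. -/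
def betaF (g : Gen) : ℕ := wordActF T D g.1 (D.simple g.2)

/-- `refl` through the packed table. -/
def reflF (i : ℕ) (a : List ℤ) : List ℤ :=
  (List.range D.rank).map fun j => a.getD j 0 - a.getD i 0 * T.C D j (D.simple i)

/-- `reflW` through the packed table. -/
def reflWF : List ℤ → List ℕ → List ℤ
  | a, [] => a
  | a, q :: l => forceL (reflF T D q a) fun a' => reflWF a' l

/-- `Tg` through the packed table. -/
def TgF (gens : List Gen) (i : ℕ) (a : List ℤ) : List ℤ := reflWF T D a (gw (gens.getD i ([], 0)))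

/-- `funcL` through the packed table. -/
def funcLF (a : List ℤ) (r : ℕ) : ℤ := ((List.range D.rank).map fun j => a.getD j 0 * T.R D r j).sum

/-- The check of the mask of the positive roots centralised by the element with code `e₀`. -/
def chkMask (e₀ m : ℕ) : Bool :=
  (List.range D.nroots).all fun r =>
    m.testBit r == (decide (D.nroots / 2 ≤ r) && !parF T D e₀ r)

/-- The check of the generators. -/
def chkGen (e₀ m : ℕ) (gens : List Gen) : Bool :=
  chkMask T D e₀ m && gens.all fun g =>
    g.1.all (fun i => decide (i < D.rank)) && decide (g.2 < D.rank) &&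
    decide (actWF T D e₀ (gw g) = e₀) &&
    forceN (betaF T D g) fun b => m.testBit b &&
      (List.range D.nroots).all fun x =>
        !m.testBit x || x == b || m.testBit (wordActF T D (gw g) x)

/-- `stepOk1` through the packed table. -/
def stepOkF (gens : List Gen) (js : List ℕ) (tbl : List (List ℤ × ℕ)) (e : List ℤ × ℕ) : Bool :=
  decide (e.1.length = D.rank) &&
    js.all fun i => match lookup tbl (TgF T D gens i e.1) with
      | some d' => decide (d' ≤ e.2 + 1)
      | none => false

/-- `descOk1` through the packed table. -/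
def descOkF (gens : List Gen) (js : List ℕ) (tbl : List (List ℤ × ℕ)) (v₀ : List ℤ)
    (e : List ℤ × ℕ) : Bool :=
  decide (e.1 = v₀) ||
    js.any fun i => match lookup tbl (TgF T D gens i e.1) with
      | some d' => decide (d' + 1 = e.2)
      | none => false

/-- `checkLevel1` through the packed table. -/
def checkLevelF (m : ℕ) (gens : List Gen) (js : List ℕ) (j : ℕ) (a₀ : List ℤ)
    (tbl : List (List ℤ × ℕ)) : Bool :=
  decide (lookup tbl a₀ = some 0) && decide (tbl.map Prod.fst).Nodup &&
    tbl.all (stepOkF T D gens (j :: js) tbl) && tbl.all (descOkF T D gens (j :: js) tbl a₀) &&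
    decide (j < gens.length) && js.all (fun i => decide (i < gens.length)) &&
    (List.range D.nroots).all (fun x => !m.testBit x || decide (0 ≤ funcLF T D a₀ x)) &&
    decide (0 < funcLF T D a₀ (betaF T D (gens.getD j ([], 0)))) &&
    js.all (fun i => decide (TgF T D gens i a₀ = a₀))

/-- `checkChain1` through the packed table. -/
def checkChainF (m : ℕ) (gens : List Gen) : List Lev1 → Bool
  | [] => true
  | l :: rest => decide (l.1 ∉ rest.map Prod.fst) &&
      checkLevelF T D m gens (rest.map Prod.fst) l.1 l.2.1 l.2.2 && checkChainF m gens rest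

theorem checkChainF_cons {T : FastTab} {D : ChevalleyDatum} {m : ℕ} {gens : List Gen} {l : Lev1}
    {rest : List Lev1} (h1 : l.1 ∉ rest.map Prod.fst)
    (h2 : checkLevelF T D m gens (rest.map Prod.fst) l.1 l.2.1 l.2.2 = true)
    (h3 : checkChainF T D m gens rest = true) : checkChainF T D m gens (l :: rest) = true := by
  simp only [checkChainF, Bool.and_eq_true, decide_eq_true_eq]
  exact ⟨⟨h1, h2⟩, h3⟩

/-- The check of the orbit of a code. -/
def chkOrb (e₀ : ℕ) (words : List (List ℕ)) (codes : List ℕ) : Bool :=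
  words.all (fun w => w.all fun i => decide (i < D.rank)) && decide codes.Nodup &&
    codes.all (fun c => decide (c < 2 ^ D.rank)) && decide (words.map (actWF T D e₀) = codes)

/-- `chkCover` through the packed table. -/
def chkCoverF (reps : List ℕ) (wit : List (ℕ × List ℕ)) : Bool :=
  (List.range (2 ^ D.rank)).all fun e =>
    decide (e = 0) ||
      (let p := wit.getD e (0, [])
       decide (p.1 ∈ reps) && p.2.all (fun i => decide (i < D.rank)) && decide (actWF T D p.1 p.2 = e))

/-- `chkLin` through the packed table. -/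
def chkLinF : Bool :=
  D.chain.toList.zipIdx.all fun row =>
    decide (row.2 < D.nroots) && row.1.toList.all fun e =>
      decide (e.1 < D.nroots) && e.2.toList.zipIdx.all fun q =>
        decide (q.1.1 < D.nroots) && (List.range D.rank).all fun l =>
          decide (T.C D l q.1.1 = ((q.2 + 1 : ℕ) : ℤ) * T.C D l row.2 + T.C D l e.1)

/-- The packed tables are correct. -/
structure FastOk : Prop where
  hC : chkC T D = true
  hR : chkR T D = true
  hW : ∀ i < D.rank, chkW T D i = true

end Defs

/-! ### The fast functions agree with the slow ones -/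

variable {T : FastTab} {D : ChevalleyDatum}

section Agree

variable (h : FastOk T D) (hT : Tbl D)
include h hT

theorem adF_eq (v : ℕ → ℤ) {s : ℕ} (hs : s < D.nroots) : adF T D v s = Ad D v s := by
  rw [adF, Ad]
  congr 1
  apply List.map_congr_left
  intro j hj
  rw [cartan_eq h.hC (List.mem_range.1 hj) hs]

theorem parF_eq (e : ℕ) {s : ℕ} (hs : s < D.nroots) : parF T D e s = parB D e s := by
  rw [parF, parB, adF_eq h hT _ hs]

theorem actF_eq {q : ℕ} (hq : q < D.rank) (e : ℕ) : actF T D q e = act D q e := by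
  rw [actF, act, parF_eq h hT _ (hT.simple_pos q hq).1]

theorem actWF_eq {l : List ℕ} (hl : ∀ i ∈ l, i < D.rank) (e : ℕ) : actWF T D e l = actW D e l := by
  induction l generalizing e with
  | nil => rfl
  | cons q l ih =>
    rw [actWF, forceN_eq, actF_eq h hT (hl q (by simp)), ih fun i hi => hl i (List.mem_cons_of_mem _ hi)]
    rfl

theorem W_eq {i s : ℕ} (hi : i < D.rank) (hs : s < D.nroots) : T.W D i s = D.reflectRoot i s := by
  have := List.all_eq_true.mp (h.hW i hi) s (List.mem_range.mpr hs)
  simpa using (of_decide_eq_true this).symm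

theorem wordAct_lt {l : List ℕ} (hl : ∀ i ∈ l, i < D.rank) {r : ℕ} (hr : r < D.nroots) :
    wordAct D l r < D.nroots := by
  induction l with
  | nil => exact hr
  | cons q l ih =>
    exact hT.w_lt q (hl q (by simp)) _ (ih fun i hi => hl i (List.mem_cons_of_mem _ hi))

theorem wordActF_eq {l : List ℕ} (hl : ∀ i ∈ l, i < D.rank) {r : ℕ} (hr : r < D.nroots) :
    wordActF T D l r = wordAct D l r := by
  induction l with
  | nil => rfl
  | cons q l ih =>
    have h1 : ∀ i ∈ l, i < D.rank := fun i hi => hl i (List.mem_cons_of_mem _ hi)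
    rw [wordActF, forceN_eq, ih h1, W_eq h hT (hl q (by simp)) (wordAct_lt h hT h1 hr)]
    rfl

theorem betaF_eq {g : Gen} (h1 : ∀ i ∈ g.1, i < D.rank) (h2 : g.2 < D.rank) :
    betaF T D g = beta D g :=
  wordActF_eq h hT h1 (hT.simple_pos _ h2).1

theorem beta_lt {g : Gen} (h1 : ∀ i ∈ g.1, i < D.rank) (h2 : g.2 < D.rank) :
    beta D g < D.nroots :=
  wordAct_lt h hT h1 (hT.simple_pos _ h2).1

theorem reflF_eq {i : ℕ} (hi : i < D.rank) (a : List ℤ) : reflF T D i a = refl D i a := by
  rw [reflF, Cfsg.Agent.Lib.ChevOrder.Level.refl]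
  apply List.map_congr_left
  intro j hj
  rw [cartan_eq h.hC (List.mem_range.1 hj) (hT.simple_pos i hi).1]

theorem reflWF_eq {l : List ℕ} (hl : ∀ i ∈ l, i < D.rank) (a : List ℤ) :
    reflWF T D a l = reflW D a l := by
  induction l generalizing a with
  | nil => rfl
  | cons q l ih =>
    rw [reflWF, forceL_eq, reflF_eq h hT (hl q (by simp)), ih fun i hi => hl i (List.mem_cons_of_mem _ hi)]
    rfl

theorem TgF_eq {g : Gen} {gens : List Gen} {i : ℕ} (hg : gens.getD i ([], 0) = g)
    (h1 : ∀ i ∈ g.1, i < D.rank) (h2 : g.2 < D.rank) (a : List ℤ) :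
    TgF T D gens i a = Tg D gens i a := by
  rw [TgF, Tg, hg]
  apply reflWF_eq h hT
  intro k hk
  simp only [gw, List.mem_append, List.mem_cons, List.mem_reverse] at hk
  rcases hk with h3 | h3 | h3
  · exact h1 k h3
  · rw [h3]
    exact h2
  · exact h1 k h3

theorem funcLF_eq (a : List ℤ) {r : ℕ} (hr : r < D.nroots) : funcLF T D a r = funcL D a r := by
  rw [funcLF, funcL]
  congr 1
  apply List.map_congr_left
  intro j hj
  rw [cr_eq h.hR hr (List.mem_range.1 hj)]

/-- The mask gives the positive roots centralised by the element. -/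
theorem mem_posOf_iff {e₀ m : ℕ} (hm : chkMask T D e₀ m = true) {r : ℕ} (hr : r < D.nroots) :
    r ∈ posOf D e₀ ↔ m.testBit r = true := by
  have h1 := List.all_eq_true.mp hm r (List.mem_range.2 hr)
  simp only [beq_iff_eq] at h1
  rw [mem_posOf, h1, parF_eq h hT _ hr, isPos_iff hT.good hr]
  simp

omit h hT in
theorem lt_of_mem_posOf {e₀ r : ℕ} (hr : r ∈ posOf D e₀) : r < D.nroots :=
  (mem_posOf.1 hr).1.1

omit h hT in
theorem gen_letters {g : Gen} (h : (∀ i ∈ g.1, i < D.rank) ∧ g.2 < D.rank) : ∀ i ∈ gw g, i < D.rank := by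
  intro k hk
  simp only [gw, List.mem_append, List.mem_cons, List.mem_reverse] at hk
  rcases hk with h3 | h3 | h3
  · exact h.1 k h3
  · rw [h3]
    exact h.2
  · exact h.1 k h3

omit h hT in
theorem chkMask_of_chkGen {e₀ m : ℕ} {gens : List Gen} (hc : chkGen T D e₀ m gens = true) :
    chkMask T D e₀ m = true := by
  simp only [chkGen, Bool.and_eq_true] at hc
  exact hc.1

omit h hT in
theorem gens_lt_of_chkGen {e₀ m : ℕ} {gens : List Gen} (hc : chkGen T D e₀ m gens = true) :
    ∀ g ∈ gens, (∀ i ∈ g.1, i < D.rank) ∧ g.2 < D.rank := by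
  intro g hg
  simp only [chkGen, forceN_eq, Bool.and_eq_true, List.all_eq_true, decide_eq_true_eq] at hc
  have := hc.2 g hg
  exact ⟨this.1.1.1, this.1.1.2⟩

/-- The generators from the fast check. -/
theorem genCert_of {e₀ m : ℕ} {gens : List Gen} (hc : chkGen T D e₀ m gens = true) :
    GenCert D e₀ gens := by
  have hm := chkMask_of_chkGen hc
  have hlt := gens_lt_of_chkGen hc
  simp only [chkGen, forceN_eq, Bool.and_eq_true, List.all_eq_true, decide_eq_true_eq] at hc
  have h1 := hc.2
  refine ⟨hlt, ?_, ?_, ?_⟩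
  · intro g hg
    have h3 := (h1 g hg).1.2
    rw [actWF_eq h hT (gen_letters (hlt g hg))] at h3
    exact h3
  · intro g hg
    have h3 := (h1 g hg).2.1
    rw [betaF_eq h hT (hlt g hg).1 (hlt g hg).2] at h3
    exact (mem_posOf_iff h hT hm (beta_lt h hT (hlt g hg).1 (hlt g hg).2)).2 h3
  · intro g hg x hx hne
    have hxlt := lt_of_mem_posOf hx
    have h3 := (h1 g hg).2.2 x (List.mem_range.2 hxlt)
    rw [betaF_eq h hT (hlt g hg).1 (hlt g hg).2, wordActF_eq h hT (gen_letters (hlt g hg)) hxlt] at h3
    have h4 := (mem_posOf_iff h hT hm hxlt).1 hx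
    simp only [h4, Bool.or_eq_true, Bool.not_eq_true', beq_iff_eq] at h3
    rcases h3 with (h3 | h3) | h3
    · simp at h3
    · exact absurd h3 hne
    · exact (mem_posOf_iff h hT hm (wordAct_lt h hT (gen_letters (hlt g hg)) hxlt)).2 h3

/-- The number of positive roots centralised by an element, from its mask. -/
theorem posOf_length {e₀ m : ℕ} (hm : chkMask T D e₀ m = true) :
    (posOf D e₀).length = ((List.range D.nroots).filter fun r => m.testBit r).length := by
  have h1 : (posOf D e₀).Perm ((List.range D.nroots).filter fun r => m.testBit r) := by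
    rw [List.perm_ext_iff_of_nodup]
    · intro r
      rw [List.mem_filter, List.mem_range]
      constructor
      · intro hr
        have hlt := lt_of_mem_posOf hr
        exact ⟨hlt, (mem_posOf_iff h hT hm hlt).1 hr⟩
      · rintro ⟨hlt, h3⟩
        exact (mem_posOf_iff h hT hm hlt).2 h3
    · exact List.Nodup.filter _ (List.Nodup.filter _ List.nodup_range)
    · exact List.Nodup.filter _ List.nodup_range
  exact h1.length_eq

/-- A level, from the fast check. -/
theorem checkLevel_of {e₀ m : ℕ} {gens : List Gen} (hm : chkMask T D e₀ m = true)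
    (hlt : ∀ g ∈ gens, (∀ i ∈ g.1, i < D.rank) ∧ g.2 < D.rank) {js : List ℕ} {j : ℕ} {a₀ : List ℤ}
    {tbl : List (List ℤ × ℕ)} (hc : checkLevelF T D m gens js j a₀ tbl = true) :
    checkLevel1 D e₀ gens js j a₀ tbl = true := by
  simp only [checkLevelF, Bool.and_eq_true, decide_eq_true_eq, List.all_eq_true] at hc
  obtain ⟨⟨⟨⟨⟨⟨⟨⟨hb, hnd⟩, hstep⟩, hdesc⟩, hj⟩, hjs⟩, hpos⟩, hbj⟩, hfixT⟩ := hc
  have hTg : ∀ i < gens.length, ∀ a : List ℤ, TgF T D gens i a = Tg D gens i a := by
    intro i hi a
    have hg : gens.getD i ([], 0) = gens[i] := List.getD_eq_getElem _ _ hi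
    have h3 := hlt _ (List.getElem_mem hi)
    exact TgF_eq h hT hg h3.1 h3.2 a
  have hlt2 : ∀ i ∈ j :: js, i < gens.length := by
    intro i hi
    rcases List.mem_cons.1 hi with rfl | h3
    · exact hj
    · exact hjs i h3
  simp only [checkLevel1, Bool.and_eq_true, decide_eq_true_eq, List.all_eq_true]
  refine ⟨⟨⟨⟨⟨⟨⟨⟨hb, hnd⟩, ?_⟩, ?_⟩, hj⟩, hjs⟩, ?_⟩, ?_⟩, ?_⟩
  · intro e he
    have h3 := hstep e he
    simp only [stepOkF, stepOk1, Bool.and_eq_true, decide_eq_true_eq, List.all_eq_true] at h3 ⊢
    refine ⟨h3.1, ?_⟩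
    intro i hi
    have h4 := h3.2 i hi
    rwa [hTg i (hlt2 i hi)] at h4
  · intro e he
    have h3 := hdesc e he
    simp only [descOkF, descOk1, Bool.or_eq_true, decide_eq_true_eq, List.any_eq_true] at h3 ⊢
    rcases h3 with h3 | ⟨i, hi, h3⟩
    · exact Or.inl h3
    · refine Or.inr ⟨i, hi, ?_⟩
      rwa [hTg i (hlt2 i hi)] at h3
  · intro x hx
    have hxlt := lt_of_mem_posOf hx
    have h3 := hpos x (List.mem_range.2 hxlt)
    rw [(mem_posOf_iff h hT hm hxlt).1 hx] at h3
    simp only [Bool.not_true, Bool.false_or, decide_eq_true_eq] at h3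
    rwa [funcLF_eq h hT _ hxlt] at h3
  · have hg : gens.getD j ([], 0) = gens[j] := List.getD_eq_getElem _ _ hj
    have h3 := hlt _ (List.getElem_mem hj)
    rw [hg] at hbj ⊢
    rwa [betaF_eq h hT h3.1 h3.2, funcLF_eq h hT _ (beta_lt h hT h3.1 h3.2)] at hbj
  · intro i hi
    have h3 := hfixT i hi
    rwa [hTg i (hjs i hi)] at h3

/-- The chain, from the fast check. -/
theorem checkChain_of {e₀ m : ℕ} {gens : List Gen} (hm : chkMask T D e₀ m = true)
    (hlt : ∀ g ∈ gens, (∀ i ∈ g.1, i < D.rank) ∧ g.2 < D.rank) {c : List Lev1}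
    (hc : checkChainF T D m gens c = true) : checkChain1 D e₀ gens c = true := by
  induction c with
  | nil => rfl
  | cons l rest ih =>
    simp only [checkChainF, Bool.and_eq_true] at hc
    simp only [checkChain1, Bool.and_eq_true]
    exact ⟨⟨hc.1.1, checkLevel_of h hT hm hlt hc.1.2⟩, ih hc.2⟩

/-- The orbit, from the fast check. -/
theorem orbCert_of {e₀ : ℕ} {words : List (List ℕ)} {codes : List ℕ}
    (hc : chkOrb T D e₀ words codes = true) : OrbCert D e₀ words := by
  simp only [chkOrb, Bool.and_eq_true, decide_eq_true_eq, List.all_eq_true] at hc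
  obtain ⟨⟨⟨h1, h3⟩, h4⟩, h5⟩ := hc
  have h6 : words.map (actW D e₀) = codes := by
    rw [← h5]
    apply List.map_congr_left
    intro w hw
    exact (actWF_eq h hT (h1 w hw) e₀).symm
  refine ⟨h1, by rwa [h6], ?_⟩
  intro w hw
  exact h4 _ (h6 ▸ List.mem_map_of_mem hw)

/-- The cover, from the fast check. -/
theorem chkCover_of {reps : List ℕ} {wit : List (ℕ × List ℕ)} (hc : chkCoverF T D reps wit = true) :
    chkCover D reps wit = true := by
  simp only [chkCoverF, chkCover, List.all_eq_true, List.mem_range, Bool.or_eq_true, decide_eq_true_eq,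
    Bool.and_eq_true] at hc ⊢
  intro e he
  rcases hc e he with h1 | ⟨⟨h1, h3⟩, h4⟩
  · exact Or.inl h1
  · refine Or.inr ⟨⟨h1, h3⟩, ?_⟩
    rwa [actWF_eq h hT h3] at h4

/-- The linearity of the commutator terms, from the fast check. -/
theorem chkLin_of (hc : chkLinF T D = true) : chkLin D = true := by
  simp only [chkLinF, chkLin, chkLinRow, List.all_eq_true, Bool.and_eq_true, decide_eq_true_eq] at hc ⊢
  intro row hrow e he q hq l hl
  have h1 := hc row hrow
  have h3 := h1.2 e he
  have h4 := h3.2 q hq
  have h5 := h4.2 l hl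
  have hl' := List.mem_range.1 hl
  rw [cartan_eq h.hC hl' h4.1, cartan_eq h.hC hl' h1.1, cartan_eq h.hC hl' h3.1]
  exact h5

end Agree

end Cfsg.Agent.Lib.ChevOdd.OddCert
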