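import Cfsg.Agent.Lib.ChevOdd.Descent
import Cfsg.Agent.Lib.ChevBN.Fast

/-!
The final form of the results on involutions: table checks, and the statements on the classes of involutions and
the orders of their centralisers.
-/

set_option autoImplicit false
set_option linter.unusedSectionVars false

namespace Cfsg.Agent.Lib.ChevOdd.OddCert

open Cfsg.Lie Cfsg.Agent.Lib.ChevBN.Elem Cfsg.Agent.Lib.ChevBN.Entries Cfsg.Agent.Lib.ChevBN.Table
open Cfsg.Agent.Lib.ChevBN.Collect Cfsg.Agent.Lib.ChevBN.Rel Cfsg.Agent.Lib.ChevBN.Torus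
open Cfsg.Agent.Lib.ChevBN.Monomial Cfsg.Agent.Lib.ChevBN.Core Cfsg.Agent.Lib.ChevBN.Pair
open Cfsg.Agent.Lib.ChevBN.Stmts Cfsg.Agent.Lib.ChevBN.BruhatForm Cfsg.Agent.Lib.ChevBN.Opp
open Cfsg.Agent.Lib.ChevBN.ConjH Cfsg.Agent.Lib.ChevBN.Fix Cfsg.Agent.Lib.ChevBN.RootCent
open Cfsg.Agent.Lib.ChevOrder.Chev Cfsg.Agent.Lib.ChevOrder.BNCount Cfsg.Agent.Lib.ChevOrder.Cox
open Cfsg.Agent.Lib.ChevOrder.Level Cfsg.Agent.Lib.ChevOrder.Chain
open Cfsg.Agent.Lib.BNPair.CoxeterExchange
open Cfsg.Agent.Lib.BNPair.Basic Cfsg.Agent.Lib.BNPair.Parabolic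
open Cfsg.Agent.Lib.ChevOdd.Kappa Cfsg.Agent.Lib.ChevOdd.Invol Cfsg.Agent.Lib.ChevOdd.Cayley
open Cfsg.Agent.Lib.ChevOdd.GoodRoot Cfsg.Agent.Lib.ChevOdd.CentCard
open Cfsg.Agent.Lib.ChevOdd.Ext

/-! ### Checking the linearity of the commutator terms -/

/-- Checks on a row of the chain table. -/
def chkLinRow (D : ChevalleyDatum) (r : ℕ) (row : Array (ℕ × Array (ℕ × ℤ))) : Bool :=
  row.toList.all fun e => e.2.toList.zipIdx.all fun q =>
    (List.range D.rank).all fun l =>
      decide (D.cartan l q.1.1 = ((q.2 + 1 : ℕ) : ℤ) * D.cartan l r + D.cartan l e.1)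

/-- Checks on the chain table. -/
def chkLin (D : ChevalleyDatum) : Bool :=
  D.chain.toList.zipIdx.all fun row => chkLinRow D row.2 row.1

theorem chainRoot_lin {D : ChevalleyDatum} (h : chkLin D = true) {r s i k : ℕ}
    (hk : D.chainRoot r s (i + 1) = some k) :
    ∀ l < D.rank, D.cartan l k = ((i + 1 : ℕ) : ℤ) * D.cartan l r + D.cartan l s := by
  intro l hl
  rw [ChevalleyDatum.chainRoot, Option.map_eq_some_iff] at hk
  obtain ⟨q, hq, rfl⟩ := hk
  have hq' : (D.chainEntry r s)[i]? = some q := by simpa using hq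
  have hmem : q ∈ D.chainEntry r s := List.mem_of_getElem? hq'
  -- unfold the entry
  rw [ChevalleyDatum.chainEntry] at hq'
  split at hq'
  · simp at hq'
  · rename_i e he
    have h1 : e.1 = s := by simpa using List.find?_some he
    have h2 := List.mem_of_find?_eq_some he
    have hrlt : r < D.chain.size := by
      by_contra hcon
      have : D.chain.getD r #[] = #[] := by
        rw [Array.getD_eq_getD_getElem?]
        simp [not_lt.1 hcon]
      rw [this] at h2
      simp at h2
    have hm : (D.chain.toList[r]'(by simpa using hrlt), r) ∈ D.chain.toList.zipIdx := by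
      rw [List.mem_zipIdx_iff_getElem?]
      simp [hrlt]
    have h4 : D.chain.getD r #[] = D.chain.toList[r]'(by simpa using hrlt) := by
      rw [Array.getD_eq_getD_getElem?]
      simp [hrlt]
    rw [h4] at h2
    simp only [chkLin, chkLinRow, List.all_eq_true] at h
    have h5 := h _ hm e h2 (q, i) (by
      rw [List.mem_zipIdx_iff_getElem?]
      simpa using hq')
    have h6 := h5 l (List.mem_range.2 hl)
    simp only [decide_eq_true_eq] at h6
    rw [h1] at h6
    exact h6

theorem commLin_of {D : ChevalleyDatum} (hm : ∃ m : ℕ → ℤ, ∀ s < D.nroots, D.IsPosRoot s → 0 < Ad D m s)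
    (h : chkLin D = true) : CommLin D := by
  refine ⟨hm, ?_⟩
  intro r s _ _ _ c hc
  simp only [ChevalleyDatum.commTerms, List.mem_filterMap, List.mem_cons, List.not_mem_nil,
    or_false, Option.map_eq_some_iff] at hc
  obtain ⟨d, hd, k, hk, rfl⟩ := hc
  rcases hd with rfl | rfl | rfl | rfl | rfl | rfl | rfl
  · refine ⟨le_refl _, le_refl _, fun l hl => ?_⟩
    have := chainRoot_lin h (i := 0) hk l hl
    simpa using this
  · refine ⟨by norm_num, le_refl _, fun l hl => ?_⟩
    have := chainRoot_lin h (i := 1) hk l hl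
    simpa using this
  · refine ⟨le_refl _, by norm_num, fun l hl => ?_⟩
    have := chainRoot_lin h (i := 1) hk l hl
    simp only at this ⊢
    rw [this]
    push_cast
    ring
  · refine ⟨by norm_num, le_refl _, fun l hl => ?_⟩
    have := chainRoot_lin h (i := 2) hk l hl
    simpa using this
  · refine ⟨le_refl _, by norm_num, fun l hl => ?_⟩
    have := chainRoot_lin h (i := 2) hk l hl
    simp only at this ⊢
    rw [this]
    push_cast
    ring
  · simp only [Option.bind_eq_some_iff] at hk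
    obtain ⟨a, ha, hk⟩ := hk
    refine ⟨by norm_num, by norm_num, fun l hl => ?_⟩
    have h1 := chainRoot_lin h (i := 2) ha l hl
    have h3 := chainRoot_lin h (i := 0) hk l hl
    simp only at h1 h3 ⊢
    rw [h3, h1]
    push_cast
    ring
  · simp only [Option.bind_eq_some_iff] at hk
    obtain ⟨a, ha, hk⟩ := hk
    refine ⟨by norm_num, by norm_num, fun l hl => ?_⟩
    have h1 := chainRoot_lin h (i := 2) ha l hl
    have h3 := chainRoot_lin h (i := 0) hk l hl
    simp only at h1 h3 ⊢
    rw [h3, h1]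
    push_cast
    ring

/-! ### The cover table -/

/-- The check of the cover of the codes by the orbits of the representatives. -/
def chkCover (D : ChevalleyDatum) (reps : List ℕ) (wit : List (ℕ × List ℕ)) : Bool :=
  (List.range (2 ^ D.rank)).all fun e =>
    decide (e = 0) ||
      (let p := wit.getD e (0, [])
       decide (p.1 ∈ reps) && p.2.all (fun i => decide (i < D.rank)) && decide (actW D p.1 p.2 = e))

theorem cover_of {D : ChevalleyDatum} {reps : List (ℕ × List ℕ)} {wit : List (ℕ × List ℕ)}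
    (h : chkCover D (reps.map Prod.fst) wit = true) :
    ∀ e < 2 ^ D.rank, e = 0 ∨ ∃ r ∈ reps, ∃ l : List ℕ, (∀ i ∈ l, i < D.rank) ∧ actW D r.1 l = e := by
  intro e he
  simp only [chkCover, List.all_eq_true, List.mem_range, Bool.or_eq_true, decide_eq_true_eq,
    Bool.and_eq_true] at h
  rcases h e he with h1 | ⟨⟨h1, h2⟩, h3⟩
  · exact Or.inl h1
  · right
    obtain ⟨r, hr, hr1⟩ := List.mem_map.1 h1
    refine ⟨r, hr, _, ?_, by rw [hr1]; exact h3⟩
    intro i hi
    simpa using h2 i hi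

/-! ### The final statements -/

variable {D : ChevalleyDatum} {η : ℕ → ℕ → ℤ}

section Final

variable {F : Type*} [Field F] [Finite F] (hR : Sys D F η)

include hR in
/-- Involutions are conjugate to a representative. -/
theorem invol_rep {full : List (ℕ × List (List ℤ × ℕ))} {fds : List ℕ} {reps : List (ℕ × List ℕ)}
    (hD : OddData D η full fds reps) (hRall : ∀ (K : Type) [Field K], Sys D K η)
    (hq : Odd (Nat.card F)) {u : GL D.Idx F} (hu : u ∈ D.group F) (huu : u * u = 1) (hu1 : u ≠ 1) :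
    ∃ r ∈ reps, ∃ y ∈ D.group F, y⁻¹ * u * y = hP hR (cE F r.1) := by
  obtain ⟨K, _, _, ι, τ, hcard, hτ, hfix, hnorm, hne⟩ := exists_quad_ext F
  exact descent hR (hRall K) ι τ hD hq hcard hτ hfix hnorm hne hu huu hu1

include hR in
/-- The order of the centraliser of a representative. -/
theorem card_cent_final {full : List (ℕ × List (List ℤ × ℕ))} {e₀ : ℕ} {ds : List ℕ} (hT : Tbl D)
    (hC : CommLin D) (hCI : CartanInv D 1) (hq : Odd (Nat.card F)) (hfull : checkChain D full = true)
    (hfall : ∀ i < D.rank, i ∈ full.map Prod.fst) (hr : RepCert D full e₀ ds) (hlen : ds.length = D.rank)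
    (hH : Nat.card (D.diagonalSubgroup F) = (Nat.card F - 1) ^ D.rank) :
    Nat.card {g : GL D.Idx F // g ∈ D.group F ∧ hP hR (cE F e₀) * g = g * hP hR (cE F e₀)} =
      Nat.card F ^ (posOf D e₀).length * prodSub (Nat.card F) ds := by
  have h2 : (2 : F) ≠ 0 := two_ne_of_odd hq
  rw [card_cent_rep hR hT hC hCI h2 hfull hfall hr, hH, ← degPoly_eval _ Nat.card_pos ds, hlen]
  ring

/-- The element `hP` of a code in the group. -/
theorem hP_cE_mem (hT : Tbl D) (e : ℕ) : hP hR (cE F e) ∈ D.group F :=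
  H_le_G hR hT (hP_mem_H' hR hT fun j _ => cE_ne e j)

theorem hP_cE_sq (hT : Tbl D) (e : ℕ) : hP hR (cE F e) * hP hR (cE F e) = 1 := by
  rw [hP_mul hR (fun j _ => cE_ne e j) (fun j _ => cE_ne e j), ← hP_one hR]
  apply hP_congr hR hT
  intro j _
  simp only [Pi.mul_apply, cE]
  split_ifs <;> simp

theorem hP_cE_ne (hT : Tbl D) (hCI : CartanInv D 1) (h2 : (2 : F) ≠ 0) {e : ℕ} (he : e < 2 ^ D.rank)
    (he0 : e ≠ 0) : hP hR (cE F e) ≠ 1 := by
  intro h
  apply he0
  refine code_inj hR hT hCI h2 he (by positivity) ?_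
  intro s
  have h3 := hP_conj hR (c := cE F e) (fun j _ => cE_ne e j) s.isLt 1
  rw [h] at h3
  have h4 : X hR.toAddRel s 1 = X hR.toAddRel s (chi D (cE F e) s * 1) := by
    rw [← h3]
    simp
  have h5 := Cfsg.Agent.Lib.ChevBN.GraphFix.X_param_inj hR hT s.isLt h4
  rw [mul_one] at h5
  rw [← h5, chi_cE_par]
  have h6 : parB D 0 s = false := by
    have : Ad D (vE 0) s = 0 := by
      rw [Ad_eq_sum]
      apply Finset.sum_eq_zero
      intro j _
      simp [vE]
    simp [parB, this]
  simp [h6]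

/-- The centraliser in the subtype. -/
theorem card_centralizer_eq (t : ↥(D.group F)) :
    Nat.card (Subgroup.centralizer ({t} : Set ↥(D.group F))) =
      Nat.card {g : GL D.Idx F // g ∈ D.group F ∧ (t : GL D.Idx F) * g = g * t} := by
  apply Nat.card_congr
  refine ⟨fun x => ⟨x.1.1, x.1.2, ?_⟩, fun x => ⟨⟨x.1, x.2.1⟩, ?_⟩, ?_, ?_⟩
  · have h1 := Subgroup.mem_centralizer_singleton_iff.1 x.2
    have h2 := congrArg Subtype.val h1
    exact h2.symm
  · rw [Subgroup.mem_centralizer_singleton_iff]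
    apply Subtype.ext
    exact x.2.2.symm
  · intro x
    rfl
  · intro x
    rfl

/-- Conjugate elements have centralisers of the same order. -/
theorem card_centralizer_conj {G : Type*} [Group G] {s t : G} (h : IsConj s t) :
    Nat.card (Subgroup.centralizer ({s} : Set G)) = Nat.card (Subgroup.centralizer ({t} : Set G)) := by
  obtain ⟨c, hc⟩ := isConj_iff.1 h
  apply Nat.card_congr
  refine ⟨fun x => ⟨c * x.1 * c⁻¹, ?_⟩, fun x => ⟨c⁻¹ * x.1 * c, ?_⟩, ?_, ?_⟩
  · have h1 := Subgroup.mem_centralizer_singleton_iff.1 x.2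
    rw [Subgroup.mem_centralizer_singleton_iff, ← hc]
    calc c * x.1 * c⁻¹ * (c * s * c⁻¹) = c * (x.1 * s) * c⁻¹ := by group
      _ = c * (s * x.1) * c⁻¹ := by rw [h1]
      _ = _ := by group
  · have h1 := Subgroup.mem_centralizer_singleton_iff.1 x.2
    have h1' : x.1 * (c * s * c⁻¹) = (c * s * c⁻¹) * x.1 := by
      rw [hc]
      exact h1
    rw [Subgroup.mem_centralizer_singleton_iff]
    calc c⁻¹ * x.1 * c * s = c⁻¹ * (x.1 * (c * s * c⁻¹)) * c := by group
      _ = c⁻¹ * ((c * s * c⁻¹) * x.1) * c := by rw [h1']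
      _ = _ := by group
  · intro x
    apply Subtype.ext
    simp only
    group
  · intro x
    apply Subtype.ext
    simp only
    group

theorem orderOf_eq_two_iff {G : Type*} [Group G] {u : G} : orderOf u = 2 ↔ u * u = 1 ∧ u ≠ 1 := by
  constructor
  · intro h
    have h1 : u ^ 2 = 1 := by rw [← h]; exact pow_orderOf_eq_one u
    refine ⟨by rwa [pow_two] at h1, ?_⟩
    rintro rfl
    simp at h
  · rintro ⟨h1, h2⟩
    haveI : Fact (Nat.Prime 2) := ⟨Nat.prime_two⟩
    exact orderOf_eq_prime (by rwa [pow_two]) h2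

/-- The element of the group with a code. -/
noncomputable def elt (hT : Tbl D) (e : ℕ) : ↥(D.group F) := ⟨hP hR (cE F e), hP_cE_mem hR hT e⟩

theorem orderOf_elt (hT : Tbl D) (hCI : CartanInv D 1) (h2 : (2 : F) ≠ 0) {e : ℕ} (he : e < 2 ^ D.rank)
    (he0 : e ≠ 0) : orderOf (elt hR hT e) = 2 := by
  rw [orderOf_eq_two_iff]
  constructor
  · exact Subtype.ext (hP_cE_sq hR hT e)
  · intro h
    exact hP_cE_ne hR hT hCI h2 he he0 (congrArg Subtype.val h)

include hR in
theorem conj_elt {full : List (ℕ × List (List ℤ × ℕ))} {fds : List ℕ} {reps : List (ℕ × List ℕ)}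
    (hD : OddData D η full fds reps) (hRall : ∀ (K : Type) [Field K], Sys D K η)
    (hq : Odd (Nat.card F)) {u : ↥(D.group F)} (hu : orderOf u = 2) :
    ∃ r ∈ reps, IsConj u (elt hR hD.hT r.1) := by
  obtain ⟨h1, h3⟩ := orderOf_eq_two_iff.1 hu
  obtain ⟨r, hr, y, hy, e⟩ := invol_rep hR hD hRall hq u.2 (congrArg Subtype.val h1) (fun h => h3 (Subtype.ext h))
  refine ⟨r, hr, isConj_iff.2 ⟨⟨y, hy⟩⁻¹, Subtype.ext ?_⟩⟩
  exact e

theorem card_centralizer_elt {full : List (ℕ × List (List ℤ × ℕ))} {e₀ : ℕ} {ds : List ℕ} (hT : Tbl D)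
    (hC : CommLin D) (hCI : CartanInv D 1) (hq : Odd (Nat.card F)) (hfull : checkChain D full = true)
    (hfall : ∀ i < D.rank, i ∈ full.map Prod.fst) (hr : RepCert D full e₀ ds) (hlen : ds.length = D.rank)
    (hH : Nat.card (D.diagonalSubgroup F) = (Nat.card F - 1) ^ D.rank) :
    Nat.card (Subgroup.centralizer ({elt hR hT e₀} : Set ↥(D.group F))) =
      Nat.card F ^ (posOf D e₀).length * prodSub (Nat.card F) ds := by
  rw [card_centralizer_eq, ← card_cent_final hR hT hC hCI hq hfull hfall hr hlen hH]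
  rfl

end Final

end Cfsg.Agent.Lib.ChevOdd.OddCert
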