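import Cfsg.Agent.Lib.ChevOdd.Cayley

/-!
Existence of a fundamental root at which the Cayley transform applies: for `τ = id` over a field with
`-1` a square and for `τ` an involution of the field whose norm is surjective.
-/

set_option autoImplicit false
set_option linter.unusedSectionVars false

namespace Cfsg.Agent.Lib.ChevOdd.GoodRoot

open Cfsg.Lie Cfsg.Agent.Lib.ChevBN.Elem Cfsg.Agent.Lib.ChevBN.Entries Cfsg.Agent.Lib.ChevBN.Table
open Cfsg.Agent.Lib.ChevBN.Collect Cfsg.Agent.Lib.ChevBN.Rel Cfsg.Agent.Lib.ChevBN.Torus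
open Cfsg.Agent.Lib.ChevBN.Monomial Cfsg.Agent.Lib.ChevBN.Core Cfsg.Agent.Lib.ChevBN.Pair
open Cfsg.Agent.Lib.ChevBN.Stmts Cfsg.Agent.Lib.ChevBN.BruhatForm Cfsg.Agent.Lib.ChevBN.Opp
open Cfsg.Agent.Lib.ChevBN.ConjH Cfsg.Agent.Lib.ChevBN.Fix Cfsg.Agent.Lib.ChevBN.RootCent
open Cfsg.Agent.Lib.ChevOrder.Chev Cfsg.Agent.Lib.ChevOrder.BNCount Cfsg.Agent.Lib.ChevOrder.Cox
open Cfsg.Agent.Lib.BNPair.CoxeterExchange
open Cfsg.Agent.Lib.BNPair.Basic Cfsg.Agent.Lib.BNPair.Parabolic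
open Cfsg.Agent.Lib.ChevOdd.Kappa Cfsg.Agent.Lib.ChevOdd.Invol Cfsg.Agent.Lib.ChevOdd.Cayley
open Cfsg.Agent.Lib.ChevBN.H1

variable {D : ChevalleyDatum} {F : Type*} [Field F] {η : ℕ → ℕ → ℤ}

/-! ### Parameters from characters -/

/-- A function which is `1` outside `l`, and given by `u` on `l`. -/
def uu (D : ChevalleyDatum) (F : Type*) [Field F] (u : ℕ → F) (l : List (Fin D.rank)) : ℕ → F :=
  fun j => if ∃ i ∈ l, i.val = j then u j else 1

theorem uu_ne {u : ℕ → F} (hu : ∀ j < D.rank, u j ≠ 0) (l : List (Fin D.rank)) :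
    ∀ j < D.rank, uu D F u l j ≠ 0 := by
  intro j hj
  simp only [uu]
  split_ifs
  · exact hu j hj
  · exact one_ne_zero

theorem chi_uu_cons {u : ℕ → F} {i : Fin D.rank} {l : List (Fin D.rank)}
    (hi : i ∉ l) (s : ℕ) :
    chi D (uu D F u (i :: l)) s = (u i) ^ D.cartan i s * chi D (uu D F u l) s := by
  classical
  have hi' : (i : ℕ) ∈ Finset.range D.rank := Finset.mem_range.mpr i.2
  rw [chi_eq_prod, chi_eq_prod, ← Finset.mul_prod_erase _ _ hi', ← Finset.mul_prod_erase _ _ hi']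
  have h1 : uu D F u (i :: l) i = u i := by
    simp only [uu]
    rw [if_pos ⟨i, List.mem_cons_self, rfl⟩]
  have h2 : uu D F u l i = 1 := by
    simp only [uu]
    rw [if_neg]
    rintro ⟨k, hk, e⟩
    exact hi (by rwa [← Fin.ext e])
  rw [h1, h2, one_zpow, one_mul]
  congr 1
  apply Finset.prod_congr rfl
  intro j hj
  have hji : j ≠ i := Finset.ne_of_mem_erase hj
  congr 1
  simp only [uu]
  have : (∃ k ∈ i :: l, k.val = j) ↔ ∃ k ∈ l, k.val = j := by
    constructor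
    · rintro ⟨k, hk, e⟩
      rcases List.mem_cons.mp hk with rfl | hk
      · exact absurd e.symm hji
      · exact ⟨k, hk, e⟩
    · rintro ⟨k, hk, e⟩
      exact ⟨k, List.mem_cons_of_mem _ hk, e⟩
  simp only [this]

theorem chi_uu_nil (u : ℕ → F) (s : ℕ) : chi D (uu D F u []) s = 1 := by
  have : uu D F u [] = fun _ => (1 : F) := by
    funext j
    simp [uu]
  rw [this, chi_one]

/-- Parameters with trivial or sign character are trivial or signs. -/
theorem param_one (hT : Tbl D) (hCI : CartanInv D 1) {c : ℕ → F} (hc : ∀ j < D.rank, c j ≠ 0)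
    (h : ∀ s < D.nroots, chi D c s = 1) {j : ℕ} (hj : j < D.rank) : c j = 1 := by
  obtain ⟨v, hv⟩ := hCI
  have h1 := pow_d_eq hv hc hj
  rw [pow_one] at h1
  rw [h1]
  apply Finset.prod_eq_one
  intro k hk
  rw [h _ (hT.simple_lt (Finset.mem_range.mp hk)), one_zpow]

theorem param_sign (hT : Tbl D) (hCI : CartanInv D 1) {c : ℕ → F} (hc : ∀ j < D.rank, c j ≠ 0)
    (h : ∀ s < D.nroots, chi D c s = 1 ∨ chi D c s = -1) {j : ℕ} (hj : j < D.rank) :
    c j = 1 ∨ c j = -1 := by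
  obtain ⟨v, hv⟩ := hCI
  have h1 := pow_d_eq hv hc hj
  rw [pow_one] at h1
  rw [h1]
  apply Finset.prod_induction _ (fun x : F => x = 1 ∨ x = -1)
  · rintro a b (rfl | rfl) (rfl | rfl) <;> simp
  · exact Or.inl rfl
  · intro k hk
    rcases h _ (hT.simple_lt (Finset.mem_range.mp hk)) with h2 | h2
    · rw [h2]
      simp
    · rw [h2]
      rcases Int.even_or_odd (v j k) with h3 | h3
      · left
        exact h3.neg_one_zpow
      · right
        exact h3.neg_one_zpow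

variable (hR : Sys D F η) (hT : Tbl D)

local notation "σ'" => σW hR hT
local notation "f'" => fW hR hT
local notation "L'" => LL (pair hR hT)

include hR hT

theorem cartan_pr {i : ℕ} (hi : i < D.rank) (l : List (Fin D.rank))
    (h : ∀ j ∈ l, D.cartan i (D.simple j) = 0) (s : Fin D.nroots) :
    D.cartan i (σ' (pr (f') l) s) = D.cartan i s := by
  induction l with
  | nil => simp
  | cons j l ih =>
    rw [pr_cons, map_mul, Equiv.Perm.mul_apply, σW_fW, Tbl.wPerm_val,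
      hT.cartan_w i hi j j.2 _ (Fin.isLt _), h j (by simp), mul_zero, sub_zero]
    exact ih fun k hk => h k (List.mem_cons_of_mem _ hk)

/-- The character at the image of a root under a product of orthogonal reflections. -/
theorem chi_pr_orth {c : ℕ → F} (hc : ∀ j < D.rank, c j ≠ 0) (l : List (Fin D.rank)) (hl : l.Nodup)
    (horth : ∀ i ∈ l, ∀ j ∈ l, i ≠ j → D.cartan j (D.simple i) = 0) (s : Fin D.nroots) :
    chi D c (σ' (pr (f') l) s) =
      chi D c s * chi D (uu D F (fun j => (chi D c (D.simple j))⁻¹) l) s := by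
  induction l with
  | nil =>
    simp [chi_uu_nil]
  | cons i l ih =>
    rw [List.nodup_cons] at hl
    have hih := ih hl.2 (fun a ha b hb hab => horth a (List.mem_cons_of_mem _ ha) b
      (List.mem_cons_of_mem _ hb) hab)
    rw [pr_cons, map_mul, Equiv.Perm.mul_apply, σW_fW, Tbl.wPerm_val, chi_w hT hc i.2 (Fin.isLt _),
      cartan_pr hR hT i.2 l (fun j hj => horth j (List.mem_cons_of_mem _ hj) i (List.mem_cons_self)
        (fun e => hl.1 (e ▸ hj))) s, hih, chi_uu_cons hl.1, zpow_neg, inv_zpow]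
    ring

/-- The value of `uu` on `l`. -/
theorem uu_mem {u : ℕ → F} {l : List (Fin D.rank)} {i : Fin D.rank} (hi : i ∈ l) :
    uu D F u l i = u i := by
  simp only [uu]
  rw [if_pos ⟨i, hi, rfl⟩]

/-- Conjugation of the element with a reflection: the parameter is unchanged. -/
theorem conj_A_kappa {j : ℕ} (hj : j < D.rank) {r : ℕ} (hr : r < D.nroots) {z : GL D.Idx F} {κ : F}
    (h : ∀ a : F, z * X hR.toAddRel r a * z⁻¹ = X hR.toAddRel (D.neg r) (κ * a)) (c : F) :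
    (A hR j * z * (A hR j)⁻¹) * X hR.toAddRel (D.reflectRoot j r) c * (A hR j * z * (A hR j)⁻¹)⁻¹ =
      X hR.toAddRel (D.neg (D.reflectRoot j r)) (κ * c) := by
  have hw := hT.w_lt j hj r hr
  have h1 := A_inv_conj_X hR hT hj hw c
  rw [hT.w_w j hj r hr] at h1
  have hee := eta_sq hR hj hr
  have e : (A hR j * z * (A hR j)⁻¹) * X hR.toAddRel (D.reflectRoot j r) c * (A hR j * z * (A hR j)⁻¹)⁻¹ =
      A hR j * (z * ((A hR j)⁻¹ * X hR.toAddRel (D.reflectRoot j r) c * A hR j) * z⁻¹) * (A hR j)⁻¹ := by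
    group
  rw [e, h1, h, A_conj_X hR hj (hT.neg_lt hr), hT.w_neg j hj r hr, hR.eta_neg j hj r hr]
  congr 1
  linear_combination (κ * c) * hee

/-- The sign of the form of `κ`. -/
theorem chi_sign_of_cocycle {z : GL D.Idx F} (hz : z ∈ D.monomialSubgroup F) (hzz : z * z = 1)
    {c : ℕ → F} (hc : ∀ j < D.rank, c j ≠ 0)
    (hk : ∀ s : Fin D.nroots, ∃ e : F, e * e = 1 ∧ ∀ t : F, z * X hR.toAddRel s t * z⁻¹ =
        X hR.toAddRel (σ' (wOf hR hT hz) s) (e * chi D c (σ' (wOf hR hT hz) s) * t))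
    (hww : ∀ s, σ' (wOf hR hT hz) (σ' (wOf hR hT hz) s) = s) (s : Fin D.nroots) :
    chi D c s * chi D c (σ' (wOf hR hT hz) s) = 1 ∨ chi D c s * chi D c (σ' (wOf hR hT hz) s) = -1 := by
  obtain ⟨e₁, he₁, h1⟩ := hk s
  obtain ⟨e₂, he₂, h2⟩ := hk (σ' (wOf hR hT hz) s)
  set y := σ' (wOf hR hT hz) s with hy
  have h3 : z * (z * X hR.toAddRel s 1 * z⁻¹) * z⁻¹ = X hR.toAddRel s 1 := by
    have : z * (z * X hR.toAddRel s 1 * z⁻¹) * z⁻¹ = (z * z) * X hR.toAddRel s 1 * (z * z)⁻¹ := by group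
    rw [this, hzz]
    simp
  rw [h1 1, h2, hww s] at h3
  have h4 := Cfsg.Agent.Lib.ChevBN.GraphFix.X_param_inj hR hT s.isLt h3
  have h5 : chi D c s * chi D c y = e₁ * e₂ := by
    have h6 : (e₁ * e₂) * (e₂ * chi D c s * (e₁ * chi D c y * 1)) = e₁ * e₂ * 1 := by rw [h4]
    have h7 : (e₁ * e₂) * (e₂ * chi D c s * (e₁ * chi D c y * 1)) =
        (e₁ * e₁) * (e₂ * e₂) * (chi D c s * chi D c y) := by ring
    rw [h7, he₁, he₂] at h6
    simpa using h6
  rw [h5]
  rcases mul_self_eq_one_iff.mp he₁ with rfl | rfl <;> rcases mul_self_eq_one_iff.mp he₂ with rfl | rfl <;>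
    simp

theorem nL_single (j : Fin D.rank) : ((nL hR hT [j] : ↥(D.group F)) : GL D.Idx F) = A hR j := by
  have : ((nL hR hT [j] : ↥(D.group F)) : GL D.Idx F) = A hR j * 1 := rfl
  rw [this, mul_one]

theorem wOf_nL_single (j : Fin D.rank) : wOf hR hT (nL_N hR hT [j]) = f' j := by
  rw [wOf_nL, pr_singleton]

variable {τ : F →+* F}

/-- Good data at a fundamental root. -/
theorem good_base {t z : GL D.Idx F} (hz : z ∈ D.monomialSubgroup F) {i : Fin D.rank}
    (hneg : σ' (wOf hR hT hz) (alphaR hT i) = negF hT (alphaR hT i))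
    (hcomm : ∀ c : F, t * X hR.toAddRel (D.simple i) c = X hR.toAddRel (D.simple i) c * t)
    {κ : F} (hκ : ∀ a : F, z * X hR.toAddRel (D.simple i) a * z⁻¹ =
      X hR.toAddRel (D.neg (D.simple i)) (κ * a))
    {μ : F} (hμ : μ ≠ 0) (hμκ : μ * τ μ = κ)
    (hz₁ : ((nL hR hT [] : ↥(D.group F)) : GL D.Idx F) * z *
      ((nL hR hT [] : ↥(D.group F)) : GL D.Idx F)⁻¹ ∈ D.monomialSubgroup F) :
    Good hR hT τ (((nL hR hT [] : ↥(D.group F)) : GL D.Idx F) * t *
      ((nL hR hT [] : ↥(D.group F)) : GL D.Idx F)⁻¹) _ hz₁ i := by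
  have e : ((nL hR hT [] : ↥(D.group F)) : GL D.Idx F) = 1 := rfl
  have ez : ((nL hR hT [] : ↥(D.group F)) : GL D.Idx F) * z *
      ((nL hR hT [] : ↥(D.group F)) : GL D.Idx F)⁻¹ = z := by
    rw [e]
    simp
  have et : ((nL hR hT [] : ↥(D.group F)) : GL D.Idx F) * t *
      ((nL hR hT [] : ↥(D.group F)) : GL D.Idx F)⁻¹ = t := by
    rw [e]
    simp
  refine ⟨?_, ?_, μ, hμ, ?_⟩
  · rw [wOf_proof_irrel hR hT hz₁ hz ez]
    exact hneg
  · rw [et]
    exact hcomm
  · rw [ez, hμκ]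
    exact hκ

/-- Good data after conjugation by a fundamental reflection. -/
theorem good_conj {t z : GL D.Idx F} (hz : z ∈ D.monomialSubgroup F) {i j : Fin D.rank}
    (hneg : σ' (wOf hR hT hz) (Tbl.wPerm hT j.2 (alphaR hT i)) =
      negF hT (Tbl.wPerm hT j.2 (alphaR hT i)))
    (hcomm : ∀ c : F, t * X hR.toAddRel (D.reflectRoot j (D.simple i)) c =
      X hR.toAddRel (D.reflectRoot j (D.simple i)) c * t)
    {κ : F} (hκ : ∀ a : F, z * X hR.toAddRel (D.reflectRoot j (D.simple i)) a * z⁻¹ =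
      X hR.toAddRel (D.neg (D.reflectRoot j (D.simple i))) (κ * a))
    {μ : F} (hμ : μ ≠ 0) (hμκ : μ * τ μ = κ)
    (hz₁ : ((nL hR hT [j] : ↥(D.group F)) : GL D.Idx F) * z *
      ((nL hR hT [j] : ↥(D.group F)) : GL D.Idx F)⁻¹ ∈ D.monomialSubgroup F) :
    Good hR hT τ (((nL hR hT [j] : ↥(D.group F)) : GL D.Idx F) * t *
      ((nL hR hT [j] : ↥(D.group F)) : GL D.Idx F)⁻¹) _ hz₁ i := by
  have hp := hT.simple_lt i.2
  have hr : D.reflectRoot j (D.simple i) < D.nroots := hT.w_lt j j.2 _ hp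
  have hww : D.reflectRoot j (D.reflectRoot j (D.simple i)) = D.simple i := hT.w_w j j.2 _ hp
  refine ⟨?_, ?_, μ, hμ, ?_⟩
  · have h4 : wOf hR hT hz₁ = wOf hR hT (nL_N hR hT [j]) * wOf hR hT hz *
        (wOf hR hT (nL_N hR hT [j]))⁻¹ := rfl
    rw [h4, wOf_nL_single, inv_f' hR hT, map_mul, map_mul, Equiv.Perm.mul_apply, Equiv.Perm.mul_apply,
      σW_fW]
    rw [hneg]
    apply Fin.ext
    show D.reflectRoot j (D.neg (D.reflectRoot j (D.simple i))) = D.neg (D.simple i)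
    rw [hT.w_neg j j.2 _ hr, hww]
  · rw [nL_single]
    intro c
    have h1 := A_inv_conj_X hR hT j.2 hp c
    have e : A hR j * t * (A hR j)⁻¹ * X hR.toAddRel (D.simple i) c =
        A hR j * (t * ((A hR j)⁻¹ * X hR.toAddRel (D.simple i) c * A hR j)) * (A hR j)⁻¹ := by group
    have e2 : X hR.toAddRel (D.simple i) c * (A hR j * t * (A hR j)⁻¹) =
        A hR j * (((A hR j)⁻¹ * X hR.toAddRel (D.simple i) c * A hR j) * t) * (A hR j)⁻¹ := by group
    rw [e, e2, h1, hcomm]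
  · rw [nL_single, hμκ]
    intro c
    have h5 := conj_A_kappa hR hT j.2 hr hκ c
    rw [hww] at h5
    exact h5

theorem mapG_id (g : GL D.Idx F) : mapG D (RingHom.id F) g = g := by
  apply Units.ext
  ext a b
  simp

/-- The reflected root and the negated set. -/
theorem neg_reflect {w : WW (pair hR hT)} {i j : Fin D.rank}
    (hi : σ' w (alphaR hT i) = negF hT (alphaR hT i))
    (hj : σ' w (alphaR hT j) = negF hT (alphaR hT j)) :
    σ' w (Tbl.wPerm hT j.2 (alphaR hT i)) = negF hT (Tbl.wPerm hT j.2 (alphaR hT i)) := by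
  have h1 := comm_of_neg hR hT hj
  have h2 := congrArg (fun x => σ' x (alphaR hT i)) h1
  simp only [map_mul, Equiv.Perm.mul_apply, σW_fW] at h2
  rw [h2, hi]
  exact Fin.ext (hT.w_neg j j.2 _ (hT.simple_lt i.2))

theorem chi_reflect_sum {c : ℕ → F} (hc : ∀ j < D.rank, c j ≠ 0) {i j : ℕ} (hi : i < D.rank)
    (hj : j < D.rank) (h : D.cartan j (D.simple i) = -1) :
    chi D c (D.reflectRoot j (D.simple i)) = chi D c (D.simple i) * chi D c (D.simple j) := by
  rw [chi_w hT hc hj (hT.simple_lt hi), h]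
  simp

/-! ### `τ = id` -/

theorem phase1_good (hO : OddTab D) (hCI : CartanInv D 1) (hm1 : IsSquare (-1 : F))
    (hsq3 : ∀ a b : F, a ≠ 0 → b ≠ 0 → IsSquare a ∨ IsSquare b ∨ IsSquare (a * b))
    {z : GL D.Idx F} (hz : z ∈ D.monomialSubgroup F) (hzz : z * z = 1) (hw1 : wOf hR hT hz ≠ 1)
    (hE : AllEig hR hT (wOf hR hT hz)) :
    ∃ (l : List (Fin D.rank)) (i : Fin D.rank)
      (hz₁ : ((nL hR hT l : ↥(D.group F)) : GL D.Idx F) * z *
        ((nL hR hT l : ↥(D.group F)) : GL D.Idx F)⁻¹ ∈ D.monomialSubgroup F),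
      Good hR hT (RingHom.id F) (((nL hR hT l : ↥(D.group F)) : GL D.Idx F) * 1 *
        ((nL hR hT l : ↥(D.group F)) : GL D.Idx F)⁻¹) _ hz₁ i := by
  have hzz' : z * mapG D (RingHom.id F) z = 1 := by rw [mapG_id hR hT]; exact hzz
  have hw := wOf_sq_of_cocycle hR hT hz hzz'
  set w := wOf hR hT hz with hwdef
  have hww : ∀ s, σ' w (σ' w s) = s := by
    intro s
    rw [← Equiv.Perm.mul_apply, ← map_mul, hw, map_one, Equiv.Perm.one_apply]
  obtain ⟨c, hc, hk⟩ := N_kappa hR hT hz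
  have hzm : ∀ (l : List (Fin D.rank)), ((nL hR hT l : ↥(D.group F)) : GL D.Idx F) * z *
        ((nL hR hT l : ↥(D.group F)) : GL D.Idx F)⁻¹ ∈ D.monomialSubgroup F := fun l =>
    Subgroup.mul_mem _ (Subgroup.mul_mem _ (nL_N hR hT l) hz) (Subgroup.inv_mem _ (nL_N hR hT l))
  -- the parameter at a negated root
  have hkap : ∀ s : Fin D.nroots, σ' w s = negF hT s → ∃ e : F, e * e = 1 ∧ ∀ a : F,
      z * X hR.toAddRel s a * z⁻¹ = X hR.toAddRel (D.neg s) (e * (chi D c s)⁻¹ * a) := by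
    intro s hs
    obtain ⟨e, he, h1, -⟩ := hk s
    refine ⟨e, he, fun a => ?_⟩
    have h2 := h1 a
    rw [← hwdef, hs] at h2
    rw [h2]
    have e3 : chi D c (negF hT s : Fin D.nroots) = (chi D c s)⁻¹ := chi_neg hT c s.isLt
    rw [e3]
    rfl
  have hsqe : ∀ e : F, e * e = 1 → IsSquare e := by
    intro e he
    rcases mul_self_eq_one_iff.mp he with rfl | rfl
    · exact IsSquare.one
    · exact hm1
  have hμ : ∀ κ : F, κ ≠ 0 → IsSquare κ → ∃ μ : F, μ ≠ 0 ∧ μ * (RingHom.id F) μ = κ := by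
    rintro κ hκ ⟨μ, rfl⟩
    refine ⟨μ, ?_, rfl⟩
    rintro rfl
    simp at hκ
  -- the case of a fundamental root
  have hone : ∀ i : Fin D.rank, σ' w (alphaR hT i) = negF hT (alphaR hT i) →
      IsSquare (chi D c (D.simple i)) →
      ∃ (l : List (Fin D.rank)) (i : Fin D.rank)
      (hz₁ : ((nL hR hT l : ↥(D.group F)) : GL D.Idx F) * z *
        ((nL hR hT l : ↥(D.group F)) : GL D.Idx F)⁻¹ ∈ D.monomialSubgroup F),
      Good hR hT (RingHom.id F) (((nL hR hT l : ↥(D.group F)) : GL D.Idx F) * 1 *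
        ((nL hR hT l : ↥(D.group F)) : GL D.Idx F)⁻¹) _ hz₁ i := by
    intro i hi hsq
    obtain ⟨e, he, h1⟩ := hkap _ hi
    have hne : (chi D c (D.simple i))⁻¹ ≠ 0 := inv_ne_zero (chi_ne_zero hc _)
    have he0 : e ≠ 0 := by
      rintro rfl
      simp at he
    obtain ⟨μ, hμ0, hμ1⟩ := hμ (e * (chi D c (D.simple i))⁻¹) (mul_ne_zero he0 hne)
      ((hsqe e he).mul hsq.inv)
    exact ⟨[], i, hzm [], good_base hR hT hz hi (fun c => by simp) h1 hμ0 hμ1 _⟩
  rcases dichotomy hR hT hO hw hE with ⟨i, j, hij, hi, hj, hcij⟩ | ⟨l, hl1, hl2, hl3, hl4⟩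
  · have hχ1 := chi_ne_zero hc (D.simple i)
    have hχ2 := chi_ne_zero hc (D.simple j)
    rcases hsq3 _ _ hχ1 hχ2 with h | h | h
    · exact hone i hi h
    · exact hone j hj h
    · have hr := neg_reflect hR hT hi hj
      obtain ⟨e, he, h1⟩ := hkap _ hr
      have hχr : chi D c (Tbl.wPerm hT j.2 (alphaR hT i) : Fin D.nroots) =
          chi D c (D.simple i) * chi D c (D.simple j) := chi_reflect_sum hR hT hc i.2 j.2 hcij
      rw [hχr] at h1
      have he0 : e ≠ 0 := by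
        rintro rfl
        simp at he
      obtain ⟨μ, hμ0, hμ1⟩ := hμ (e * (chi D c (D.simple i) * chi D c (D.simple j))⁻¹)
        (mul_ne_zero he0 (inv_ne_zero (mul_ne_zero hχ1 hχ2))) ((hsqe e he).mul h.inv)
      exact ⟨[j], i, hzm [j], good_conj hR hT hz hr (fun c => by simp) h1 hμ0 hμ1 _⟩
  · -- a product of orthogonal reflections
    obtain ⟨i, hil⟩ : ∃ i, i ∈ l := by
      cases l with
      | nil =>
        exact absurd hl1.symm hw1
      | cons a l => exact ⟨a, List.mem_cons_self⟩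
    have hi := hl3 i hil
    let u : ℕ → F := fun j => (chi D c (D.simple j))⁻¹
    have hu : ∀ j < D.rank, u j ≠ 0 := fun j _ => inv_ne_zero (chi_ne_zero hc _)
    have hdne : ∀ j < D.rank, (c * c * uu D F u l) j ≠ 0 := fun j hj =>
      mul_ne_zero (mul_ne_zero (hc j hj) (hc j hj)) (uu_ne hu l j hj)
    have hchi : ∀ s < D.nroots, chi D (c * c * uu D F u l) s = 1 ∨ chi D (c * c * uu D F u l) s = -1 := by
      intro s hs
      have hk' : ∀ s : Fin D.nroots, ∃ e : F, e * e = 1 ∧ ∀ t : F, z * X hR.toAddRel s t * z⁻¹ =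
          X hR.toAddRel (σ' (wOf hR hT hz) s) (e * chi D c (σ' (wOf hR hT hz) s) * t) := by
        intro s
        obtain ⟨e, he, h1, -⟩ := hk s
        exact ⟨e, he, h1⟩
      have h1 := chi_sign_of_cocycle hR hT hz hzz hc hk' hww ⟨s, hs⟩
      rw [← hwdef, ← hl1, chi_pr_orth hR hT hc l hl2 hl4 ⟨s, hs⟩] at h1
      rw [chi_mul, chi_mul]
      have e5 : chi D c s * chi D c s * chi D (uu D F u l) s =
          chi D c s * (chi D c s * chi D (uu D F (fun j => (chi D c (D.simple j))⁻¹) l) s) := by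
        rw [mul_assoc]
      rw [e5]
      exact h1
    have hci := param_sign hT hCI hdne hchi i.2
    have hval : (c * c * uu D F u l) i = c i * c i * (chi D c (D.simple i))⁻¹ := by
      simp only [Pi.mul_apply]
      rw [uu_mem hR hT hil]
    rw [hval] at hci
    apply hone i hi
    have hc0 := hc i i.2
    have hχ0 := chi_ne_zero hc (D.simple i)
    rcases hci with h | h
    · refine ⟨c i, ?_⟩
      field_simp at h
      rw [← h]
      ring
    · obtain ⟨m, hm⟩ := hm1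
      refine ⟨c i * m, ?_⟩
      have h6 : chi D c (D.simple i) = -(c i * c i) := by
        field_simp at h
        linear_combination h
      rw [h6]
      calc -(c i * c i) = (-1) * (c i * c i) := by ring
        _ = (m * m) * (c i * c i) := by rw [hm]
        _ = c i * m * (c i * m) := by ring

/-- Involutions of `N` are conjugate into `H`, when `-1` is a square. -/
theorem phase1 (hO : OddTab D) (hη : ∀ i < D.rank, η i (D.simple i) = -1) (h2 : (2 : F) ≠ 0)
    (hCI : CartanInv D 1) (hm1 : IsSquare (-1 : F))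
    (hsq3 : ∀ a b : F, a ≠ 0 → b ≠ 0 → IsSquare a ∨ IsSquare b ∨ IsSquare (a * b))
    {z : GL D.Idx F} (hz : z ∈ D.monomialSubgroup F) (hzz : z * z = 1) :
    ∃ c ∈ D.group F, c⁻¹ * z * c ∈ D.diagonalSubgroup F := by
  have hmid : ∀ x, (RingHom.id F) ((RingHom.id F) x) = x := fun _ => rfl
  obtain ⟨c, hc, -, h⟩ := reduce_aux hR hT (τ := RingHom.id F) hO hη h2 hmid (fun t => t = 1)
    (by
      rintro t rfl
      exact ⟨Subgroup.one_mem _, map_one _⟩)
    (by
      rintro t i rfl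
      simp)
    (by
      rintro t z hz rfl - hzz hw1 hE
      rw [mapG_id hR hT] at hzz
      exact phase1_good hR hT hO hCI hm1 hsq3 hz hzz hw1 hE)
    _ _ 1 z hz rfl (by simp) (by rw [mapG_id hR hT]; exact hzz) rfl rfl
  rw [mapG_id hR hT] at h
  exact ⟨c, hc, h⟩

/-! ### A field involution with surjective norm -/

/-- The parameter at a negated root is fixed. -/
theorem kappa_fixed (hτ : ∀ x, τ (τ x) = x) {z : GL D.Idx F} (hz : z ∈ D.monomialSubgroup F)
    (hzz : z * mapG D τ z = 1) {s : Fin D.nroots} (hs : σ' (wOf hR hT hz) s = negF hT s) {κ : F}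
    (hκ : ∀ a : F, z * X hR.toAddRel s a * z⁻¹ = X hR.toAddRel (D.neg s) (κ * a)) (hκ0 : κ ≠ 0) :
    τ κ = κ := by
  have h1 : mapG D τ z * X hR.toAddRel s 1 * (mapG D τ z)⁻¹ =
      X hR.toAddRel (D.neg s) (τ κ) := by
    have h2 := congrArg (mapG D τ) (hκ 1)
    rw [map_mul, map_mul, map_inv, mapG_X τ hR.toAddRel hR.toAddRel,
      mapG_X τ hR.toAddRel hR.toAddRel] at h2
    simpa using h2
  have hκ' : ∀ t : F, z * X hR.toAddRel s t * z⁻¹ =
      X hR.toAddRel (σ' (wOf hR hT hz) s : Fin D.nroots) (κ * t) := by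
    intro t
    rw [hs]
    exact hκ t
  have h3 := conj_neg hR hT hz s hκ' (τ κ)
  rw [hs] at h3
  have e : D.neg (negF hT s : Fin D.nroots) = s := hT.neg_neg s s.isLt
  rw [e, mul_comm κ⁻¹] at h3
  have h4 : z * (mapG D τ z * X hR.toAddRel s 1 * (mapG D τ z)⁻¹) * z⁻¹ = X hR.toAddRel s 1 := by
    have : z * (mapG D τ z * X hR.toAddRel s 1 * (mapG D τ z)⁻¹) * z⁻¹ =
        (z * mapG D τ z) * X hR.toAddRel s 1 * (z * mapG D τ z)⁻¹ := by group
    rw [this, hzz]
    simp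
  rw [h1, h3] at h4
  have h5 := Cfsg.Agent.Lib.ChevBN.GraphFix.X_param_inj hR hT s.isLt h4
  field_simp at h5
  exact h5

theorem mapG_hP (c : ℕ → F) : mapG D τ (hP hR c) = hP hR (fun j => τ (c j)) := by
  rw [hP, hP, map_list_prod, List.map_map]
  congr 1
  apply List.map_congr_left
  intro j _
  simp only [Function.comp, mapG_hG τ hR.toAddRel hR.toAddRel]

theorem hP_congr {c c' : ℕ → F} (h : ∀ j < D.rank, c j = c' j) : hP hR c = hP hR c' := by
  rw [hP, hP]
  congr 1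
  apply List.map_congr_left
  intro j hj
  rw [h j (List.mem_range.mp hj)]

/-- Elements of order at most two in `H`. -/
theorem sign_of_sq (hCI : CartanInv D 1) {c : ℕ → F} (hc : ∀ j < D.rank, c j ≠ 0)
    (h : hP hR c * hP hR c = 1) : (∀ s < D.nroots, chi D c s = 1 ∨ chi D c s = -1) ∧
      ∀ j < D.rank, c j = 1 ∨ c j = -1 := by
  have h1 : ∀ s < D.nroots, chi D c s = 1 ∨ chi D c s = -1 := by
    intro s hs
    have h3 : hP hR c * (hP hR c * X hR.toAddRel s 1 * (hP hR c)⁻¹) * (hP hR c)⁻¹ = X hR.toAddRel s 1 := by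
      have : hP hR c * (hP hR c * X hR.toAddRel s 1 * (hP hR c)⁻¹) * (hP hR c)⁻¹ =
          (hP hR c * hP hR c) * X hR.toAddRel s 1 * (hP hR c * hP hR c)⁻¹ := by group
      rw [this, h]
      simp
    rw [hP_conj hR hc hs, hP_conj hR hc hs] at h3
    have h4 := Cfsg.Agent.Lib.ChevBN.GraphFix.X_param_inj hR hT hs h3
    have h5 : chi D c s * chi D c s = 1 := by
      simpa using h4
    exact mul_self_eq_one_iff.mp h5
  exact ⟨h1, fun j hj => param_sign hT hCI hc h1 hj⟩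

theorem phase2_good (hO : OddTab D) (hCI : CartanInv D 1) (hτ : ∀ x, τ (τ x) = x)
    (hnorm : ∀ a : F, a ≠ 0 → τ a = a → ∃ μ : F, μ ≠ 0 ∧ μ * τ μ = a) (h2 : (2 : F) ≠ 0)
    {t z : GL D.Idx F} (ht : t ∈ D.diagonalSubgroup F) (htt : t * t = 1)
    (hz : z ∈ D.monomialSubgroup F) (hzt : z * t = t * z) (hzz : z * mapG D τ z = 1)
    (hw1 : wOf hR hT hz ≠ 1) (hE : AllEig hR hT (wOf hR hT hz)) :
    ∃ (l : List (Fin D.rank)) (i : Fin D.rank)
      (hz₁ : ((nL hR hT l : ↥(D.group F)) : GL D.Idx F) * z *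
        ((nL hR hT l : ↥(D.group F)) : GL D.Idx F)⁻¹ ∈ D.monomialSubgroup F),
      Good hR hT τ (((nL hR hT l : ↥(D.group F)) : GL D.Idx F) * t *
        ((nL hR hT l : ↥(D.group F)) : GL D.Idx F)⁻¹) _ hz₁ i := by
  have hw := wOf_sq_of_cocycle hR hT hz hzz
  set w := wOf hR hT hz with hwdef
  obtain ⟨c₀, hc₀, rfl⟩ := (mem_torus hR).1 (by rw [← diagonal_eq hR hT]; exact ht)
  obtain ⟨hsgn, -⟩ := sign_of_sq hR hT hCI hc₀ htt
  have hzm : ∀ (l : List (Fin D.rank)), ((nL hR hT l : ↥(D.group F)) : GL D.Idx F) * z *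
        ((nL hR hT l : ↥(D.group F)) : GL D.Idx F)⁻¹ ∈ D.monomialSubgroup F := fun l =>
    Subgroup.mul_mem _ (Subgroup.mul_mem _ (nL_N hR hT l) hz) (Subgroup.inv_mem _ (nL_N hR hT l))
  -- data at a negated root
  have hdata : ∀ s : Fin D.nroots, σ' w s = negF hT s → ∃ κ μ : F, μ ≠ 0 ∧ μ * τ μ = κ ∧ ∀ a : F,
      z * X hR.toAddRel s a * z⁻¹ = X hR.toAddRel (D.neg s) (κ * a) := by
    intro s hs
    obtain ⟨κ, hκ, h1⟩ := conj_X_wOf hR hT hz s
    rw [← hwdef, hs] at h1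
    have h3 := kappa_fixed hR hT hτ hz hzz (hwdef ▸ hs) h1 hκ
    obtain ⟨μ, hμ, hμ1⟩ := hnorm κ hκ h3
    exact ⟨κ, μ, hμ, hμ1, h1⟩
  have hcommr : ∀ s : ℕ, s < D.nroots → chi D c₀ s = 1 → ∀ c : F,
      hP hR c₀ * X hR.toAddRel s c = X hR.toAddRel s c * hP hR c₀ := by
    intro s hs hχ c
    have h4 := hP_conj hR hc₀ hs c
    rw [hχ, one_mul, mul_inv_eq_iff_eq_mul] at h4
    exact h4
  have hone : ∀ i : Fin D.rank, σ' w (alphaR hT i) = negF hT (alphaR hT i) →
      chi D c₀ (D.simple i) = 1 →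
      ∃ (l : List (Fin D.rank)) (i : Fin D.rank)
      (hz₁ : ((nL hR hT l : ↥(D.group F)) : GL D.Idx F) * z *
        ((nL hR hT l : ↥(D.group F)) : GL D.Idx F)⁻¹ ∈ D.monomialSubgroup F),
      Good hR hT τ (((nL hR hT l : ↥(D.group F)) : GL D.Idx F) * hP hR c₀ *
        ((nL hR hT l : ↥(D.group F)) : GL D.Idx F)⁻¹) _ hz₁ i := by
    intro i hi hχ
    obtain ⟨κ, μ, hμ, hμ1, h1⟩ := hdata _ hi
    exact ⟨[], i, hzm [], good_base hR hT hz hi (hcommr _ (hT.simple_lt i.2) hχ) h1 hμ hμ1 _⟩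
  rcases dichotomy hR hT hO hw hE with ⟨i, j, hij, hi, hj, hcij⟩ | ⟨l, hl1, hl2, hl3, hl4⟩
  · have hχr := chi_reflect_sum hR hT hc₀ i.2 j.2 hcij
    rcases hsgn _ (hT.simple_lt i.2) with h1 | h1
    · exact hone i hi h1
    rcases hsgn _ (hT.simple_lt j.2) with h3 | h3
    · exact hone j hj h3
    have hr := neg_reflect hR hT hi hj
    obtain ⟨κ, μ, hμ, hμ1, h4⟩ := hdata _ hr
    have h5 : chi D c₀ (D.reflectRoot j (D.simple i)) = 1 := by
      rw [hχr, h1, h3]
      ring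
    exact ⟨[j], i, hzm [j], good_conj hR hT hz hr
      (hcommr _ (hT.w_lt j j.2 _ (hT.simple_lt i.2)) h5) h4 hμ hμ1 _⟩
  · obtain ⟨i, hil⟩ : ∃ i, i ∈ l := by
      cases l with
      | nil =>
        exact absurd hl1.symm hw1
      | cons a l => exact ⟨a, List.mem_cons_self⟩
    apply hone i (hl3 i hil)
    let u : ℕ → F := fun j => (chi D c₀ (D.simple j))⁻¹
    have hu : ∀ j < D.rank, u j ≠ 0 := fun j _ => inv_ne_zero (chi_ne_zero hc₀ _)
    -- the character is invariant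
    have hinv : ∀ s : Fin D.nroots, chi D c₀ (σ' w s) = chi D c₀ s := by
      intro s
      obtain ⟨κ, hκ, h1⟩ := conj_X_wOf hR hT hz s
      rw [← hwdef] at h1
      have h3 : hP hR c₀ * (z * X hR.toAddRel s 1 * z⁻¹) * (hP hR c₀)⁻¹ =
          z * (hP hR c₀ * X hR.toAddRel s 1 * (hP hR c₀)⁻¹) * z⁻¹ := by
        have e1 : z * hP hR c₀ * z⁻¹ = hP hR c₀ := by rw [hzt]; group
        calc hP hR c₀ * (z * X hR.toAddRel s 1 * z⁻¹) * (hP hR c₀)⁻¹ =
              (hP hR c₀ * z) * X hR.toAddRel s 1 * (hP hR c₀ * z)⁻¹ := by group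
          _ = (z * hP hR c₀) * X hR.toAddRel s 1 * (z * hP hR c₀)⁻¹ := by rw [hzt]
          _ = _ := by group
      rw [h1, hP_conj hR hc₀ (Fin.isLt _), hP_conj hR hc₀ s.isLt, h1] at h3
      have h4 := Cfsg.Agent.Lib.ChevBN.GraphFix.X_param_inj hR hT (Fin.isLt _) h3
      have h5 : chi D c₀ (σ' w s) * κ = κ * chi D c₀ s := by
        simpa using h4
      rw [mul_comm] at h5
      exact mul_left_cancel₀ hκ h5
    have hchi : ∀ s < D.nroots, chi D (uu D F u l) s = 1 := by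
      intro s hs
      have h1 := hinv ⟨s, hs⟩
      rw [← hl1, chi_pr_orth hR hT hc₀ l hl2 hl4 ⟨s, hs⟩] at h1
      have h3 : chi D c₀ s ≠ 0 := chi_ne_zero hc₀ s
      exact mul_left_cancel₀ h3 (h1.trans (mul_one _).symm)
    have h3 := param_one hT hCI (uu_ne hu l) hchi i.2
    rw [uu_mem hR hT hil] at h3
    have h4 := inv_eq_one.mp h3
    exact h4

/-- The reduction for a cocycle in `N ∩ C(t)`, `t` of order at most two in `H`. -/
theorem phase2 (hO : OddTab D) (hη : ∀ i < D.rank, η i (D.simple i) = -1) (h2 : (2 : F) ≠ 0)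
    (hCI : CartanInv D 1) (hτ : ∀ x, τ (τ x) = x)
    (hnorm : ∀ a : F, a ≠ 0 → τ a = a → ∃ μ : F, μ ≠ 0 ∧ μ * τ μ = a)
    {t z : GL D.Idx F} (ht : t ∈ D.diagonalSubgroup F) (htt : t * t = 1)
    (hz : z ∈ D.monomialSubgroup F) (hzt : z * t = t * z) (hzz : z * mapG D τ z = 1) :
    ∃ c ∈ D.group F, c * t = t * c ∧ c⁻¹ * z * mapG D τ c ∈ D.diagonalSubgroup F := by
  refine reduce_aux hR hT (τ := τ) hO hη h2 hτ
    (fun t => t ∈ D.diagonalSubgroup F ∧ t * t = 1) ?_ ?_ ?_ _ _ t z hz ⟨ht, htt⟩ hzt hzz rfl rfl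
  · rintro t ⟨ht, htt⟩
    refine ⟨ht, ?_⟩
    obtain ⟨c₀, hc₀, rfl⟩ := (mem_torus hR).1 (by rw [← diagonal_eq hR hT]; exact ht)
    obtain ⟨-, hs⟩ := sign_of_sq hR hT hCI hc₀ htt
    rw [mapG_hP hR hT]
    apply hP_congr hR hT
    intro j hj
    rcases hs j hj with h | h <;> rw [h] <;> simp
  · rintro t i ⟨ht, htt⟩
    refine ⟨A_conj_H hR hT i.2 ht, ?_⟩
    calc A hR i * t * (A hR i)⁻¹ * (A hR i * t * (A hR i)⁻¹) = A hR i * (t * t) * (A hR i)⁻¹ := by group
      _ = 1 := by rw [htt]; group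
  · rintro t z hz ⟨ht, htt⟩ hzt hzz hw1 hE
    exact phase2_good hR hT hO hCI hτ hnorm h2 ht htt hz hzt hzz hw1 hE

end Cfsg.Agent.Lib.ChevOdd.GoodRoot
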