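import Cfsg.Agent.Lib.ChevOdd.Kappa

/-!
Involutions in the Weyl group, acting on the roots: conjugation by a simple reflection shortens an
involution unless all its descents are eigenroots with eigenvalue `-1`; the set of roots negated by an
element; the reflection in a root.
-/

set_option autoImplicit false
set_option linter.unusedSectionVars false

namespace Cfsg.Agent.Lib.ChevOdd.Invol

open Cfsg.Lie Cfsg.Agent.Lib.ChevBN.Elem Cfsg.Agent.Lib.ChevBN.Entries Cfsg.Agent.Lib.ChevBN.Table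
open Cfsg.Agent.Lib.ChevBN.Collect Cfsg.Agent.Lib.ChevBN.Rel Cfsg.Agent.Lib.ChevBN.Torus
open Cfsg.Agent.Lib.ChevBN.Monomial Cfsg.Agent.Lib.ChevBN.Core Cfsg.Agent.Lib.ChevBN.Pair
open Cfsg.Agent.Lib.ChevBN.Stmts Cfsg.Agent.Lib.ChevBN.BruhatForm Cfsg.Agent.Lib.ChevBN.Opp
open Cfsg.Agent.Lib.ChevBN.ConjH Cfsg.Agent.Lib.ChevBN.Fix Cfsg.Agent.Lib.ChevBN.RootCent
open Cfsg.Agent.Lib.ChevOrder.Chev Cfsg.Agent.Lib.ChevOrder.BNCount Cfsg.Agent.Lib.ChevOrder.Cox
open Cfsg.Agent.Lib.BNPair.CoxeterExchange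
open Cfsg.Agent.Lib.BNPair.Basic Cfsg.Agent.Lib.BNPair.Parabolic
open Cfsg.Agent.Lib.ChevOdd.Kappa

variable {D : ChevalleyDatum} {F : Type*} [Field F] {η : ℕ → ℕ → ℤ}

/-- The table facts used for involutions. -/
structure OddTab (D : ChevalleyDatum) : Prop where
  two : ∀ i < D.rank, D.cartan i (D.simple i) = 2
  ord : ∀ i < D.rank, ∀ j < D.rank, i ≠ j → D.cartan j (D.simple i) ≠ 0 →
    D.cartan j (D.simple i) = -1 ∨ D.cartan i (D.simple j) = -1

theorem refl_of_cartan (hT : Tbl D) (hO : OddTab D) {i s : ℕ} (hi : i < D.rank) (hs : s < D.nroots)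
    (h : D.cartan i s = 0) : D.reflectRoot i s = s := by
  have h1 : s ≠ D.simple i := by
    rintro rfl
    rw [hO.two i hi] at h
    omega
  have h2 : s ≠ D.neg (D.simple i) := by
    rintro rfl
    rw [hT.cartan_neg i hi _ (hT.simple_lt hi), hO.two i hi] at h
    omega
  simp [ChevalleyDatum.reflectRoot, h1, h2, h]

variable (hR : Sys D F η) (hT : Tbl D)
include hR hT

local notation "σ'" => σW hR hT
local notation "f'" => fW hR hT
local notation "L'" => LL (pair hR hT)

/-! ### Length -/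

theorem sq_f (i : Fin D.rank) : f' i * f' i = 1 := (setupW hR hT).sq i

theorem inv_f' (i : Fin D.rank) : (f' i)⁻¹ = f' i := inv_eq_of_mul_eq_one_left (sq_f hR hT i)

theorem L_inv_le (w : WW (pair hR hT)) : L' w⁻¹ ≤ L' w := by
  obtain ⟨l, rfl, hl⟩ := (setupW hR hT).ex w
  rw [← pr_reverse (setupW hR hT), ← hl]
  have := (setupW hR hT).le l.reverse
  simpa using this

theorem L_inv (w : WW (pair hR hT)) : L' w⁻¹ = L' w := by
  apply le_antisymm (L_inv_le hR hT w)
  have := L_inv_le hR hT w⁻¹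
  rwa [inv_inv] at this

theorem sigma_f_alpha (i : Fin D.rank) : σ' (f' i) (alphaR hT i) = negF hT (alphaR hT i) := by
  rw [σW_fW]
  exact Fin.ext (hT.w_simple i i.2)

/-- The inverse image of a simple root is not positive iff there is a left descent. -/
theorem desc_of_not_pos (i : Fin D.rank) (w : WW (pair hR hT))
    (h : (σ' w)⁻¹ (alphaR hT i) ∉ PosR D) : L' (f' i * w) + 1 = L' w := by
  rcases len_f_mul_lt_or (setupW hR hT) i w with h1 | h1
  · exact absurd (pos_of_len hR hT i w (by omega)) h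
  · exact h1

theorem not_pos_of_desc (i : Fin D.rank) (w : WW (pair hR hT))
    (h : L' (f' i * w) + 1 = L' w) : (σ' w)⁻¹ (alphaR hT i) ∉ PosR D :=
  hK hR hT i w (by omega)

theorem neg_neg_F (s : Fin D.nroots) : negF hT (negF hT s) = s :=
  Fin.ext (hT.neg_neg s s.isLt)

theorem posR_neg_iff (s : Fin D.nroots) : negF hT s ∈ PosR D ↔ s ∉ PosR D := by
  constructor
  · intro h h2
    exact hT.not_pos_of_neg (hT.neg_of_pos h2) h
  · intro h
    rcases hT.pos_or_neg s.isLt with h1 | h1
    · exact absurd h1 h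
    · exact hT.pos_of_neg h1

theorem wPerm_neg_of_not_pos (i : Fin D.rank) (s : Fin D.nroots) (h : s ∉ PosR D)
    (hne : s ≠ negF hT (alphaR hT i)) : Tbl.wPerm hT i.2 s ∉ PosR D := by
  have h1 : negF hT s ∈ PosR D := (posR_neg_iff hR hT s).2 h
  have h2 : (negF hT s).val ≠ D.simple i := by
    intro h3
    apply hne
    have h4 : negF hT s = alphaR hT i := Fin.ext h3
    rw [← h4, neg_neg_F hR hT]
  have h3 := hT.w_pos i i.2 _ h1 h2
  have h4 : D.reflectRoot i (negF hT s).val = (negF hT (Tbl.wPerm hT i.2 s)).val :=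
    hT.w_neg i i.2 s s.isLt
  rw [h4] at h3
  exact (posR_neg_iff hR hT _).1 h3

/-- Conjugation by a simple reflection shortens an involution which moves `α` to a negative root other
than `-α`. -/
theorem conj_reduce {w : WW (pair hR hT)} (hw : w * w = 1) (i : Fin D.rank)
    (h1 : σ' w (alphaR hT i) ∉ PosR D) (h2 : σ' w (alphaR hT i) ≠ negF hT (alphaR hT i)) :
    L' (f' i * w * f' i) + 2 = L' w := by
  have hwi : w⁻¹ = w := inv_eq_of_mul_eq_one_left hw
  have hσi : (σ' w)⁻¹ = σ' w := by rw [← map_inv, hwi]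
  -- `w f` has smaller length
  have h3 : L' (f' i * w) + 1 = L' w := desc_of_not_pos hR hT i w (by rw [hσi]; exact h1)
  have h4 : L' (w * f' i) = L' (f' i * w) := by
    have := L_inv hR hT (f' i * w)
    rw [mul_inv_rev, hwi, inv_f'] at this
    exact this
  -- the second step
  have h5 : ((σ' (w * f' i))⁻¹) (alphaR hT i) = Tbl.wPerm hT i.2 (σ' w (alphaR hT i)) := by
    rw [← map_inv, mul_inv_rev, hwi, inv_f', map_mul, σW_fW, Equiv.Perm.mul_apply]
  have h6 := wPerm_neg_of_not_pos hR hT i _ h1 h2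
  have h7 := desc_of_not_pos hR hT i (w * f' i) (by rw [h5]; exact h6)
  rw [← mul_assoc] at h7
  omega

/-- If there is no descent at all the element is trivial. -/
theorem exists_desc {w : WW (pair hR hT)} (hw : w ≠ 1) :
    ∃ i, (σ' w)⁻¹ (alphaR hT i) ∉ PosR D := by
  obtain ⟨l, hl1, hl2⟩ := (setupW hR hT).ex w
  cases l with
  | nil =>
    exact absurd hl1.symm hw
  | cons i l =>
    refine ⟨i, not_pos_of_desc hR hT i w ?_⟩
    have h1 : f' i * w = pr (f') l := by
      rw [← hl1, pr_cons, ← mul_assoc, sq_f, one_mul]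
    have h2 := (setupW hR hT).le l
    rcases len_f_mul_lt_or (setupW hR hT) i w with h3 | h3
    · rw [h1] at h3
      simp only [List.length_cons] at hl2
      omega
    · exact h3

/-! ### Reflections in roots -/

theorem nG_mem_N {r : ℕ} (hr : r < D.nroots) : nG hR.toAddRel r 1 ∈ D.monomialSubgroup F := by
  rw [monomial_eq hR hT]
  exact Subgroup.mem_sup_right (nG_one_mem hR hT (reach_univ hT hr))

theorem nG_c_mem_N {r : ℕ} (hr : r < D.nroots) {c : F} (hc : c ≠ 0) :
    nG hR.toAddRel r c ∈ D.monomialSubgroup F := by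
  rw [nG_eq_hG_mul]
  exact Subgroup.mul_mem _ (H_le_N hR (hG_mem_diagonal hR hr hc)) (nG_mem_N hR hT hr)

/-- The reflection in a root. -/
noncomputable def rf (r : Fin D.nroots) : WW (pair hR hT) := wOf hR hT (nG_mem_N hR hT r.isLt)

theorem rf_simple (i : Fin D.rank) : rf hR hT (alphaR hT i) = f' i := rfl

theorem wOf_nG {r : ℕ} (hr : r < D.nroots) {c : F} (hc : c ≠ 0) :
    wOf hR hT (nG_c_mem_N hR hT hr hc) = rf hR hT ⟨r, hr⟩ := by
  rw [rf, wOf_eq_iff, nG_eq_hG_mul]
  have : (hG hR.toAddRel r c * nG hR.toAddRel r 1)⁻¹ * nG hR.toAddRel r 1 =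
      (nG hR.toAddRel r 1)⁻¹ * (hG hR.toAddRel r c)⁻¹ * ((nG hR.toAddRel r 1)⁻¹)⁻¹ := by group
  rw [this]
  exact H_norm_N hR hT (Subgroup.inv_mem _ (nG_mem_N hR hT hr))
    (Subgroup.inv_mem _ (hG_mem_diagonal hR hr hc))

/-- `y s_r y⁻¹ = s_{y r}`. -/
theorem rf_conj (y : WW (pair hR hT)) (r : Fin D.nroots) :
    y * rf hR hT r * y⁻¹ = rf hR hT (σ' y r) := by
  obtain ⟨n, hn, rfl⟩ := mk_out_eq hR hT y
  obtain ⟨κ, hκ, h1⟩ := conj_X_wOf hR hT hn r
  have h2 := conj_neg hR hT hn r h1
  set s := σ' (wOf hR hT hn) r with hs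
  have e : n * nG hR.toAddRel r 1 * n⁻¹ = nG hR.toAddRel s κ := by
    have e1 : n * nG hR.toAddRel r 1 * n⁻¹ =
        (n * X hR.toAddRel r 1 * n⁻¹) * (n * X hR.toAddRel (D.neg r) (-(1 : F)⁻¹) * n⁻¹) *
          (n * X hR.toAddRel r 1 * n⁻¹) := by
      rw [nG]; group
    rw [e1, h1, h2, nG, mul_one]
    congr 3
    simp
  have hmem : n * nG hR.toAddRel r 1 * n⁻¹ ∈ D.monomialSubgroup F :=
    Subgroup.mul_mem _ (Subgroup.mul_mem _ hn (nG_mem_N hR hT r.isLt)) (Subgroup.inv_mem _ hn)
  have e2 : wOf hR hT hmem = wOf hR hT hn * rf hR hT r * (wOf hR hT hn)⁻¹ := rfl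
  rw [← e2, rf]
  rw [wOf_eq_iff hR hT hmem (nG_mem_N hR hT s.isLt), e, nG_eq_hG_mul]
  have : (hG hR.toAddRel s κ * nG hR.toAddRel s 1)⁻¹ * nG hR.toAddRel s 1 =
      (nG hR.toAddRel s 1)⁻¹ * (hG hR.toAddRel s κ)⁻¹ * ((nG hR.toAddRel s 1)⁻¹)⁻¹ := by group
  rw [this]
  exact H_norm_N hR hT (Subgroup.inv_mem _ (nG_mem_N hR hT s.isLt))
    (Subgroup.inv_mem _ (hG_mem_diagonal hR s.isLt hκ))

/-- An element negating a simple root commutes with the reflection. -/
theorem comm_of_neg {w : WW (pair hR hT)} {j : Fin D.rank}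
    (h : σ' w (alphaR hT j) = negF hT (alphaR hT j)) : w * f' j = f' j * w := by
  have h1 : σ' (f' j * w) (alphaR hT j) = alphaR hT j := by
    rw [map_mul, Equiv.Perm.mul_apply, h, σW_fW]
    apply Fin.ext
    show D.reflectRoot j (D.neg (D.simple j)) = D.simple j
    rw [hT.w_neg j j.2 _ (hT.simple_lt j.2), hT.w_simple j j.2, hT.neg_neg _ (hT.simple_lt j.2)]
  have h2 := rf_conj hR hT (f' j * w) (alphaR hT j)
  rw [h1, rf_simple] at h2
  have h3 : f' j * w * f' j = f' j * (f' j * w) := by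
    rw [mul_inv_eq_iff_eq_mul] at h2
    exact h2
  rw [← mul_assoc, sq_f, one_mul, mul_assoc] at h3
  have h4 := mul_left_cancel (a := f' j) (b := w * f' j) (c := f' j * w) (by
    rw [h3, ← mul_assoc, sq_f, one_mul])
  exact h4

/-! ### Involutions -/

/-- All descents are eigenroots. -/
def AllEig (hR : Sys D F η) (hT : Tbl D) (w : WW (pair hR hT)) : Prop :=
  ∀ i, σW hR hT w (alphaR hT i) ∉ PosR D → σW hR hT w (alphaR hT i) = negF hT (alphaR hT i)

theorem wPerm_alpha_neg (j : Fin D.rank) (s : Fin D.nroots) (h : s ∈ PosR D) (hne : s ≠ alphaR hT j) :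
    Tbl.wPerm hT j.2 s ∈ PosR D :=
  hT.w_pos j j.2 s h (fun e => hne (Fin.ext e))

/-- The orthogonal case: the element is a product of commuting reflections. -/
theorem orth_form (hO : OddTab D) : ∀ (n : ℕ) (w : WW (pair hR hT)), L' w = n → w * w = 1 →
    AllEig hR hT w →
    (∀ i j : Fin D.rank, i ≠ j → σ' w (alphaR hT i) ∉ PosR D → σ' w (alphaR hT j) ∉ PosR D →
      D.cartan j (D.simple i) = 0) →
    ∃ l : List (Fin D.rank), pr (f') l = w ∧ l.Nodup ∧
      ∀ i, i ∈ l ↔ σ' w (alphaR hT i) ∉ PosR D := by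
  intro n
  induction n using Nat.strong_induction_on with
  | _ n ih =>
    intro w hn hw hE hOrth
    have hwi : w⁻¹ = w := inv_eq_of_mul_eq_one_left hw
    have hσi : (σ' w)⁻¹ = σ' w := by rw [← map_inv, hwi]
    by_cases h1 : w = 1
    · subst h1
      refine ⟨[], rfl, List.nodup_nil, fun i => ?_⟩
      simp only [List.not_mem_nil, map_one, Equiv.Perm.one_apply, false_iff, not_not]
      exact hT.simple_pos i i.2
    · obtain ⟨j, hj⟩ := exists_desc hR hT h1
      rw [hσi] at hj
      have hjE := hE j hj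
      set w₁ := f' j * w with hw₁
      have hcomm := comm_of_neg hR hT hjE
      have h2 : L' w₁ + 1 = L' w := desc_of_not_pos hR hT j w (by rw [hσi]; exact hj)
      have hw₁₁ : w₁ * w₁ = 1 := by
        rw [hw₁]
        calc f' j * w * (f' j * w) = f' j * (w * f' j) * w := by group
          _ = f' j * (f' j * w) * w := by rw [hcomm]
          _ = (f' j * f' j) * (w * w) := by group
          _ = 1 := by rw [sq_f, hw, one_mul]
      have hσ₁ : ∀ s, σ' w₁ s = Tbl.wPerm hT j.2 (σ' w s) := by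
        intro s
        rw [hw₁, map_mul, σW_fW, Equiv.Perm.mul_apply]
      -- descents of `w₁`
      have hd : ∀ i, σ' w₁ (alphaR hT i) ∉ PosR D ↔ (σ' w (alphaR hT i) ∉ PosR D ∧ i ≠ j) := by
        intro i
        constructor
        · intro h3
          rw [hσ₁] at h3
          by_cases h4 : σ' w (alphaR hT i) ∈ PosR D
          · exfalso
            by_cases h5 : σ' w (alphaR hT i) = alphaR hT j
            · -- then `α_i = w α_j = -α_j`
              have h6 : alphaR hT i = negF hT (alphaR hT j) := by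
                rw [← hjE]
                have := congrArg (σ' w) h5
                rw [← Equiv.Perm.mul_apply, ← map_mul, hw, map_one, Equiv.Perm.one_apply] at this
                exact this
              have h7 : alphaR hT i ∈ PosR D := hT.simple_pos i i.2
              rw [h6] at h7
              exact (posR_neg_iff hR hT _).1 h7 (hT.simple_pos j j.2)
            · exact h3 (wPerm_alpha_neg hR hT j _ h4 h5)
          · refine ⟨h4, ?_⟩
            rintro rfl
            rw [hE i h4] at h3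
            apply h3
            have : Tbl.wPerm hT i.2 (negF hT (alphaR hT i)) = alphaR hT i := by
              apply Fin.ext
              show D.reflectRoot i (D.neg (D.simple i)) = D.simple i
              rw [hT.w_neg i i.2 _ (hT.simple_lt i.2), hT.w_simple i i.2,
                hT.neg_neg _ (hT.simple_lt i.2)]
            rw [this]
            exact hT.simple_pos i i.2
        · rintro ⟨h3, h4⟩
          have h5 := hOrth i j h4 h3 hj
          have h6 : D.reflectRoot j (D.simple i) = D.simple i :=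
            refl_of_cartan hT hO j.2 (hT.simple_lt i.2) h5
          rw [hσ₁, hE i h3]
          intro h7
          have h8 : Tbl.wPerm hT j.2 (negF hT (alphaR hT i)) = negF hT (alphaR hT i) := by
            apply Fin.ext
            show D.reflectRoot j (D.neg (D.simple i)) = D.neg (D.simple i)
            rw [hT.w_neg j j.2 _ (hT.simple_lt i.2), h6]
          rw [h8] at h7
          exact (posR_neg_iff hR hT _).1 h7 (hT.simple_pos i i.2)
      have hE₁ : AllEig hR hT w₁ := by
        intro i h3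
        obtain ⟨h4, h5⟩ := (hd i).1 h3
        have h6 := hOrth i j h5 h4 hj
        have h7 : D.reflectRoot j (D.simple i) = D.simple i :=
          refl_of_cartan hT hO j.2 (hT.simple_lt i.2) h6
        rw [hσ₁, hE i h4]
        apply Fin.ext
        show D.reflectRoot j (D.neg (D.simple i)) = D.neg (D.simple i)
        rw [hT.w_neg j j.2 _ (hT.simple_lt i.2), h7]
      have hOrth₁ : ∀ i k : Fin D.rank, i ≠ k → σ' w₁ (alphaR hT i) ∉ PosR D →
          σ' w₁ (alphaR hT k) ∉ PosR D → D.cartan k (D.simple i) = 0 := by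
        intro i k hik h3 h4
        exact hOrth i k hik ((hd i).1 h3).1 ((hd k).1 h4).1
      obtain ⟨l, hl1, hl2, hl3⟩ := ih (L' w₁) (by omega) w₁ rfl hw₁₁ hE₁ hOrth₁
      refine ⟨j :: l, ?_, ?_, fun i => ?_⟩
      · rw [pr_cons, hl1, hw₁, ← mul_assoc, sq_f, one_mul]
      · rw [List.nodup_cons]
        refine ⟨fun h3 => ?_, hl2⟩
        exact ((hd j).1 ((hl3 j).1 h3)).2 rfl
      · rw [List.mem_cons, hl3, hd]
        constructor
        · rintro (rfl | h3)
          · exact hj
          · exact h3.1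
        · intro h3
          by_cases h4 : i = j
          · exact Or.inl h4
          · exact Or.inr ⟨h3, h4⟩

/-- The dichotomy for an involution all of whose descents are eigenroots. -/
theorem dichotomy (hO : OddTab D) {w : WW (pair hR hT)} (hw : w * w = 1)
    (hE : AllEig hR hT w) :
    (∃ i j : Fin D.rank, i ≠ j ∧ σ' w (alphaR hT i) = negF hT (alphaR hT i) ∧
      σ' w (alphaR hT j) = negF hT (alphaR hT j) ∧ D.cartan j (D.simple i) = -1) ∨
    ∃ l : List (Fin D.rank), pr (f') l = w ∧ l.Nodup ∧ (∀ i ∈ l, σ' w (alphaR hT i) = negF hT (alphaR hT i)) ∧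
      (∀ i ∈ l, ∀ j ∈ l, i ≠ j → D.cartan j (D.simple i) = 0) := by
  by_cases h : ∀ i j : Fin D.rank, i ≠ j → σ' w (alphaR hT i) ∉ PosR D → σ' w (alphaR hT j) ∉ PosR D →
      D.cartan j (D.simple i) = 0
  · right
    obtain ⟨l, h1, h2, h3⟩ := orth_form hR hT hO _ w rfl hw hE h
    refine ⟨l, h1, h2, fun i hi => hE i ((h3 i).1 hi), fun i hi j hj hij => ?_⟩
    exact h i j hij ((h3 i).1 hi) ((h3 j).1 hj)
  · left
    push Not at h
    obtain ⟨i, j, hij, h1, h2, h3⟩ := h
    rcases hO.ord i i.2 j j.2 (fun e => hij (Fin.ext e)) h3 with h4 | h4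
    · exact ⟨i, j, hij, hE i h1, hE j h2, h4⟩
    · exact ⟨j, i, hij.symm, hE j h2, hE i h1, h4⟩

/-! ### The negated roots -/

/-- The roots negated by `w`. -/
noncomputable def Phi (hR : Sys D F η) (hT : Tbl D) (w : WW (pair hR hT)) : Finset (Fin D.nroots) := by
  classical
  exact Finset.univ.filter fun s => σW hR hT w s = negF hT s

theorem mem_Phi (w : WW (pair hR hT)) (s : Fin D.nroots) :
    s ∈ Phi hR hT w ↔ σ' w s = negF hT s := by
  simp [Phi]

theorem card_Phi_le (x w : WW (pair hR hT)) : (Phi hR hT w).card ≤ (Phi hR hT (x * w * x⁻¹)).card := by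
  apply Finset.card_le_card_of_injOn (fun s => σ' x s)
  · intro s hs
    have hs' := (mem_Phi hR hT w s).1 hs
    refine (mem_Phi hR hT _ _).2 ?_
    have e0 : (σ' x)⁻¹ ((σ' x) s) = s := by simp
    simp only [map_mul, map_inv, Equiv.Perm.mul_apply]
    rw [e0, hs', σW_neg]
  · intro a _ b _ h
    exact (σ' x).injective h

theorem card_Phi_conj (x w : WW (pair hR hT)) :
    (Phi hR hT (x * w * x⁻¹)).card = (Phi hR hT w).card := by
  apply le_antisymm _ (card_Phi_le hR hT x w)
  have := card_Phi_le hR hT x⁻¹ (x * w * x⁻¹)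
  have e : x⁻¹ * (x * w * x⁻¹) * x⁻¹⁻¹ = w := by group
  rwa [e] at this

theorem Ad_neg_neg (a b : Fin D.nroots) :
    Ad D (cr D (negF hT a)) (negF hT b) = Ad D (cr D a) b := by
  show Ad D (cr D (D.neg a)) (D.neg b) = _
  rw [Ad_neg hR hT _ b.isLt, Ad_eq_sum, Ad_eq_sum, ← Finset.sum_neg_distrib]
  apply Finset.sum_congr rfl
  intro j hj
  rw [hT.coroot_neg a a.isLt j (Finset.mem_range.mp hj)]
  ring

/-- The key fact for the measure: multiplying by a reflection in a negated root makes the negated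
set smaller. -/
theorem Phi_mul_lt (hO : OddTab D) {w : WW (pair hR hT)} {i : Fin D.rank}
    (h : σ' w (alphaR hT i) = negF hT (alphaR hT i)) :
    (Phi hR hT (w * f' i)).card < (Phi hR hT w).card := by
  apply Finset.card_lt_card
  rw [Finset.ssubset_iff_of_subset]
  · refine ⟨alphaR hT i, (mem_Phi hR hT _ _).2 h, fun h2 => ?_⟩
    have h3 := (mem_Phi hR hT _ _).1 h2
    rw [map_mul, Equiv.Perm.mul_apply, sigma_f_alpha hR hT, σW_neg, h, neg_neg_F hR hT] at h3
    have h4 : alphaR hT i ∈ PosR D := hT.simple_pos i i.2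
    rw [h3] at h4
    exact (posR_neg_iff hR hT _).1 h4 (hT.simple_pos i i.2)
  · intro s hs
    have h1 := (mem_Phi hR hT _ _).1 hs
    rw [map_mul, Equiv.Perm.mul_apply, σW_fW] at h1
    set s' := Tbl.wPerm hT i.2 s with hs'
    have h2 := Ad_σW hR hT w (alphaR hT i) s'
    rw [h, h1, Ad_neg_neg hR hT] at h2
    have h3 : Ad D (cr D (alphaR hT i)) s' = - Ad D (cr D (alphaR hT i)) s := by
      have h4 := Tbl.Ad_w hT i.2 (r := alphaR hT i) (Fin.isLt _) s.isLt
      have h5 : Ad D (cr D (alphaR hT i)) s' = Ad D (cr D (alphaR hT i)) (D.reflectRoot i s) := rfl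
      rw [h5, h4]
      have h6 : D.reflectRoot i (alphaR hT i) = D.neg (alphaR hT i) := hT.w_simple i i.2
      rw [h6, Ad_eq_sum, Ad_eq_sum, ← Finset.sum_neg_distrib]
      apply Finset.sum_congr rfl
      intro j hj
      rw [hT.coroot_neg _ (Fin.isLt _) j (Finset.mem_range.mp hj)]
      ring
    rw [h3] at h2
    have h4 : Ad D (cr D (alphaR hT i)) s = 0 := by omega
    have h5 : D.cartan i s = 0 := by
      rw [← h4, Ad_eq_sum]
      rw [Finset.sum_congr rfl (fun j hj => by
        rw [show cr D (alphaR hT i) j = if (i : ℕ) = j then 1 else 0 from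
          hT.coroot_simple i i.2 j (Finset.mem_range.mp hj)])]
      simp [Finset.sum_ite_eq, i.2]
    have h6 : s' = s := Fin.ext (refl_of_cartan hT hO i.2 s.isLt h5)
    rw [h6] at h1
    exact (mem_Phi hR hT _ _).2 h1

end Cfsg.Agent.Lib.ChevOdd.Invol
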