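import Cfsg.Agent.Lib.ChevBN.RootCent
import Cfsg.Agent.Lib.ChevBN.H1
import Cfsg.Agent.Lib.ChevBN.GraphFix

/-!
The structure of the action of `N` on the root elements: the Weyl element of an element of `N`,
the parameters `κ` of the conjugation action, their form `±χ(π s)`, and `κ_{-s} = κ_s⁻¹`.
-/

set_option autoImplicit false
set_option linter.unusedSectionVars false

namespace Cfsg.Agent.Lib.ChevOdd.Kappa

open Cfsg.Lie Cfsg.Agent.Lib.ChevBN.Elem Cfsg.Agent.Lib.ChevBN.Entries Cfsg.Agent.Lib.ChevBN.Table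
open Cfsg.Agent.Lib.ChevBN.Collect Cfsg.Agent.Lib.ChevBN.Rel Cfsg.Agent.Lib.ChevBN.Torus
open Cfsg.Agent.Lib.ChevBN.Monomial Cfsg.Agent.Lib.ChevBN.Core Cfsg.Agent.Lib.ChevBN.Pair
open Cfsg.Agent.Lib.ChevBN.Stmts Cfsg.Agent.Lib.ChevBN.BruhatForm Cfsg.Agent.Lib.ChevBN.Opp
open Cfsg.Agent.Lib.ChevBN.ConjH Cfsg.Agent.Lib.ChevBN.Fix Cfsg.Agent.Lib.ChevBN.RootCent
open Cfsg.Agent.Lib.ChevOrder.Chev Cfsg.Agent.Lib.ChevOrder.BNCount Cfsg.Agent.Lib.ChevOrder.Cox
open Cfsg.Agent.Lib.BNPair.CoxeterExchange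
open Cfsg.Agent.Lib.BNPair.Basic Cfsg.Agent.Lib.BNPair.Parabolic

variable {D : ChevalleyDatum} {F : Type*} [Field F] {η : ℕ → ℕ → ℤ}

/-! ### Characters -/

theorem chi_neg (hT : Tbl D) (c : ℕ → F) {s : ℕ} (hs : s < D.nroots) :
    chi D c (D.neg s) = (chi D c s)⁻¹ := by
  rw [chi_eq_prod, chi_eq_prod, ← Finset.prod_inv_distrib]
  apply Finset.prod_congr rfl
  intro j hj
  rw [hT.cartan_neg j (Finset.mem_range.mp hj) s hs, zpow_neg]

theorem chi_w (hT : Tbl D) {c : ℕ → F} (hc : ∀ j < D.rank, c j ≠ 0) {q s : ℕ} (hq : q < D.rank)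
    (hs : s < D.nroots) :
    chi D c (D.reflectRoot q s) = chi D c s * (chi D c (D.simple q)) ^ (- D.cartan q s) := by
  rw [chi_eq_prod, chi_eq_prod, chi_eq_prod, ← Finset.prod_zpow, ← Finset.prod_mul_distrib]
  apply Finset.prod_congr rfl
  intro j hj
  have hj' := Finset.mem_range.mp hj
  rw [hT.cartan_w j hj' q hq s hs, ← zpow_mul, ← zpow_add₀ (hc j hj')]
  congr 1
  ring

variable (hR : Sys D F η) (hT : Tbl D)
include hR hT

theorem hP_mem_H' {c : ℕ → F} (hc : ∀ j < D.rank, c j ≠ 0) : hP hR c ∈ D.diagonalSubgroup F := by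
  rw [diagonal_eq hR hT]
  exact ⟨c, hc, rfl⟩

/-! ### The Weyl element -/

/-- The Weyl element of an element of `N`. -/
noncomputable def wOf {n : GL D.Idx F} (hn : n ∈ D.monomialSubgroup F) : WW (pair hR hT) :=
  QuotientGroup.mk ⟨⟨n, N_le_G hR hT hn⟩, (mem_PN hR hT).2 hn⟩

theorem wOf_mul {n m : GL D.Idx F} (hn : n ∈ D.monomialSubgroup F) (hm : m ∈ D.monomialSubgroup F) :
    wOf hR hT (Subgroup.mul_mem _ hn hm) = wOf hR hT hn * wOf hR hT hm := rfl

theorem wOf_inv {n : GL D.Idx F} (hn : n ∈ D.monomialSubgroup F) :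
    wOf hR hT (Subgroup.inv_mem _ hn) = (wOf hR hT hn)⁻¹ := rfl

theorem wOf_A (i : Fin D.rank) : wOf hR hT (A_mem_N hR hT i.2) = fW hR hT i := rfl

theorem wOf_eq_iff {n m : GL D.Idx F} (hn : n ∈ D.monomialSubgroup F)
    (hm : m ∈ D.monomialSubgroup F) :
    wOf hR hT hn = wOf hR hT hm ↔ n⁻¹ * m ∈ D.diagonalSubgroup F := by
  rw [wOf, wOf, mk_eq, ← B_inf_N hR hT, mem_PB hR hT]
  constructor
  · intro h
    exact ⟨h, Subgroup.mul_mem _ (Subgroup.inv_mem _ hn) hm⟩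
  · intro h
    exact h.1

theorem wOf_one : wOf hR hT (Subgroup.one_mem (D.monomialSubgroup F)) = 1 := rfl

theorem wOf_eq_one_iff {n : GL D.Idx F} (hn : n ∈ D.monomialSubgroup F) :
    wOf hR hT hn = 1 ↔ n ∈ D.diagonalSubgroup F := by
  have h := wOf_eq_iff hR hT (Subgroup.one_mem (D.monomialSubgroup F)) hn
  rw [wOf_one, inv_one, one_mul] at h
  rw [eq_comm, h]

theorem wOf_congr {n m : GL D.Idx F} (hn : n ∈ D.monomialSubgroup F) (h : n = m) :
    wOf hR hT (h ▸ hn : m ∈ D.monomialSubgroup F) = wOf hR hT hn := by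
  subst h
  rfl

theorem mk_out_eq (w : WW (pair hR hT)) :
    ∃ (n : GL D.Idx F) (hn : n ∈ D.monomialSubgroup F), wOf hR hT hn = w := by
  obtain ⟨⟨⟨n, hG⟩, hN⟩, rfl⟩ := QuotientGroup.mk_surjective w
  exact ⟨n, (mem_PN hR hT).1 hN, rfl⟩

/-- The action on root elements follows the Weyl element. -/
theorem conj_X_wOf {n : GL D.Idx F} (hn : n ∈ D.monomialSubgroup F) (s : Fin D.nroots) :
    ∃ κ : F, κ ≠ 0 ∧ ∀ t : F,
      n * X hR.toAddRel s t * n⁻¹ = X hR.toAddRel (σW hR hT (wOf hR hT hn) s) (κ * t) := by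
  obtain ⟨κ, hκ, h⟩ := conj_of_mem_N hR hT hn (mem_mono_of_N hR hT hn) s
  exact ⟨κ, hκ, fun t => h t⟩

/-- A word in the `A i`. -/
theorem word_kappa (l : List (Fin D.rank)) (s : Fin D.nroots) :
    ∃ e : F, e * e = 1 ∧
      (∀ t : F, ((nL hR hT l : ↥(D.group F)) : GL D.Idx F) * X hR.toAddRel s t *
          ((nL hR hT l : ↥(D.group F)) : GL D.Idx F)⁻¹ =
        X hR.toAddRel (σW hR hT (pr (fW hR hT) l) s) (e * t)) ∧
      (∀ t : F, ((nL hR hT l : ↥(D.group F)) : GL D.Idx F) * X hR.toAddRel (D.neg s) t *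
          ((nL hR hT l : ↥(D.group F)) : GL D.Idx F)⁻¹ =
        X hR.toAddRel (D.neg (σW hR hT (pr (fW hR hT) l) s)) (e * t)) := by
  induction l with
  | nil =>
    refine ⟨1, by simp, fun t => ?_, fun t => ?_⟩
    · have : ((nL hR hT [] : ↥(D.group F)) : GL D.Idx F) = 1 := rfl
      rw [this]
      simp
    · have : ((nL hR hT [] : ↥(D.group F)) : GL D.Idx F) = 1 := rfl
      rw [this]
      simp
  | cons i l ih =>
    obtain ⟨e, he, h1, h2⟩ := ih
    set y := σW hR hT (pr (fW hR hT) l) s with hy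
    have hee := eta_sq hR i.2 y.isLt
    have ec : ((nL hR hT (i :: l) : ↥(D.group F)) : GL D.Idx F) =
        A hR i * ((nL hR hT l : ↥(D.group F)) : GL D.Idx F) := rfl
    have hσ : σW hR hT (pr (fW hR hT) (i :: l)) s = Tbl.wPerm hT i.2 y := by
      rw [pr_cons, map_mul, σW_fW, Equiv.Perm.mul_apply]
    refine ⟨(η i y : F) * e, ?_, fun t => ?_, fun t => ?_⟩
    · calc (η i y : F) * e * ((η i y : F) * e) = ((η i y : F) * (η i y : F)) * (e * e) := by ring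
        _ = 1 := by rw [hee, he, one_mul]
    · have ee : A hR i * ((nL hR hT l : ↥(D.group F)) : GL D.Idx F) * X hR.toAddRel s t *
          (A hR i * ((nL hR hT l : ↥(D.group F)) : GL D.Idx F))⁻¹ =
          A hR i * (((nL hR hT l : ↥(D.group F)) : GL D.Idx F) * X hR.toAddRel s t *
            ((nL hR hT l : ↥(D.group F)) : GL D.Idx F)⁻¹) * (A hR i)⁻¹ := by group
      rw [ec, ee, h1, A_conj_X hR i.2 y.isLt, hσ, Tbl.wPerm_val, mul_assoc]
    · have ee : A hR i * ((nL hR hT l : ↥(D.group F)) : GL D.Idx F) * X hR.toAddRel (D.neg s) t *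
          (A hR i * ((nL hR hT l : ↥(D.group F)) : GL D.Idx F))⁻¹ =
          A hR i * (((nL hR hT l : ↥(D.group F)) : GL D.Idx F) * X hR.toAddRel (D.neg s) t *
            ((nL hR hT l : ↥(D.group F)) : GL D.Idx F)⁻¹) * (A hR i)⁻¹ := by group
      rw [ec, ee, h2, A_conj_X hR i.2 (hT.neg_lt y.isLt), hσ, Tbl.wPerm_val, hT.w_neg i i.2 y y.isLt,
        hR.eta_neg i i.2 y y.isLt, mul_assoc]

theorem nL_N (l : List (Fin D.rank)) :
    ((nL hR hT l : ↥(D.group F)) : GL D.Idx F) ∈ D.monomialSubgroup F :=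
  (mem_PN hR hT).1 (nL_mem hR hT l)

theorem wOf_nL (l : List (Fin D.rank)) : wOf hR hT (nL_N hR hT l) = pr (fW hR hT) l := by
  rw [pr_fW]
  rfl

/-- Every element of `N` is a torus element times a word with the same Weyl element. -/
theorem exists_word_form {n : GL D.Idx F} (hn : n ∈ D.monomialSubgroup F) :
    ∃ (c : ℕ → F) (l : List (Fin D.rank)), (∀ j < D.rank, c j ≠ 0) ∧
      n = hP hR c * ((nL hR hT l : ↥(D.group F)) : GL D.Idx F) ∧ pr (fW hR hT) l = wOf hR hT hn ∧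
      l.length = LL (pair hR hT) (wOf hR hT hn) := by
  obtain ⟨l, hl1, hl2⟩ := (setupW hR hT).ex (wOf hR hT hn)
  have h1 := (wOf_eq_iff hR hT hn (nL_N hR hT l)).1 (by rw [wOf_nL, hl1])
  have h2 : n * ((nL hR hT l : ↥(D.group F)) : GL D.Idx F)⁻¹ ∈ D.diagonalSubgroup F := by
    have h3 := Subgroup.inv_mem _ h1
    have h4 := H_norm_N hR hT hn h3
    convert h4 using 1
    group
  rw [diagonal_eq hR hT] at h2
  obtain ⟨c, hc, e⟩ := h2
  refine ⟨c, l, hc, ?_, hl1, hl2⟩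
  rw [← e]
  group

/-- The form of the action of `N` on root elements. -/
theorem N_kappa {n : GL D.Idx F} (hn : n ∈ D.monomialSubgroup F) :
    ∃ c : ℕ → F, (∀ j < D.rank, c j ≠ 0) ∧ ∀ s : Fin D.nroots, ∃ e : F, e * e = 1 ∧
      (∀ t : F, n * X hR.toAddRel s t * n⁻¹ =
        X hR.toAddRel (σW hR hT (wOf hR hT hn) s) (e * chi D c (σW hR hT (wOf hR hT hn) s) * t)) ∧
      (∀ t : F, n * X hR.toAddRel (D.neg s) t * n⁻¹ =
        X hR.toAddRel (D.neg (σW hR hT (wOf hR hT hn) s))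
          (e * (chi D c (σW hR hT (wOf hR hT hn) s))⁻¹ * t)) := by
  obtain ⟨c, l, hc, rfl, hl, -⟩ := exists_word_form hR hT hn
  refine ⟨c, hc, fun s => ?_⟩
  obtain ⟨e, he, h1, h2⟩ := word_kappa hR hT l s
  refine ⟨e, he, fun t => ?_, fun t => ?_⟩
  · have ee : hP hR c * ((nL hR hT l : ↥(D.group F)) : GL D.Idx F) * X hR.toAddRel s t *
        (hP hR c * ((nL hR hT l : ↥(D.group F)) : GL D.Idx F))⁻¹ =
        hP hR c * (((nL hR hT l : ↥(D.group F)) : GL D.Idx F) * X hR.toAddRel s t *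
          ((nL hR hT l : ↥(D.group F)) : GL D.Idx F)⁻¹) * (hP hR c)⁻¹ := by group
    rw [ee, h1, hP_conj hR hc (Fin.isLt _), hl]
    congr 1
    ring
  · have ee : hP hR c * ((nL hR hT l : ↥(D.group F)) : GL D.Idx F) * X hR.toAddRel (D.neg s) t *
        (hP hR c * ((nL hR hT l : ↥(D.group F)) : GL D.Idx F))⁻¹ =
        hP hR c * (((nL hR hT l : ↥(D.group F)) : GL D.Idx F) * X hR.toAddRel (D.neg s) t *
          ((nL hR hT l : ↥(D.group F)) : GL D.Idx F)⁻¹) * (hP hR c)⁻¹ := by group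
    rw [ee, h2, hP_conj hR hc (hT.neg_lt (Fin.isLt _)), chi_neg hT c (Fin.isLt _), hl]
    congr 1
    ring

/-- `κ_{-s} = κ_s⁻¹`. -/
theorem conj_neg {n : GL D.Idx F} (hn : n ∈ D.monomialSubgroup F) (s : Fin D.nroots) {κ : F}
    (hκ : ∀ t : F, n * X hR.toAddRel s t * n⁻¹ = X hR.toAddRel (σW hR hT (wOf hR hT hn) s) (κ * t))
    (t : F) :
    n * X hR.toAddRel (D.neg s) t * n⁻¹ =
      X hR.toAddRel (D.neg (σW hR hT (wOf hR hT hn) s)) (κ⁻¹ * t) := by
  obtain ⟨c, hc, h⟩ := N_kappa hR hT hn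
  obtain ⟨e, he, h1, h2⟩ := h s
  set y := σW hR hT (wOf hR hT hn) s with hy
  have hχ := chi_ne_zero hc y
  have h3 : X hR.toAddRel y (κ * 1) = X hR.toAddRel y (e * chi D c y * 1) := by
    rw [← hκ 1, h1 1]
  have h4 : κ = e * chi D c y := by
    have h5 := Cfsg.Agent.Lib.ChevBN.GraphFix.X_param_inj hR hT y.isLt h3
    simpa using h5
  rw [h2 t]
  congr 1
  rw [h4, mul_inv]
  have he' : e⁻¹ = e := inv_eq_of_mul_eq_one_right he
  rw [he']

end Cfsg.Agent.Lib.ChevOdd.Kappa
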