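import Cfsg.Agent.Lib.ChevOrder.Cox

/-!
A group acting on a set with a positive system: if it is generated by involutions `f i` which negate
one positive element `β i` and permute the others, and `σ y (β i) = β j` forces
`y f i y⁻¹ = f j`, then the number of positive elements made negative is a length function with the exchange
condition.
-/

set_option autoImplicit false

namespace Cfsg.Agent.Lib.ChevOdd.RootAct

open Cfsg.Agent.Lib.BNPair.CoxeterExchange

variable {W X ι : Type*} [Group W]

/-- The action data. -/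
structure Act (σ : W →* Equiv.Perm X) (f : ι → W) (β : ι → X) (neg : X → X) (P : Finset X) : Prop where
  sq : ∀ i, f i * f i = 1
  gen : ∀ w : W, ∃ l, pr f l = w
  neg_neg : ∀ x, neg (neg x) = x
  σ_neg : ∀ w x, σ w (neg x) = neg (σ w x)
  disj : ∀ x ∈ P, neg x ∉ P
  β_mem : ∀ i, β i ∈ P
  f_β : ∀ i, σ (f i) (β i) = neg (β i)
  f_pos : ∀ i, ∀ x ∈ P, x ≠ β i → σ (f i) x ∈ P
  conj : ∀ (y : W) (i j : ι), σ y (β i) = β j → y * f i * y⁻¹ = f j

open Classical in
/-- The number of positive elements made negative. -/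
noncomputable def len (σ : W →* Equiv.Perm X) (P : Finset X) (w : W) : ℕ :=
  (P.filter fun x => σ w x ∉ P).card

section

variable {σ : W →* Equiv.Perm X} {f : ι → W} {β : ι → X} {neg : X → X} {P : Finset X}
  (hA : Act σ f β neg P)
include hA

theorem sym_mem (w : W) (x : X) (h : x ∈ P ∨ neg x ∈ P) : σ w x ∈ P ∨ neg (σ w x) ∈ P := by
  obtain ⟨l, rfl⟩ := hA.gen w
  induction l with
  | nil => simpa using h
  | cons a l ih =>
    rw [pr_cons, map_mul, Equiv.Perm.mul_apply]
    set y := σ (pr f l) x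
    have hfy : neg (σ (f a) y) = σ (f a) (neg y) := (hA.σ_neg _ _).symm
    rw [hfy]
    rcases ih with h1 | h1
    · by_cases h2 : y = β a
      · right
        rw [h2, hA.σ_neg, hA.f_β, hA.neg_neg]
        exact hA.β_mem a
      · left
        exact hA.f_pos a y h1 h2
    · by_cases h2 : neg y = β a
      · left
        have h3 : y = neg (β a) := by rw [← h2, hA.neg_neg]
        rw [h3, hA.σ_neg, hA.f_β, hA.neg_neg]
        exact hA.β_mem a
      · right
        exact hA.f_pos a _ h1 h2

theorem neg_mem_of_not_mem (w : W) {x : X} (hx : x ∈ P) (h : σ w x ∉ P) : neg (σ w x) ∈ P :=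
  (sym_mem hA w x (Or.inl hx)).resolve_left h

theorem f_f (i : ι) (x : X) : σ (f i) (σ (f i) x) = x := by
  rw [← Equiv.Perm.mul_apply, ← map_mul, hA.sq]
  simp

theorem f_pos_ne (i : ι) {x : X} (hx : x ∈ P) : σ (f i) x ≠ β i := by
  intro h
  have h1 := f_f hA i x
  rw [h, hA.f_β] at h1
  rw [← h1] at hx
  exact hA.disj _ (hA.β_mem i) hx

open Classical in
/-- The count away from `β i`. -/
theorem card_erase_eq (w : W) (i : ι) :
    ((P.erase (β i)).filter fun x => σ (w * f i) x ∉ P).card =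
      ((P.erase (β i)).filter fun x => σ w x ∉ P).card := by
  apply Finset.card_bij (fun x _ => σ (f i) x)
  · intro x hx
    simp only [Finset.mem_filter, Finset.mem_erase] at hx ⊢
    refine ⟨⟨f_pos_ne hA i hx.1.2, hA.f_pos i x hx.1.2 hx.1.1⟩, ?_⟩
    simpa [map_mul] using hx.2
  · intro x _ y _ h
    exact (σ (f i)).injective h
  · intro y hy
    simp only [Finset.mem_filter, Finset.mem_erase] at hy
    refine ⟨σ (f i) y, ?_, f_f hA i y⟩
    simp only [Finset.mem_filter, Finset.mem_erase]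
    refine ⟨⟨f_pos_ne hA i hy.1.2, hA.f_pos i y hy.1.2 hy.1.1⟩, ?_⟩
    simpa [map_mul, f_f hA i y] using hy.2

open Classical in
theorem len_split (w : W) (i : ι) :
    len σ P w = ((P.erase (β i)).filter fun x => σ w x ∉ P).card + (if σ w (β i) ∉ P then 1 else 0) := by
  have h1 : (P.filter fun x => σ w x ∉ P) =
      (insert (β i) (P.erase (β i))).filter fun x => σ w x ∉ P := by
    rw [Finset.insert_erase (hA.β_mem i)]
  rw [len, h1, Finset.filter_insert]
  split_ifs with h2
  · simp
  · rw [Finset.card_insert_of_notMem]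
    simp

theorem len_mul_of_pos (w : W) (i : ι) (h : σ w (β i) ∈ P) : len σ P (w * f i) = len σ P w + 1 := by
  classical
  rw [len_split hA (w * f i) i, len_split hA w i, card_erase_eq hA, if_neg (not_not.2 h), if_pos]
  rw [map_mul, Equiv.Perm.mul_apply, hA.f_β, hA.σ_neg]
  exact hA.disj _ h

theorem len_mul_of_neg (w : W) (i : ι) (h : σ w (β i) ∉ P) : len σ P (w * f i) + 1 = len σ P w := by
  classical
  rw [len_split hA (w * f i) i, len_split hA w i, card_erase_eq hA, if_pos h, if_neg]
  rw [map_mul, Equiv.Perm.mul_apply, hA.f_β, hA.σ_neg, not_not]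
  exact neg_mem_of_not_mem hA w (hA.β_mem i) h

theorem len_inv (w : W) : len σ P w⁻¹ = len σ P w := by
  classical
  apply Finset.card_bij (fun x _ => neg (σ w⁻¹ x))
  · intro x hx
    simp only [Finset.mem_filter] at hx ⊢
    refine ⟨neg_mem_of_not_mem hA w⁻¹ hx.1 hx.2, ?_⟩
    rw [hA.σ_neg, ← Equiv.Perm.mul_apply, ← map_mul, mul_inv_cancel]
    simpa using hA.disj x hx.1
  · intro x _ y _ h
    have h1 : neg (neg (σ w⁻¹ x)) = neg (neg (σ w⁻¹ y)) := by rw [h]
    rw [hA.neg_neg, hA.neg_neg] at h1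
    exact (σ w⁻¹).injective h1
  · intro y hy
    simp only [Finset.mem_filter] at hy
    refine ⟨neg (σ w y), ?_, ?_⟩
    · simp only [Finset.mem_filter]
      refine ⟨neg_mem_of_not_mem hA w hy.1 hy.2, ?_⟩
      rw [hA.σ_neg, ← Equiv.Perm.mul_apply, ← map_mul, inv_mul_cancel]
      simpa using hA.disj y hy.1
    · rw [hA.σ_neg, ← Equiv.Perm.mul_apply, ← map_mul, inv_mul_cancel, hA.neg_neg]
      simp

theorem f_inv (i : ι) : (f i)⁻¹ = f i := inv_eq_of_mul_eq_one_left (hA.sq i)

theorem len_f_mul (w : W) (i : ι) :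
    (σ w⁻¹ (β i) ∈ P ∧ len σ P (f i * w) = len σ P w + 1) ∨
      (σ w⁻¹ (β i) ∉ P ∧ len σ P (f i * w) + 1 = len σ P w) := by
  have e : len σ P (f i * w) = len σ P (w⁻¹ * f i) := by
    rw [← len_inv hA (f i * w), mul_inv_rev, f_inv hA]
  have e2 : len σ P w⁻¹ = len σ P w := len_inv hA w
  by_cases h : σ w⁻¹ (β i) ∈ P
  · left
    refine ⟨h, ?_⟩
    rw [e, len_mul_of_pos hA _ _ h, e2]
  · right
    refine ⟨h, ?_⟩
    rw [e, len_mul_of_neg hA _ _ h, e2]

omit hA in
theorem len_one : len σ P (1 : W) = 0 := by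
  classical
  rw [len]
  simp

/-- The scan along a word. -/
theorem scan (i : ι) : ∀ (l : List ι) (y : W), σ y⁻¹ (β i) ∈ P → σ (y * pr f l)⁻¹ (β i) ∉ P →
    ∃ l₁ j l₂, l = l₁ ++ j :: l₂ ∧ σ (y * pr f l₁)⁻¹ (β i) = β j := by
  intro l
  induction l with
  | nil =>
    intro y h1 h2
    rw [pr_nil, mul_one] at h2
    exact absurd h1 h2
  | cons a l ih =>
    intro y h1 h2
    by_cases h3 : σ (y * f a)⁻¹ (β i) ∈ P
    · obtain ⟨l₁, j, l₂, e1, e2⟩ := ih (y * f a) h3 (by rw [pr_cons, ← mul_assoc] at h2; exact h2)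
      refine ⟨a :: l₁, j, l₂, by rw [e1]; rfl, ?_⟩
      rw [pr_cons, ← mul_assoc]
      exact e2
    · refine ⟨[], a, l, rfl, ?_⟩
      simp only [pr_nil, mul_one]
      by_contra h4
      apply h3
      rw [mul_inv_rev, f_inv hA, map_mul, Equiv.Perm.mul_apply]
      exact hA.f_pos a _ h1 h4

theorem setup : Setup f (len σ P) := by
  have hle : ∀ l, len σ P (pr f l) ≤ l.length := by
    intro l
    induction l with
    | nil => simp [len_one]
    | cons a l ih =>
      rw [pr_cons, List.length_cons]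
      rcases len_f_mul hA (pr f l) a with h | h
      · omega
      · omega
  have hexch : ∀ i l, len σ P (f i * pr f l) < len σ P (pr f l) →
      ∃ l₁ j l₂, l = l₁ ++ j :: l₂ ∧ f i * pr f l₁ = pr f l₁ * f j := by
    intro i l h
    have h1 : σ (pr f l)⁻¹ (β i) ∉ P := by
      rcases len_f_mul hA (pr f l) i with h2 | h2
      · omega
      · exact h2.1
    obtain ⟨l₁, j, l₂, e1, e2⟩ := scan hA i l 1 (by simpa using hA.β_mem i) (by simpa using h1)
    refine ⟨l₁, j, l₂, e1, ?_⟩
    rw [one_mul] at e2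
    have h3 := hA.conj _ _ _ e2
    rw [inv_inv] at h3
    rw [← h3]
    group
  have hred : ∀ l : List ι, ∃ l', pr f l' = pr f l ∧ l'.length = len σ P (pr f l) := by
    intro l
    induction l with
    | nil => exact ⟨[], rfl, by simp [len_one]⟩
    | cons i l ih =>
      obtain ⟨l', hpr, hlen⟩ := ih
      rcases len_f_mul hA (pr f l) i with h | h
      · refine ⟨i :: l', ?_, ?_⟩
        · rw [pr_cons, pr_cons, hpr]
        · rw [pr_cons, h.2, List.length_cons, hlen]
      · have h1 : len σ P (f i * pr f l') < len σ P (pr f l') := by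
          rw [hpr]
          omega
        obtain ⟨l₁, j, l₂, rfl, e⟩ := hexch i l' h1
        have e2 : f i * pr f (l₁ ++ j :: l₂) = pr f (l₁ ++ l₂) := by
          rw [pr_append, pr_cons, pr_append, ← mul_assoc, e, mul_assoc, ← mul_assoc (f j),
            hA.sq, one_mul]
        refine ⟨l₁ ++ l₂, ?_, ?_⟩
        · rw [pr_cons, ← hpr, e2]
        · have h3 := h.2
          rw [← hpr, e2] at h3
          rw [← hpr] at hlen
          rw [pr_cons, ← hpr, e2]
          simp only [List.length_append, List.length_cons] at hlen ⊢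
          omega
  refine ⟨hA.sq, hle, ?_, ?_, ?_⟩
  · intro w
    obtain ⟨l, rfl⟩ := hA.gen w
    exact hred l
  · intro i w
    rcases len_f_mul hA w i with h | h <;> omega
  · intro i l h1 h2
    exact hexch i l (by omega)

theorem hK (i : ι) (w : W) (h : len σ P (f i * w) < len σ P w) :
    (σ w)⁻¹ (β i) ∉ {x | neg x ∉ P} := by
  have h1 : σ w⁻¹ (β i) ∉ P := by
    rcases len_f_mul hA w i with h2 | h2
    · omega
    · exact h2.1
  have h2 := neg_mem_of_not_mem hA w⁻¹ (hA.β_mem i) h1
  rw [map_inv] at h2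
  simpa using h2

end

end Cfsg.Agent.Lib.ChevOdd.RootAct
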