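import Cfsg.Agent.Lib.ChevOdd.CentCard
import Cfsg.Agent.Lib.ChevOdd.RootAct
import Cfsg.Agent.Lib.ChevOrder.Chain

/-!
Elements of order two of the torus, coded by natural numbers; the action of the Weyl group on them; the
reflection subgroup fixing one of them and its Poincare sum, from tables.
-/

set_option autoImplicit false
set_option linter.unusedSectionVars false

namespace Cfsg.Agent.Lib.ChevOdd.OddCert

open Cfsg.Lie Cfsg.Agent.Lib.ChevBN.Elem Cfsg.Agent.Lib.ChevBN.Entries Cfsg.Agent.Lib.ChevBN.Table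
open Cfsg.Agent.Lib.ChevBN.Collect Cfsg.Agent.Lib.ChevBN.Rel Cfsg.Agent.Lib.ChevBN.Torus
open Cfsg.Agent.Lib.ChevBN.Monomial Cfsg.Agent.Lib.ChevBN.Core Cfsg.Agent.Lib.ChevBN.Pair
open Cfsg.Agent.Lib.ChevBN.Stmts Cfsg.Agent.Lib.ChevBN.BruhatForm Cfsg.Agent.Lib.ChevBN.Opp
open Cfsg.Agent.Lib.ChevBN.ConjH Cfsg.Agent.Lib.ChevBN.Fix Cfsg.Agent.Lib.ChevBN.RootCent
open Cfsg.Agent.Lib.ChevOrder.Chev Cfsg.Agent.Lib.ChevOrder.BNCount Cfsg.Agent.Lib.ChevOrder.Cox
open Cfsg.Agent.Lib.ChevOrder.Level Cfsg.Agent.Lib.ChevOrder.Chain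
open Cfsg.Agent.Lib.BNPair.CoxeterExchange
open Cfsg.Agent.Lib.BNPair.Basic Cfsg.Agent.Lib.BNPair.Parabolic
open Cfsg.Agent.Lib.ChevOdd.Kappa Cfsg.Agent.Lib.ChevOdd.Invol Cfsg.Agent.Lib.ChevOdd.Cayley
open Cfsg.Agent.Lib.ChevOdd.GoodRoot Cfsg.Agent.Lib.ChevOdd.CentCard
open Cfsg.Agent.Lib.ChevOdd.RootAct (Act len)

/-! ### Codes -/

/-- The bit vector of a code. -/
def vE (e j : ℕ) : ℤ := if e.testBit j then 1 else 0

/-- Whether the element with code `e` negates the root `s`. -/
def parB (D : ChevalleyDatum) (e s : ℕ) : Bool := Ad D (vE e) s % 2 != 0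

/-- The action of the reflection `q` on codes. -/
def act (D : ChevalleyDatum) (q e : ℕ) : ℕ := if parB D e (D.simple q) then e ^^^ (2 ^ q) else e

/-- The parameters of the element with code `e`. -/
def cE (F : Type*) [Field F] (e j : ℕ) : F := if e.testBit j then -1 else 1

section Chi

variable {D : ChevalleyDatum} {F : Type*} [Field F]

theorem cE_ne (e j : ℕ) : cE F e j ≠ 0 := by
  unfold cE
  split_ifs <;> simp

theorem neg_one_zpow_sum (S : Finset ℕ) (f : ℕ → ℤ) :
    (-1 : F) ^ (∑ j ∈ S, f j) = ∏ j ∈ S, (-1 : F) ^ f j := by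
  induction S using Finset.induction_on with
  | empty => simp
  | insert a S ha ih =>
    rw [Finset.sum_insert ha, Finset.prod_insert ha, zpow_add₀ (by simp), ih]

theorem chi_cE (e s : ℕ) : chi D (cE F e) s = (-1 : F) ^ (Ad D (vE e) s) := by
  rw [chi_eq_prod, Ad_eq_sum, neg_one_zpow_sum]
  apply Finset.prod_congr rfl
  intro j _
  unfold cE vE
  split_ifs <;> simp

theorem inv_neg_one_zpow (c : ℤ) : ((-1 : F) ^ c)⁻¹ = (-1 : F) ^ c := by
  rcases Int.even_or_odd c with h | h
  · rw [h.neg_one_zpow]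
    simp
  · rw [h.neg_one_zpow]
    simp

theorem neg_one_zpow_eq (n : ℤ) : (-1 : F) ^ n = if n % 2 != 0 then -1 else 1 := by
  rcases Int.emod_two_eq_zero_or_one n with h | h
  · have h1 : Even n := Int.even_iff.2 h
    rw [h1.neg_one_zpow]
    simp [h]
  · have h1 : Odd n := Int.odd_iff.2 h
    rw [h1.neg_one_zpow]
    simp [h]

theorem chi_cE_par (e s : ℕ) : chi D (cE F e) s = if parB D e s then -1 else 1 := by
  rw [chi_cE, neg_one_zpow_eq, parB]

theorem chi_eq_one_iff (h2 : (2 : F) ≠ 0) (e s : ℕ) : chi D (cE F e) s = 1 ↔ parB D e s = false := by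
  have hne : (-1 : F) ≠ 1 := by
    intro h
    apply h2
    linear_combination -h
  rw [chi_cE_par]
  cases parB D e s <;> simp [hne]

theorem chi_sign (e s : ℕ) : chi D (cE F e) s = 1 ∨ chi D (cE F e) s = -1 := by
  rw [chi_cE_par]
  cases parB D e s <;> simp

theorem vE_xor (e q j : ℕ) : vE (e ^^^ (2 ^ q)) j = vE e j + (if j = q then 1 - 2 * vE e q else 0) := by
  unfold vE
  rw [Nat.testBit_xor, Nat.testBit_two_pow]
  by_cases h : j = q
  · subst h
    cases e.testBit j <;> simp
  · have h' : ¬ q = j := fun e => h e.symm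
    simp [h, h']

theorem Ad_xor {e q s : ℕ} (hq : q < D.rank) :
    Ad D (vE (e ^^^ (2 ^ q))) s = Ad D (vE e) s + (1 - 2 * vE e q) * D.cartan q s := by
  rw [Ad_eq_sum, Ad_eq_sum]
  have h1 : ∀ j ∈ Finset.range D.rank, vE (e ^^^ (2 ^ q)) j * D.cartan j s =
      vE e j * D.cartan j s + (if j = q then (1 - 2 * vE e q) * D.cartan q s else 0) := by
    intro j _
    rw [vE_xor]
    split_ifs with h
    · subst h
      ring
    · ring
  rw [Finset.sum_congr rfl h1, Finset.sum_add_distrib, Finset.sum_ite_eq',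
    if_pos (Finset.mem_range.2 hq)]

theorem chi_act (hT : Tbl D) {q s : ℕ} (e : ℕ) (hq : q < D.rank) (hs : s < D.nroots) :
    chi D (cE F e) (D.reflectRoot q s) = chi D (cE F (act D q e)) s := by
  rw [Kappa.chi_w hT (fun j _ => cE_ne e j) hq hs, chi_cE_par e (D.simple q)]
  unfold act
  split_ifs with h
  · rw [chi_cE e s, chi_cE (e ^^^ (2 ^ q)) s, Ad_xor hq]
    rw [zpow_add₀ (by simp)]
    congr 1
    have h3 : vE e q = 0 ∨ vE e q = 1 := by
      unfold vE
      split_ifs <;> simp
    rcases h3 with h3 | h3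
    · rw [h3, zpow_neg, inv_neg_one_zpow]
      simp
    · rw [h3, zpow_neg, inv_neg_one_zpow]
      have e1 : (1 - 2 * (1 : ℤ)) * D.cartan q s = - D.cartan q s := by ring
      rw [e1, zpow_neg, inv_neg_one_zpow]
  · simp

end Chi

/-! ### Words -/

/-- A generator: a word and a fundamental index. -/
abbrev Gen := List ℕ × ℕ

/-- The word of the reflection in a root. -/
def gw (g : Gen) : List ℕ := g.1 ++ g.2 :: g.1.reverse

/-- The action of a word on a root. -/
def wordAct (D : ChevalleyDatum) (l : List ℕ) (r : ℕ) : ℕ := l.foldr D.reflectRoot r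

/-- The root of a generator. -/
def beta (D : ChevalleyDatum) (g : Gen) : ℕ := wordAct D g.1 (D.simple g.2)

/-- The positive roots centralised by the element with code `e`. -/
def posOf (D : ChevalleyDatum) (e : ℕ) : List ℕ := D.posRoots.filter fun r => !parB D e r

/-- The action of a word on codes. -/
def actW (D : ChevalleyDatum) (e : ℕ) (l : List ℕ) : ℕ := l.foldl (fun e q => act D q e) e

/-- The action of a word on coefficient vectors. -/
def reflW (D : ChevalleyDatum) (a : List ℤ) (l : List ℕ) : List ℤ := l.foldl (fun a q => refl D q a) a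

/-- The table facts on the generators of the reflection subgroup. -/
structure GenCert (D : ChevalleyDatum) (e₀ : ℕ) (gens : List Gen) : Prop where
  lt : ∀ g ∈ gens, (∀ i ∈ g.1, i < D.rank) ∧ g.2 < D.rank
  fix : ∀ g ∈ gens, actW D e₀ (gw g) = e₀
  beta_mem : ∀ g ∈ gens, beta D g ∈ posOf D e₀
  f_pos : ∀ g ∈ gens, ∀ x ∈ posOf D e₀, x ≠ beta D g → wordAct D (gw g) x ∈ posOf D e₀

variable {D : ChevalleyDatum} {F : Type*} [Field F] {η : ℕ → ℕ → ℤ}

variable (hR : Sys D F η) (hT : Tbl D)

local notation "σ'" => σW hR hT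

/-- The reflection with a natural number index. -/
noncomputable def fN (i : ℕ) : WW (pair hR hT) :=
  if h : i < D.rank then fW hR hT ⟨i, h⟩ else 1

include hR hT

theorem fN_sq (i : ℕ) : fN hR hT i * fN hR hT i = 1 := by
  unfold fN
  split_ifs with h
  · exact sq_f hR hT _
  · simp

theorem fN_inv (i : ℕ) : (fN hR hT i)⁻¹ = fN hR hT i := inv_eq_of_mul_eq_one_left (fN_sq hR hT i)

theorem prN_reverse (l : List ℕ) : pr (fN hR hT) l.reverse = (pr (fN hR hT) l)⁻¹ := by
  induction l with
  | nil => simp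
  | cons a l ih =>
    rw [List.reverse_cons, pr_append, pr_cons (fN hR hT) a l, mul_inv_rev, fN_inv, ih, pr_singleton]

theorem prN_gw (g : Gen) :
    pr (fN hR hT) (gw g) = pr (fN hR hT) g.1 * fN hR hT g.2 * (pr (fN hR hT) g.1)⁻¹ := by
  rw [gw, pr_append, pr_cons, prN_reverse]
  group

theorem prN_gw_sq (g : Gen) : pr (fN hR hT) (gw g) * pr (fN hR hT) (gw g) = 1 := by
  rw [prN_gw]
  calc pr (fN hR hT) g.1 * fN hR hT g.2 * (pr (fN hR hT) g.1)⁻¹ *
        (pr (fN hR hT) g.1 * fN hR hT g.2 * (pr (fN hR hT) g.1)⁻¹) =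
      pr (fN hR hT) g.1 * (fN hR hT g.2 * fN hR hT g.2) * (pr (fN hR hT) g.1)⁻¹ := by group
    _ = 1 := by rw [fN_sq]; group

theorem sigma_fN {q : ℕ} (hq : q < D.rank) (s : Fin D.nroots) :
    ((σ' (fN hR hT q) s : Fin D.nroots) : ℕ) = D.reflectRoot q s := by
  simp only [fN, dif_pos hq, σW_fW, Tbl.wPerm_val]

theorem sigma_prN {l : List ℕ} (hl : ∀ i ∈ l, i < D.rank) (s : Fin D.nroots) :
    ((σ' (pr (fN hR hT) l) s : Fin D.nroots) : ℕ) = wordAct D l s := by
  induction l with
  | nil => simp [wordAct]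
  | cons a l ih =>
    have h1 := ih fun i hi => hl i (List.mem_cons_of_mem _ hi)
    rw [pr_cons, map_mul, Equiv.Perm.mul_apply, sigma_fN hR hT (hl a (by simp)), h1]
    rfl

theorem chi_prN {l : List ℕ} (hl : ∀ i ∈ l, i < D.rank) (e : ℕ) (s : Fin D.nroots) :
    chi D (cE F e) (σ' (pr (fN hR hT) l) s) = chi D (cE F (actW D e l)) s := by
  induction l generalizing e with
  | nil => simp [actW]
  | cons a l ih =>
    have ha : a < D.rank := hl a (by simp)
    rw [pr_cons, map_mul, Equiv.Perm.mul_apply, sigma_fN hR hT ha, chi_act hT e ha (Fin.isLt _),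
      ih (fun i hi => hl i (List.mem_cons_of_mem _ hi))]
    rfl

theorem func_prN {l : List ℕ} (hl : ∀ i ∈ l, i < D.rank) (a : List ℤ) (s : Fin D.nroots) :
    func D a (σ' (pr (fN hR hT) l) s) = func D (reflW D a l) s := by
  induction l generalizing a with
  | nil => simp [reflW]
  | cons q l ih =>
    have hq : q < D.rank := hl q (by simp)
    rw [pr_cons, map_mul, Equiv.Perm.mul_apply]
    have e1 : σ' (fN hR hT q) = Tbl.wPerm hT hq := by
      simp only [fN, dif_pos hq, σW_fW]
    rw [e1, func_wPerm hT hq, ih (fun i hi => hl i (List.mem_cons_of_mem _ hi))]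
    rfl

/-- The root of a generator, with its bound. -/
noncomputable def bF (g : Gen) (hg : g.2 < D.rank) : Fin D.nroots :=
  σ' (pr (fN hR hT) g.1) (alphaR hT ⟨g.2, hg⟩)

theorem bF_val (g : Gen) (hg : g.2 < D.rank) (hl : ∀ i ∈ g.1, i < D.rank) :
    (bF hR hT g hg : ℕ) = beta D g := by
  rw [bF, sigma_prN hR hT hl]
  rfl

theorem fN_eq (hq : Fin D.rank) : fN hR hT hq = rf hR hT (alphaR hT hq) := by
  rw [fN, dif_pos hq.2]
  rfl

theorem prN_gw_rf (g : Gen) (hg : g.2 < D.rank) :
    pr (fN hR hT) (gw g) = rf hR hT (bF hR hT g hg) := by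
  rw [prN_gw, bF, ← rf_conj]
  congr 2
  exact fN_eq hR hT ⟨g.2, hg⟩

theorem sigma_gw_beta (g : Gen) (hg : g.2 < D.rank) :
    σ' (pr (fN hR hT) (gw g)) (bF hR hT g hg) = negF hT (bF hR hT g hg) := by
  rw [prN_gw, bF, map_mul, map_mul, map_inv, Equiv.Perm.mul_apply, Equiv.Perm.mul_apply]
  have e1 : (σ' (pr (fN hR hT) g.1))⁻¹ (σ' (pr (fN hR hT) g.1) (alphaR hT ⟨g.2, hg⟩)) =
      alphaR hT ⟨g.2, hg⟩ := by simp
  rw [e1, ← σW_neg]
  congr 1
  rw [fN, dif_pos hg]
  exact sigma_f_alpha hR hT ⟨g.2, hg⟩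

/-! ### The reflection subgroup -/

/-- The generators. -/
noncomputable def rW (hR : Sys D F η) (hT : Tbl D) (gens : List Gen) (i : Fin gens.length) :
    WW (pair hR hT) := pr (fN hR hT) (gw gens[i])

/-- The reflection subgroup. -/
noncomputable def W₁ (hR : Sys D F η) (hT : Tbl D) (gens : List Gen) : Subgroup (WW (pair hR hT)) :=
  Subgroup.closure (Set.range (rW hR hT gens))

/-- The action of the reflection subgroup. -/
noncomputable def σ₁ (hR : Sys D F η) (hT : Tbl D) (gens : List Gen) :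
    ↥(W₁ hR hT gens) →* Equiv.Perm (Fin D.nroots) :=
  (σW hR hT).comp (W₁ hR hT gens).subtype

/-- The generators in the subgroup. -/
noncomputable def f₁ (hR : Sys D F η) (hT : Tbl D) (gens : List Gen) (i : Fin gens.length) :
    ↥(W₁ hR hT gens) := ⟨rW hR hT gens i, Subgroup.subset_closure ⟨i, rfl⟩⟩

/-- The simple roots. -/
noncomputable def β₁ {e₀ : ℕ} {gens : List Gen} (hR : Sys D F η) (hT : Tbl D) (hG : GenCert D e₀ gens)
    (i : Fin gens.length) : Fin D.nroots :=
  bF hR hT gens[i] (hG.lt _ (List.getElem_mem _)).2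

open Classical in
/-- The positive system. -/
noncomputable def P₁ (D : ChevalleyDatum) (e₀ : ℕ) : Finset (Fin D.nroots) :=
  Finset.univ.filter fun x => (x : ℕ) ∈ posOf D e₀

omit hR hT in
theorem mem_posOf {e r : ℕ} : r ∈ posOf D e ↔ D.IsPosRoot r ∧ parB D e r = false := by
  simp [posOf, Cfsg.Agent.Lib.ChevBN.Stmts.mem_posRoots]

omit hR hT in
theorem mem_P₁ {e₀ : ℕ} {x : Fin D.nroots} : x ∈ P₁ D e₀ ↔ (x : ℕ) ∈ posOf D e₀ := by
  simp [P₁]

theorem coe_pr_f₁ (gens : List Gen) (l : List (Fin gens.length)) :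
    ((pr (f₁ hR hT gens) l : ↥(W₁ hR hT gens)) : WW (pair hR hT)) = pr (rW hR hT gens) l := by
  induction l with
  | nil => rfl
  | cons a l ih =>
    rw [pr_cons, pr_cons, Subgroup.coe_mul, ih]
    rfl

theorem rW_reverse (gens : List Gen) (l : List (Fin gens.length)) :
    pr (rW hR hT gens) l.reverse = (pr (rW hR hT gens) l)⁻¹ := by
  induction l with
  | nil => simp
  | cons a l ih =>
    rw [List.reverse_cons, pr_append, pr_cons (rW hR hT gens) a l, mul_inv_rev, ih, pr_singleton]
    congr 1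
    exact (inv_eq_of_mul_eq_one_left (prN_gw_sq hR hT _)).symm

theorem exists_word₁ (gens : List Gen) {w : WW (pair hR hT)} (hw : w ∈ W₁ hR hT gens) :
    ∃ l, pr (rW hR hT gens) l = w := by
  induction hw using Subgroup.closure_induction with
  | mem x hx =>
    obtain ⟨i, rfl⟩ := hx
    exact ⟨[i], pr_singleton _ i⟩
  | one => exact ⟨[], rfl⟩
  | mul x y _ _ hx hy =>
    obtain ⟨l, rfl⟩ := hx
    obtain ⟨l', rfl⟩ := hy
    exact ⟨l ++ l', pr_append _ l l'⟩
  | inv x _ hx =>
    obtain ⟨l, rfl⟩ := hx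
    exact ⟨l.reverse, rW_reverse hR hT gens l⟩

section Cert

variable {e₀ : ℕ} {gens : List Gen} (hG : GenCert D e₀ gens)
include hG

omit hR hT in
theorem gen_lt (i : Fin gens.length) (k : ℕ) (hk : k ∈ gw gens[i]) : k < D.rank := by
  have h := hG.lt _ (List.getElem_mem i.2)
  simp only [gw, List.mem_append, List.mem_cons, List.mem_reverse] at hk
  rcases hk with h1 | h1 | h1
  · exact h.1 k h1
  · rw [h1]
    exact h.2
  · exact h.1 k h1

theorem β₁_val (i : Fin gens.length) : (β₁ hR hT hG i : ℕ) = beta D gens[i] :=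
  bF_val hR hT _ _ (hG.lt _ (List.getElem_mem i.2)).1

theorem act₁ : Act (σ₁ hR hT gens) (f₁ hR hT gens) (β₁ hR hT hG) (negF hT) (P₁ D e₀) := by
  constructor
  · intro i
    exact Subtype.ext (prN_gw_sq hR hT _)
  · rintro ⟨w, hw⟩
    obtain ⟨l, rfl⟩ := exists_word₁ hR hT gens hw
    refine ⟨l, Subtype.ext ?_⟩
    exact coe_pr_f₁ hR hT gens l
  · exact neg_neg_F hR hT
  · intro w x
    exact σW_neg hR hT _ x
  · intro x hx hx2
    rw [mem_P₁, mem_posOf] at hx hx2
    exact hT.not_pos_of_neg (hT.neg_of_pos hx.1) hx2.1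
  · intro i
    rw [mem_P₁, β₁_val]
    exact hG.beta_mem _ (List.getElem_mem i.2)
  · intro i
    exact sigma_gw_beta hR hT _ _
  · intro i x hx hne
    rw [mem_P₁] at hx ⊢
    have h1 : ((σ₁ hR hT gens (f₁ hR hT gens i) x : Fin D.nroots) : ℕ) = wordAct D (gw gens[i]) x :=
      sigma_prN hR hT (gen_lt hG i) x
    rw [h1]
    refine hG.f_pos _ (List.getElem_mem i.2) _ hx ?_
    intro h
    apply hne
    apply Fin.ext
    rw [β₁_val]
    exact h
  · intro y i j h
    apply Subtype.ext
    show y.1 * rW hR hT gens i * (y.1)⁻¹ = rW hR hT gens j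
    have h1 : rW hR hT gens i = rf hR hT (β₁ hR hT hG i) := prN_gw_rf hR hT _ _
    have h2 : rW hR hT gens j = rf hR hT (β₁ hR hT hG j) := prN_gw_rf hR hT _ _
    rw [h1, h2, rf_conj]
    congr 1

end Cert

/-! ### Levels -/

/-- The action on coefficient vectors of the `i`-th generator. -/
def Tg (D : ChevalleyDatum) (gens : List Gen) (i : ℕ) (a : List ℤ) : List ℤ :=
  reflW D a (gw (gens.getD i ([], 0)))

/-- The list form of the functional. -/
def funcL (D : ChevalleyDatum) (a : List ℤ) (r : ℕ) : ℤ :=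
  ((List.range D.rank).map fun j => a.getD j 0 * cr D r j).sum

omit hR hT in
theorem funcL_eq (a : List ℤ) (r : Fin D.nroots) : funcL D a r = func D a r := by
  rw [funcL, func]
  induction D.rank with
  | zero => simp
  | succ n ih => rw [List.range_succ, List.map_append, List.sum_append, ih, Finset.sum_range_succ]; simp

/-- Closure and the Lipschitz condition. -/
def stepOk1 (D : ChevalleyDatum) (gens : List Gen) (js : List ℕ) (tbl : List (List ℤ × ℕ))
    (e : List ℤ × ℕ) : Bool :=
  decide (e.1.length = D.rank) &&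
    js.all fun i => match lookup tbl (Tg D gens i e.1) with
      | some d' => decide (d' ≤ e.2 + 1)
      | none => false

/-- An entry different from the base vector has a neighbour closer to the base vector. -/
def descOk1 (D : ChevalleyDatum) (gens : List Gen) (js : List ℕ) (tbl : List (List ℤ × ℕ)) (v₀ : List ℤ)
    (e : List ℤ × ℕ) : Bool :=
  decide (e.1 = v₀) ||
    js.any fun i => match lookup tbl (Tg D gens i e.1) with
      | some d' => decide (d' + 1 = e.2)
      | none => false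

/-- The certificate for a level. -/
def checkLevel1 (D : ChevalleyDatum) (e₀ : ℕ) (gens : List Gen) (js : List ℕ) (j : ℕ) (a₀ : List ℤ)
    (tbl : List (List ℤ × ℕ)) : Bool :=
  decide (lookup tbl a₀ = some 0) && decide (tbl.map Prod.fst).Nodup &&
    tbl.all (stepOk1 D gens (j :: js) tbl) && tbl.all (descOk1 D gens (j :: js) tbl a₀) &&
    decide (j < gens.length) && js.all (fun i => decide (i < gens.length)) &&
    (posOf D e₀).all (fun x => decide (0 ≤ funcL D a₀ x)) &&
    decide (0 < funcL D a₀ (beta D (gens.getD j ([], 0)))) &&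
    js.all (fun i => decide (Tg D gens i a₀ = a₀))

/-- The index set of a list. -/
def idxS (m : ℕ) (js : List ℕ) : Set (Fin m) := {i | i.val ∈ js}

section Level

open Classical

variable {e₀ : ℕ} {gens : List Gen} (hG : GenCert D e₀ gens)
variable [Fintype ↥(W₁ hR hT gens)]
include hG

theorem Tg_func (i : Fin gens.length) (a : List ℤ) (r : Fin D.nroots) :
    func D a (σ₁ hR hT gens (f₁ hR hT gens i) r) = func D (Tg D gens i a) r := by
  have h1 : gens.getD i.val ([], 0) = gens[i] := List.getD_eq_getElem _ _ i.2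
  rw [Tg, h1]
  exact func_prN hR hT (gen_lt hG i) a r

theorem psum_level1 {js : List ℕ} {j : ℕ} (hjn : j ∉ js) {a₀ : List ℤ} {tbl : List (List ℤ × ℕ)}
    (hc : checkLevel1 D e₀ gens js j a₀ tbl = true) (q : ℕ) :
    psum (f₁ hR hT gens) (len (σ₁ hR hT gens) (P₁ D e₀)) q (idxS gens.length (j :: js)) =
      (tbl.map fun e => q ^ e.2).sum *
        psum (f₁ hR hT gens) (len (σ₁ hR hT gens) (P₁ D e₀)) q (idxS gens.length js) := by
  simp only [checkLevel1, Bool.and_eq_true, decide_eq_true_eq, List.all_eq_true] at hc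
  obtain ⟨⟨⟨⟨⟨⟨⟨⟨hb, hnd⟩, hstep⟩, hdesc⟩, hj⟩, hjs⟩, hpos⟩, hbj⟩, hfixT⟩ := hc
  have hA := act₁ hR hT hG
  have hlen : ∀ e ∈ tbl, e.1.length = D.rank := by
    intro e he
    have := hstep e he
    simp only [stepOk1, Bool.and_eq_true, decide_eq_true_eq] at this
    exact this.1
  have hlt : ∀ i ∈ j :: js, i < gens.length := by
    intro i hi
    rcases List.mem_cons.1 hi with rfl | h
    · exact hj
    · exact hjs i h
  have heq : ∀ e ∈ tbl, ∀ e' ∈ tbl, func D e.1 = func D e'.1 → e = e' := by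
    intro e he e' he' h
    have h1 := func_inj hT (hlen e he) (hlen e' he') h
    exact List.inj_on_of_nodup_map hnd he he' h1
  -- the distance function
  let dOf : (Fin D.nroots → ℤ) → ℕ := fun x =>
    if h : ∃ e ∈ tbl, func D e.1 = x then h.choose.2 else 0
  have hdOf : ∀ e ∈ tbl, dOf (func D e.1) = e.2 := by
    intro e he
    have h : ∃ e' ∈ tbl, func D e'.1 = func D e.1 := ⟨e, he, rfl⟩
    simp only [dOf, dif_pos h]
    have h1 := h.choose_spec
    rw [heq _ h1.1 e he h1.2]
  let O : Finset (Fin D.nroots → ℤ) := (tbl.map fun e => func D e.1).toFinset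
  have hO : ∀ x ∈ O, ∃ e ∈ tbl, x = func D e.1 := by
    intro x hx
    obtain ⟨e, he, rfl⟩ := List.mem_map.1 (List.mem_toFinset.1 hx)
    exact ⟨e, he, rfl⟩
  have hmemO : ∀ e ∈ tbl, func D e.1 ∈ O := fun e he =>
    List.mem_toFinset.2 (List.mem_map.2 ⟨e, he, rfl⟩)
  have hsum : ∑ x ∈ O, q ^ dOf x = (tbl.map fun e => q ^ e.2).sum := by
    have hnd2 : (tbl.map fun e => func D e.1).Nodup := by
      apply List.Nodup.map_on _ (List.Nodup.of_map _ hnd)
      exact fun e he e' he' h => heq e he e' he' h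
    rw [List.sum_toFinset _ hnd2, List.map_map]
    congr 1
    apply List.map_congr_left
    intro e he
    simp only [Function.comp]
    rw [hdOf e he]
  have hbase := lookup_sound hb
  have hdiff : idxS gens.length (j :: js) \ {(⟨j, hj⟩ : Fin gens.length)} = idxS gens.length js := by
    ext i
    constructor
    · rintro ⟨h1, h2⟩
      have h3 : i.val ∈ j :: js := h1
      rcases List.mem_cons.1 h3 with h4 | h4
      · exact absurd (Fin.ext h4) h2
      · exact h4
    · intro h
      have h' : i.val ∈ js := h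
      refine ⟨List.mem_cons_of_mem _ h', ?_⟩
      intro h5
      rw [Set.mem_singleton_iff] at h5
      rw [h5] at h'
      exact hjn h'
  have hstep' := psum_step (RootAct.setup hA) (σ₁ hR hT gens) (β₁ hR hT hG) {x | negF hT x ∉ P₁ D e₀}
    (RootAct.hK hA)
    (J := idxS gens.length (j :: js)) (j := ⟨j, hj⟩) (func D a₀) ?_ ?_ ?_ O dOf ?_ ?_ ?_ ?_ q
  · rw [hstep', hdiff, hsum]
  · intro r hr
    have h1 : negF hT r ∈ P₁ D e₀ := by
      simpa using hr
    rw [mem_P₁] at h1
    have h2 := hpos _ h1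
    rw [funcL_eq a₀ (negF hT r)] at h2
    have h3 : func D a₀ (negF hT r) = - func D a₀ r := by
      rw [func, func, ← Finset.sum_neg_distrib]
      apply Finset.sum_congr rfl
      intro k hk
      have : cr D (negF hT r : Fin D.nroots) k = - cr D r k :=
        hT.coroot_neg r r.isLt k (Finset.mem_range.mp hk)
      rw [this]
      ring
    omega
  · have h1 := funcL_eq a₀ (β₁ hR hT hG ⟨j, hj⟩)
    rw [β₁_val hR hT hG] at h1
    have h2 : gens.getD j ([], 0) = gens[j] := List.getD_eq_getElem _ _ hj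
    rw [h2] at hbj
    have h3 : gens[(⟨j, hj⟩ : Fin gens.length)] = gens[j] := rfl
    rw [h3] at h1
    rw [← h1]
    exact hbj
  · intro i hi hij r
    have hi' : i.val ∈ j :: js := hi
    have hi2 : i.val ∈ js := by
      rcases List.mem_cons.1 hi' with h | h
      · exact absurd (Fin.ext h) hij
      · exact h
    rw [Tg_func hR hT hG, hfixT _ hi2]
  · exact hmemO _ hbase
  · rw [hdOf _ hbase]
  · intro x hx i hi
    obtain ⟨e, he, rfl⟩ := hO x hx
    have hi' : i.val ∈ j :: js := hi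
    have h1 := hstep e he
    simp only [stepOk1, Bool.and_eq_true, decide_eq_true_eq, List.all_eq_true] at h1
    have h2 := h1.2 i.val hi'
    have hfun : (fun r => func D e.1 ((σ₁ hR hT gens (f₁ hR hT gens i)) r)) =
        func D (Tg D gens i e.1) := by
      funext r
      rw [Tg_func hR hT hG]
    rw [hfun]
    rcases h3 : lookup tbl (Tg D gens i e.1) with _ | d'
    · rw [h3] at h2
      simp at h2
    · rw [h3] at h2
      have h4 : d' ≤ e.2 + 1 := by simpa using h2
      have h5 := lookup_sound h3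
      have h6 : func D (Tg D gens i e.1) ∈ O := hmemO (Tg D gens i e.1, d') h5
      have h7 : dOf (func D (Tg D gens i e.1)) = d' := hdOf (Tg D gens i e.1, d') h5
      refine ⟨h6, ?_⟩
      rw [h7, hdOf e he]
      exact h4
  · intro x hx hne
    obtain ⟨e, he, rfl⟩ := hO x hx
    have h1 := hdesc e he
    simp only [descOk1, Bool.or_eq_true, decide_eq_true_eq, List.any_eq_true] at h1
    rcases h1 with h1 | ⟨i, hi, h1⟩
    · exact absurd (by rw [h1]) hne
    · refine ⟨⟨i, hlt i hi⟩, hi, ?_⟩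
      have hfun : (fun r => func D e.1 ((σ₁ hR hT gens (f₁ hR hT gens ⟨i, hlt i hi⟩)) r)) =
          func D (Tg D gens i e.1) := by
        funext r
        rw [Tg_func hR hT hG]
      rw [hfun]
      rcases h3 : lookup tbl (Tg D gens i e.1) with _ | d'
      · rw [h3] at h1
        simp at h1
      · rw [h3] at h1
        have h4 : d' + 1 = e.2 := by simpa using h1
        have h5 := lookup_sound h3
        have h7 : dOf (func D (Tg D gens i e.1)) = d' := hdOf (Tg D gens i e.1, d') h5
        rw [h7, hdOf e he]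
        exact h4

end Level

end Cfsg.Agent.Lib.ChevOdd.OddCert
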