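import Cfsg.Agent.Lib.ChevOdd.OddSum
import Cfsg.Agent.Lib.ChevOdd.Ext

/-!
The subgroup `N` has odd index, in the whole group and in the centraliser of an element of order two, when
`|F| = 1` modulo `4`.
-/

set_option autoImplicit false
set_option linter.unusedSectionVars false

namespace Cfsg.Agent.Lib.ChevOdd.OddCert

open Cfsg.Lie Cfsg.Agent.Lib.ChevBN.Elem Cfsg.Agent.Lib.ChevBN.Entries Cfsg.Agent.Lib.ChevBN.Table
open Cfsg.Agent.Lib.ChevBN.Collect Cfsg.Agent.Lib.ChevBN.Rel Cfsg.Agent.Lib.ChevBN.Torus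
open Cfsg.Agent.Lib.ChevBN.Monomial Cfsg.Agent.Lib.ChevBN.Core Cfsg.Agent.Lib.ChevBN.Pair
open Cfsg.Agent.Lib.ChevBN.Stmts Cfsg.Agent.Lib.ChevBN.BruhatForm Cfsg.Agent.Lib.ChevBN.Opp
open Cfsg.Agent.Lib.ChevBN.ConjH Cfsg.Agent.Lib.ChevBN.Fix Cfsg.Agent.Lib.ChevBN.RootCent
open Cfsg.Agent.Lib.ChevOrder.Chev Cfsg.Agent.Lib.ChevOrder.BNCount Cfsg.Agent.Lib.ChevOrder.Cox
open Cfsg.Agent.Lib.ChevOrder.Level Cfsg.Agent.Lib.ChevOrder.Chain
open Cfsg.Agent.Lib.BNPair.CoxeterExchange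
open Cfsg.Agent.Lib.BNPair.Basic Cfsg.Agent.Lib.BNPair.Parabolic
open Cfsg.Agent.Lib.ChevOdd.Kappa Cfsg.Agent.Lib.ChevOdd.Invol Cfsg.Agent.Lib.ChevOdd.Cayley
open Cfsg.Agent.Lib.ChevOdd.GoodRoot Cfsg.Agent.Lib.ChevOdd.CentCard

/-! ### `q`-integers modulo odd numbers -/

theorem peval_qint_succ (Q d : ℕ) : peval Q (qint (d + 1)) = 1 + Q * peval Q (qint d) := by
  simp [qint, List.replicate_succ, peval]

theorem peval_qint_zero (Q : ℕ) : peval Q (qint 0) = 0 := by
  simp [qint, peval]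

theorem peval_one_qint (d : ℕ) : peval 1 (qint d) = d := by
  induction d with
  | zero => exact peval_qint_zero 1
  | succ d ih =>
    rw [peval_qint_succ, ih]
    ring

theorem qint_even (Q m : ℕ) : peval Q (qint (2 * m)) = (1 + Q) * peval (Q ^ 2) (qint m) := by
  induction m with
  | zero => simp [peval_qint_zero]
  | succ m ih =>
    have e : 2 * (m + 1) = 2 * m + 1 + 1 := by ring
    rw [e, peval_qint_succ, peval_qint_succ, ih, peval_qint_succ]
    ring

theorem qint_odd (Q m : ℕ) (hQ : Odd Q) : Odd (peval Q (qint (2 * m + 1))) := by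
  rw [peval_qint_succ, qint_even]
  have h1 : Even (1 + Q) := by
    rw [add_comm]
    exact hQ.add_one
  have h2 : Even (Q * ((1 + Q) * peval (Q ^ 2) (qint m))) := ((h1.mul_right _).mul_left _)
  rw [add_comm]
  exact h2.add_one

/-- Equality up to odd factors. -/
def OddRel (a b : ℕ) : Prop := ∃ u v, Odd u ∧ Odd v ∧ u * a = v * b

theorem qint_rel (d : ℕ) : ∀ Q : ℕ, Q % 4 = 1 → OddRel (peval Q (qint d)) d := by
  induction d using Nat.strong_induction_on with
  | _ d ih =>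
    intro Q hQ
    rcases Nat.even_or_odd' d with ⟨m, rfl | rfl⟩
    · by_cases hm : m = 0
      · subst hm
        refine ⟨1, 1, odd_one, odd_one, ?_⟩
        simp [peval_qint_zero]
      · have hQ2 : Q ^ 2 % 4 = 1 := by
          rw [pow_two, Nat.mul_mod, hQ]
        obtain ⟨u, v, hu, hv, e⟩ := ih m (by omega) (Q ^ 2) hQ2
        obtain ⟨k, hk⟩ : ∃ k, 1 + Q = 2 * k := ⟨(1 + Q) / 2, by omega⟩
        have hk' : Odd k := by
          rw [Nat.odd_iff]
          omega
        refine ⟨u, k * v, hu, hk'.mul hv, ?_⟩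
        rw [qint_even, hk]
        calc u * (2 * k * peval (Q ^ 2) (qint m)) = 2 * k * (u * peval (Q ^ 2) (qint m)) := by ring
          _ = _ := by rw [e]; ring
    · refine ⟨2 * m + 1, peval Q (qint (2 * m + 1)), ⟨m, rfl⟩, qint_odd Q m ?_, mul_comm _ _⟩
      rw [Nat.odd_iff]
      omega

theorem OddRel.mul {a b c d : ℕ} (h1 : OddRel a b) (h2 : OddRel c d) : OddRel (a * c) (b * d) := by
  obtain ⟨u, v, hu, hv, e⟩ := h1
  obtain ⟨u', v', hu', hv', e'⟩ := h2
  refine ⟨u * u', v * v', hu.mul hu', hv.mul hv', ?_⟩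
  calc u * u' * (a * c) = (u * a) * (u' * c) := by ring
    _ = _ := by rw [e, e']; ring

theorem degPoly_rel {Q : ℕ} (hQ : Q % 4 = 1) (ds : List ℕ) :
    OddRel (peval Q (degPoly ds)) (peval 1 (degPoly ds)) := by
  induction ds with
  | nil => exact ⟨1, 1, odd_one, odd_one, by simp [degPoly, peval]⟩
  | cons d ds ih =>
    simp only [degPoly, peval_pmul, peval_one_qint]
    exact (qint_rel d Q hQ).mul ih

theorem odd_of_mul {Q N a : ℕ} {ds : List ℕ} (hQ : Q % 4 = 1)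
    (h : a * peval 1 (degPoly ds) = Q ^ N * peval Q (degPoly ds)) (hne : peval 1 (degPoly ds) ≠ 0) :
    Odd a := by
  obtain ⟨u, v, hu, hv, e⟩ := degPoly_rel hQ ds
  have hQo : Odd Q := by
    rw [Nat.odd_iff]
    omega
  have h1 : (u * a) * peval 1 (degPoly ds) = (Q ^ N * v) * peval 1 (degPoly ds) := by
    calc (u * a) * peval 1 (degPoly ds) = u * (a * peval 1 (degPoly ds)) := by ring
      _ = Q ^ N * (u * peval Q (degPoly ds)) := by rw [h]; ring
      _ = _ := by rw [e]; ring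
  have h2 := Nat.eq_of_mul_eq_mul_right (Nat.pos_of_ne_zero hne) h1
  have h3 : Odd (u * a) := by
    rw [h2]
    exact (hQo.pow).mul hv
  exact (Nat.odd_mul.1 h3).2

variable {D : ChevalleyDatum} {F : Type*} [Field F] {η : ℕ → ℕ → ℤ}

variable (hR : Sys D F η) (hT : Tbl D)

local notation "σ'" => σW hR hT

include hR hT

/-- Conjugation of elements of `H` follows the characters. -/
theorem conj_hP {c c' : ℕ → F} (hc : ∀ j < D.rank, c j ≠ 0) (hc' : ∀ j < D.rank, c' j ≠ 0)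
    {n : GL D.Idx F} (hn : n ∈ D.monomialSubgroup F)
    (h : ∀ s : Fin D.nroots, chi D c' (σ' (wOf hR hT hn) s) = chi D c s) :
    n * hP hR c * n⁻¹ = hP hR c' := by
  have h1 : n * hP hR c * n⁻¹ ∈ D.diagonalSubgroup F :=
    H_norm_N hR hT hn (hP_mem_H' hR hT hc)
  obtain ⟨c'', hc'', h2⟩ := (mem_torus hR).1 (by rw [← diagonal_eq hR hT]; exact h1)
  have hχ : ∀ s : Fin D.nroots, chi D c'' s = chi D c' s := by
    intro s
    obtain ⟨s', rfl⟩ := (σ' (wOf hR hT hn)).surjective s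
    rw [h s']
    obtain ⟨κ, hκ, h3⟩ := conj_X_wOf hR hT hn s'
    have h4 : hP hR c'' * (n * X hR.toAddRel s' 1 * n⁻¹) * (hP hR c'')⁻¹ =
        n * (hP hR c * X hR.toAddRel s' 1 * (hP hR c)⁻¹) * n⁻¹ := by
      rw [← h2]
      group
    rw [h3, hP_conj hR hc'' (Fin.isLt _), hP_conj hR hc s'.isLt, h3] at h4
    have h5 := Cfsg.Agent.Lib.ChevBN.GraphFix.X_param_inj hR hT (Fin.isLt _) h4
    have h6 : chi D c'' (σ' (wOf hR hT hn) s') * κ = κ * chi D c s' := by
      simpa using h5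
    rw [mul_comm] at h6
    exact mul_left_cancel₀ hκ h6
  rw [h2]
  apply Units.ext
  rw [coe_hP hR hc'', coe_hP hR hc']
  congr 1
  funext s
  exact hχ s

/-- The order of the subgroup of `N` centralising an element of order two. -/
theorem card_N_stab [Finite F] [Finite (WW (pair hR hT))] (e : ℕ) :
    Nat.card {n : GL D.Idx F // n ∈ D.monomialSubgroup F ∧ hP hR (cE F e) * n = n * hP hR (cE F e)} =
      Nat.card (D.diagonalSubgroup F) * Nat.card (stabS hR hT e) := by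
  have hc₀ : ∀ j < D.rank, cE F e j ≠ 0 := fun j _ => cE_ne e j
  set t := hP hR (cE F e) with ht
  have htH : t ∈ D.diagonalSubgroup F := hP_mem_H' hR hT hc₀
  choose ρ hρ hρw using mk_out_eq hR hT
  let Ψ : ↥(D.diagonalSubgroup F) × ↥(stabS hR hT e) →
      {n : GL D.Idx F // n ∈ D.monomialSubgroup F ∧ t * n = n * t} := fun p =>
    ⟨p.1.1 * ρ p.2.1, Subgroup.mul_mem _ (H_le_N hR p.1.2) (hρ _), by
      have h1 : t * p.1.1 = p.1.1 * t := H_comm hR hT htH p.1.2
      have h2 : ρ p.2.1 * t = t * ρ p.2.1 := comm_of_stab hR hT hc₀ (hρ _) (by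
        rw [hρw]
        exact p.2.2)
      rw [← mul_assoc, h1, mul_assoc, ← h2, mul_assoc]⟩
  have hΨ : Function.Bijective Ψ := by
    constructor
    · rintro ⟨h, w⟩ ⟨h', w'⟩ he
      have he' : h.1 * ρ w.1 = h'.1 * ρ w'.1 := congrArg Subtype.val he
      have h1 : (ρ w.1)⁻¹ * ρ w'.1 ∈ D.diagonalSubgroup F := by
        have : (ρ w.1)⁻¹ * ρ w'.1 = (ρ w.1)⁻¹ * (h'.1⁻¹ * h.1) * ρ w.1 := by
          have e2 : ρ w'.1 = h'.1⁻¹ * (h.1 * ρ w.1) := by
            rw [he']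
            group
          rw [e2]
          group
        rw [this]
        have h3 := H_norm_N hR hT (Subgroup.inv_mem _ (hρ w.1))
          (Subgroup.mul_mem _ (Subgroup.inv_mem _ h'.2) h.2)
        simpa using h3
      have h3 := (wOf_eq_iff hR hT (hρ w.1) (hρ w'.1)).2 h1
      rw [hρw, hρw] at h3
      have h4 : w = w' := Subtype.ext h3
      subst h4
      have h5 : h = h' := Subtype.ext (mul_right_cancel he')
      rw [h5]
    · rintro ⟨n, hn, hnt⟩
      have hst : wOf hR hT hn ∈ stabS hR hT e := fun s => stab_of_comm hR hT hc₀ hn hnt.symm s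
      set w := wOf hR hT hn with hw
      have hk : n * (ρ w)⁻¹ ∈ D.diagonalSubgroup F := by
        have h1 : wOf hR hT (hρ w) = wOf hR hT hn := by rw [hρw]
        have h2' := (wOf_eq_iff hR hT (hρ w) hn).1 h1
        have h3 := H_norm_N hR hT (hρ w) h2'
        have e2 : ρ w * ((ρ w)⁻¹ * n) * (ρ w)⁻¹ = n * (ρ w)⁻¹ := by group
        rwa [e2] at h3
      refine ⟨⟨⟨_, hk⟩, ⟨w, hst⟩⟩, Subtype.ext ?_⟩
      show n * (ρ w)⁻¹ * ρ w = n
      group
  rw [← Nat.card_congr (Equiv.ofBijective Ψ hΨ), Nat.card_prod]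

end Cfsg.Agent.Lib.ChevOdd.OddCert
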