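import Cfsg.Agent.Lib.ChevOdd.OddCert

/-!
The Poincare sum of the reflection subgroup along a chain of levels; it is the stabiliser of the element of
order two.
-/

set_option autoImplicit false
set_option linter.unusedSectionVars false

namespace Cfsg.Agent.Lib.ChevOdd.OddCert

open Cfsg.Lie Cfsg.Agent.Lib.ChevBN.Elem Cfsg.Agent.Lib.ChevBN.Entries Cfsg.Agent.Lib.ChevBN.Table
open Cfsg.Agent.Lib.ChevBN.Collect Cfsg.Agent.Lib.ChevBN.Rel Cfsg.Agent.Lib.ChevBN.Torus
open Cfsg.Agent.Lib.ChevBN.Monomial Cfsg.Agent.Lib.ChevBN.Core Cfsg.Agent.Lib.ChevBN.Pair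
open Cfsg.Agent.Lib.ChevBN.Stmts Cfsg.Agent.Lib.ChevBN.BruhatForm Cfsg.Agent.Lib.ChevBN.Opp
open Cfsg.Agent.Lib.ChevBN.ConjH Cfsg.Agent.Lib.ChevBN.Fix Cfsg.Agent.Lib.ChevBN.RootCent
open Cfsg.Agent.Lib.ChevOrder.Chev Cfsg.Agent.Lib.ChevOrder.BNCount Cfsg.Agent.Lib.ChevOrder.Cox
open Cfsg.Agent.Lib.ChevOrder.Level Cfsg.Agent.Lib.ChevOrder.Chain
open Cfsg.Agent.Lib.BNPair.CoxeterExchange
open Cfsg.Agent.Lib.BNPair.Basic Cfsg.Agent.Lib.BNPair.Parabolic
open Cfsg.Agent.Lib.ChevOdd.Kappa Cfsg.Agent.Lib.ChevOdd.Invol Cfsg.Agent.Lib.ChevOdd.Cayley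
open Cfsg.Agent.Lib.ChevOdd.GoodRoot Cfsg.Agent.Lib.ChevOdd.CentCard
open Cfsg.Agent.Lib.ChevOdd.RootAct (Act len)

/-- A level: index, base vector and orbit table. -/
abbrev Lev1 := ℕ × List ℤ × List (List ℤ × ℕ)

/-- Forget the base vectors. -/
def strip (c : List Lev1) : List (ℕ × List (List ℤ × ℕ)) := c.map fun l => (l.1, l.2.2)

/-- The certificate: a list of levels. -/
def checkChain1 (D : ChevalleyDatum) (e₀ : ℕ) (gens : List Gen) : List Lev1 → Bool
  | [] => true
  | l :: rest => decide (l.1 ∉ rest.map Prod.fst) &&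
      checkLevel1 D e₀ gens (rest.map Prod.fst) l.1 l.2.1 l.2.2 && checkChain1 D e₀ gens rest

variable {D : ChevalleyDatum} {F : Type*} [Field F] {η : ℕ → ℕ → ℤ}

variable (hR : Sys D F η) (hT : Tbl D)

local notation "σ'" => σW hR hT

include hR hT

section Sum

open Classical

variable {e₀ : ℕ} {gens : List Gen} (hG : GenCert D e₀ gens)
variable [Fintype ↥(W₁ hR hT gens)]
include hG

theorem psum_chain1 (q : ℕ) : ∀ {c : List Lev1}, checkChain1 D e₀ gens c = true →
    psum (f₁ hR hT gens) (len (σ₁ hR hT gens) (P₁ D e₀)) q (idxS gens.length (c.map Prod.fst)) =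
      chainSum q (strip c) := by
  intro c
  induction c with
  | nil =>
    intro _
    have : idxS gens.length (([] : List Lev1).map Prod.fst) = ∅ := by
      ext i
      simp [idxS]
    rw [this, psum_empty (RootAct.setup (act₁ hR hT hG))]
    rfl
  | cons l rest ih =>
    intro h
    simp only [checkChain1, Bool.and_eq_true, decide_eq_true_eq] at h
    rw [List.map_cons, psum_level1 hR hT hG h.1.1 h.1.2 q, ih h.2]
    rfl

theorem sum_W₁ (q : ℕ) {c : List Lev1} (hc : checkChain1 D e₀ gens c = true)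
    (hall : ∀ i < gens.length, i ∈ c.map Prod.fst) :
    ∑ w : ↥(W₁ hR hT gens), q ^ len (σ₁ hR hT gens) (P₁ D e₀) w = chainSum q (strip c) := by
  rw [← psum_chain1 hR hT hG q hc]
  have h1 : idxS gens.length (c.map Prod.fst) = Set.univ := by
    ext i
    simp only [Set.mem_univ, iff_true]
    exact hall i i.2
  have h2 : par (f₁ hR hT gens) (Set.univ : Set (Fin gens.length)) = ⊤ := by
    rw [eq_top_iff]
    intro w _
    obtain ⟨l, rfl⟩ := (act₁ hR hT hG).gen w
    exact pr_mem_par fun i _ => Set.mem_univ i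
  rw [h1, psum, h2]
  congr 1
  simp

end Sum

/-! ### The stabiliser -/

/-- The stabiliser of the character with code `e₀`. -/
def stabS (hR : Sys D F η) (hT : Tbl D) (e₀ : ℕ) : Subgroup (WW (pair hR hT)) where
  carrier := {w | ∀ s : Fin D.nroots, chi D (cE F e₀) (σW hR hT w s) = chi D (cE F e₀) s}
  mul_mem' := by
    intro a b ha hb s
    rw [map_mul, Equiv.Perm.mul_apply, ha, hb]
  one_mem' := by
    intro s
    simp
  inv_mem' := by
    intro a ha s
    have h1 := ha ((σW hR hT a⁻¹) s)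
    rw [← Equiv.Perm.mul_apply, ← map_mul, mul_inv_cancel] at h1
    simpa using h1.symm

theorem mem_stabS {e₀ : ℕ} {w : WW (pair hR hT)} :
    w ∈ stabS hR hT e₀ ↔ ∀ s : Fin D.nroots, chi D (cE F e₀) (σ' w s) = chi D (cE F e₀) s := Iff.rfl

theorem W₁_le_stab {e₀ : ℕ} {gens : List Gen} (hG : GenCert D e₀ gens) :
    W₁ hR hT gens ≤ stabS hR hT e₀ := by
  rw [W₁, Subgroup.closure_le]
  rintro x ⟨i, rfl⟩ s
  have h1 := chi_prN (F := F) hR hT (gen_lt hG i) e₀ s
  have h4 : actW D e₀ (gw gens[i]) = e₀ := hG.fix _ (List.getElem_mem i.2)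
  rw [h4] at h1
  exact h1

/-- Distinct codes below `2 ^ rank` have distinct characters. -/
theorem code_inj (hCI : CartanInv D 1) (h2 : (2 : F) ≠ 0) {x y : ℕ} (hx : x < 2 ^ D.rank)
    (hy : y < 2 ^ D.rank) (h : ∀ s : Fin D.nroots, chi D (cE F x) s = chi D (cE F y) s) : x = y := by
  have hne : (-1 : F) ≠ 1 := by
    intro h3
    apply h2
    linear_combination -h3
  have h3 : ∀ j < D.rank, (cE F x * cE F y) j = 1 := by
    intro j hj
    refine param_one hT hCI (c := cE F x * cE F y)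
      (fun k _ => mul_ne_zero (cE_ne x k) (cE_ne y k)) ?_ hj
    intro s hs
    rw [chi_mul, ← h ⟨s, hs⟩]
    show chi D (cE F x) s * chi D (cE F x) s = 1
    rcases chi_sign (D := D) (F := F) x s with h4 | h4 <;> rw [h4] <;> ring
  apply Nat.eq_of_testBit_eq
  intro j
  by_cases hj : j < D.rank
  · have h4 := h3 j hj
    simp only [Pi.mul_apply, cE] at h4
    cases hb1 : x.testBit j <;> cases hb2 : y.testBit j <;> simp [hb1, hb2] at h4 ⊢
    · exact hne h4
    · exact hne h4
  · have h5 : ∀ z : ℕ, z < 2 ^ D.rank → z.testBit j = false := fun z hz =>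
      Nat.testBit_lt_two_pow (lt_of_lt_of_le hz (Nat.pow_le_pow_right (by norm_num) (not_lt.1 hj)))
    rw [h5 x hx, h5 y hy]

/-- The table facts on the orbit of a code. -/
structure OrbCert (D : ChevalleyDatum) (e₀ : ℕ) (words : List (List ℕ)) : Prop where
  lt : ∀ w ∈ words, ∀ i ∈ w, i < D.rank
  nodup : (words.map (actW D e₀)).Nodup
  bound : ∀ w ∈ words, actW D e₀ w < 2 ^ D.rank

/-- The bound for the stabiliser from an orbit. -/
theorem card_stab_mul_le [Finite (WW (pair hR hT))] (hCI : CartanInv D 1) (h2 : (2 : F) ≠ 0) {e₀ : ℕ}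
    {words : List (List ℕ)} (hO : OrbCert D e₀ words) :
    Nat.card (stabS hR hT e₀) * words.length ≤ Nat.card (WW (pair hR hT)) := by
  let Ψ : ↥(stabS hR hT e₀) × Fin words.length → WW (pair hR hT) :=
    fun p => p.1.1 * pr (fN hR hT) words[p.2.val]
  have hΨ : Function.Injective Ψ := by
    rintro ⟨a, i⟩ ⟨b, j⟩ he
    have he' : a.1 * pr (fN hR hT) words[i.val] = b.1 * pr (fN hR hT) words[j.val] := he
    have h1 : ∀ s : Fin D.nroots,
        chi D (cE F (actW D e₀ words[i.val])) s = chi D (cE F (actW D e₀ words[j.val])) s := by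
      intro s
      rw [← chi_prN hR hT (hO.lt _ (List.getElem_mem i.2)), ← chi_prN hR hT (hO.lt _ (List.getElem_mem j.2)),
        ← a.2 (σ' (pr (fN hR hT) words[i.val]) s), ← b.2 (σ' (pr (fN hR hT) words[j.val]) s),
        ← Equiv.Perm.mul_apply, ← Equiv.Perm.mul_apply, ← map_mul, ← map_mul, he']
    have h3 := code_inj hR hT hCI h2 (hO.bound _ (List.getElem_mem i.2))
      (hO.bound _ (List.getElem_mem j.2)) h1
    have h4 : i = j := by
      have h5 := hO.nodup
      rw [List.Nodup, List.pairwise_iff_getElem] at h5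
      by_contra hij
      have hval : i.val ≠ j.val := fun e => hij (Fin.ext e)
      rcases lt_or_gt_of_ne hval with h6 | h6
      · exact h5 i.val j.val (by simp) (by simp) h6 (by simpa using h3)
      · exact h5 j.val i.val (by simp) (by simp) h6 (by simpa using h3.symm)
    subst h4
    have h5 : a = b := Subtype.ext (mul_right_cancel he')
    rw [h5]
  have h3 := Nat.card_le_card_of_injective Ψ hΨ
  rwa [Nat.card_prod, Nat.card_fin] at h3

section Final

open Classical

variable {e₀ : ℕ} {gens : List Gen} (hG : GenCert D e₀ gens)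
include hG

/-- The number of elements of the reflection subgroup from the chain. -/
theorem card_W₁ [Fintype ↥(W₁ hR hT gens)] {c : List Lev1} (hc : checkChain1 D e₀ gens c = true)
    (hall : ∀ i < gens.length, i ∈ c.map Prod.fst) :
    Nat.card ↥(W₁ hR hT gens) = chainSum 1 (strip c) := by
  rw [← sum_W₁ hR hT hG 1 hc hall]
  simp

/-- The stabiliser is the reflection subgroup. -/
theorem stab_eq [Fintype (WW (pair hR hT))] (hCI : CartanInv D 1) (h2 : (2 : F) ≠ 0)
    {words : List (List ℕ)} (hO : OrbCert D e₀ words) (hw : 0 < words.length)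
    {c : List Lev1} (hc : checkChain1 D e₀ gens c = true)
    (hall : ∀ i < gens.length, i ∈ c.map Prod.fst) {full : List (ℕ × List (List ℤ × ℕ))}
    (hfull : checkChain D full = true) (hfall : ∀ i < D.rank, i ∈ full.map Prod.fst)
    (hnum : chainSum 1 full = chainSum 1 (strip c) * words.length) :
    W₁ hR hT gens = stabS hR hT e₀ := by
  haveI : Fintype ↥(W₁ hR hT gens) := Fintype.ofFinite _
  have h1 := card_stab_mul_le hR hT hCI h2 hO
  have h3 : Nat.card (WW (pair hR hT)) = chainSum 1 full := by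
    rw [← sum_W hR hT 1 hfull hfall]
    simp
  rw [h3, hnum, ← card_W₁ hR hT hG hc hall] at h1
  have h4 : Nat.card (stabS hR hT e₀) ≤ Nat.card ↥(W₁ hR hT gens) := Nat.le_of_mul_le_mul_right h1 hw
  exact Subgroup.eq_of_le_of_card_ge (W₁_le_stab hR hT hG) h4

theorem n_eq_len (h2 : (2 : F) ≠ 0) (w : ↥(W₁ hR hT gens)) :
    ((Lw hR hT w.1).filter fun r => chi D (cE F e₀) r = 1).length =
      len (σ₁ hR hT gens) (P₁ D e₀) w := by
  set A := (Lw hR hT w.1).filter fun r => chi D (cE F e₀) r = 1 with hA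
  have hnd : A.Nodup := ((Lw_sorted hR hT w.1).filter _).imp (fun h => ne_of_lt h)
  rw [← List.toFinset_card_of_nodup hnd, RootAct.len]
  symm
  have hs : ∀ x : Fin D.nroots, chi D (cE F e₀) (σ' w.1 x) = chi D (cE F e₀) x :=
    W₁_le_stab hR hT hG w.2
  have hchi : ∀ x : Fin D.nroots, x ∈ P₁ D e₀ ↔ D.IsPosRoot x ∧ chi D (cE F e₀) x = 1 := by
    intro x
    rw [mem_P₁, mem_posOf, chi_eq_one_iff h2]
  apply Finset.card_bij (fun (x : Fin D.nroots) _ => (x : ℕ))
  · intro x hx
    simp only [Finset.mem_filter] at hx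
    obtain ⟨h3, h4⟩ := (hchi x).1 hx.1
    rw [List.mem_toFinset, hA, List.mem_filter, decide_eq_true_eq]
    refine ⟨(mem_Lw hR hT w.1).2 ⟨h3, x.isLt, fun h5 => hx.2 ?_⟩, h4⟩
    refine (hchi _).2 ⟨h5, ?_⟩
    show chi D (cE F e₀) (σ' w.1 x) = 1
    rw [hs x, h4]
  · intro x _ y _ h
    exact Fin.ext h
  · intro r hr
    rw [List.mem_toFinset, hA, List.mem_filter, decide_eq_true_eq] at hr
    obtain ⟨h3, h4, h5⟩ := (mem_Lw hR hT w.1).1 hr.1
    refine ⟨⟨r, h4⟩, ?_, rfl⟩
    simp only [Finset.mem_filter]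
    refine ⟨(hchi _).2 ⟨h3, hr.2⟩, fun h6 => h5 ((hchi _).1 h6).1⟩

/-- The sum over the stabiliser. -/
theorem sum_stab [Fintype (WW (pair hR hT))] (hCI : CartanInv D 1) (h2 : (2 : F) ≠ 0)
    {words : List (List ℕ)} (hO : OrbCert D e₀ words) (hw : 0 < words.length)
    {c : List Lev1} (hc : checkChain1 D e₀ gens c = true)
    (hall : ∀ i < gens.length, i ∈ c.map Prod.fst) {full : List (ℕ × List (List ℤ × ℕ))}
    (hfull : checkChain D full = true) (hfall : ∀ i < D.rank, i ∈ full.map Prod.fst)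
    (hnum : chainSum 1 full = chainSum 1 (strip c) * words.length) (q : ℕ) :
    ∑ w ∈ Finset.univ.filter (fun w : WW (pair hR hT) =>
        ∀ s : Fin D.nroots, chi D (cE F e₀) (σ' w s) = chi D (cE F e₀) s),
      q ^ ((Lw hR hT w).filter fun r => chi D (cE F e₀) r = 1).length = chainSum q (strip c) := by
  haveI : Fintype ↥(W₁ hR hT gens) := Fintype.ofFinite _
  have h3 := stab_eq hR hT hG hCI h2 hO hw hc hall hfull hfall hnum
  rw [← sum_W₁ hR hT hG q hc hall, Finset.sum_subtype _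
    (p := fun w : WW (pair hR hT) => w ∈ W₁ hR hT gens) (by
      intro x
      rw [h3]
      simp [mem_stabS])]
  apply Finset.sum_congr rfl
  intro x _
  rw [n_eq_len hR hT hG h2 x]

end Final

end Cfsg.Agent.Lib.ChevOdd.OddCert
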