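import Cfsg.Agent.Lib.PSL2.ClassSizes

/-!
Two commuting copies of `SL₂(F)` sharing their central involution.
-/

set_option autoImplicit false

namespace Cfsg.Agent.Lib.ChevOdd.SL2Pair

open Matrix

variable {F G : Type*} [Field F] [Fintype F] [Group G] [Finite G]

/-- The element `-1` of `SL₂(F)`. -/
def m1 (F : Type*) [Field F] : SpecialLinearGroup (Fin 2) F :=
  ⟨!![-1, 0; 0, -1], by simp [det_fin_two]⟩

omit [Fintype F] in
theorem m1_ne (h2 : (2 : F) ≠ 0) : m1 F ≠ 1 := by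
  intro h
  have h1 := congrArg (fun g : SpecialLinearGroup (Fin 2) F => g.1 0 0) h
  simp [m1] at h1
  apply h2
  linear_combination -h1

omit [Fintype F] in
theorem m1_sq : m1 F * m1 F = 1 := by
  apply Subtype.ext
  show !![(-1 : F), 0; 0, -1] * !![(-1 : F), 0; 0, -1] = 1
  ext i j
  fin_cases i <;> fin_cases j <;> simp [Matrix.mul_apply, Fin.sum_univ_two]

omit [Fintype F] in
theorem center_cases {g : SpecialLinearGroup (Fin 2) F} (hg : g ∈ Subgroup.center (SpecialLinearGroup (Fin 2) F)) :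
    g = 1 ∨ g = m1 F := by
  obtain ⟨r, hr, e⟩ := Matrix.SpecialLinearGroup.mem_center_iff.1 hg
  have hr' : r = 1 ∨ r = -1 := by
    have : r * r = 1 := by
      have h3 : r ^ 2 = 1 := by simpa using hr
      rwa [pow_two] at h3
    exact mul_self_eq_one_iff.1 this
  rcases hr' with rfl | rfl
  · left
    apply Subtype.ext
    rw [← e]
    simp
  · right
    apply Subtype.ext
    rw [← e]
    ext i j
    fin_cases i <;> fin_cases j <;> simp [m1]

/-- The product of two commuting subgroups. -/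
theorem card_sup_mul_inf (L₁ L₂ : Subgroup G) (hc : ∀ x ∈ L₁, ∀ y ∈ L₂, x * y = y * x) :
    Nat.card ↥(L₁ ⊔ L₂) * Nat.card ↥(L₁ ⊓ L₂) = Nat.card L₁ * Nat.card L₂ := by
  let Ψ : ↥L₁ × ↥L₂ →* G := (L₁.subtype).noncommCoprod L₂.subtype (fun a b => hc a.1 a.2 b.1 b.2)
  have hrange : Ψ.range = L₁ ⊔ L₂ := by
    have h := MonoidHom.noncommCoprod_range (f := L₁.subtype) (g := L₂.subtype) (fun a b => hc a.1 a.2 b.1 b.2)
    rw [Subgroup.range_subtype, Subgroup.range_subtype] at h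
    exact h
  have hker : Nat.card Ψ.ker = Nat.card ↥(L₁ ⊓ L₂) := by
    apply Nat.card_congr
    refine ⟨fun x => ⟨x.1.1.1, x.1.1.2, ?_⟩, fun x => ⟨(⟨x.1, x.2.1⟩, ⟨x.1⁻¹, L₂.inv_mem x.2.2⟩), ?_⟩, ?_, ?_⟩
    · have h1 : x.1.1.1 * x.1.2.1 = 1 := x.2
      rw [eq_inv_of_mul_eq_one_left h1]
      exact L₂.inv_mem x.1.2.2
    · show x.1 * x.1⁻¹ = 1
      simp
    · rintro ⟨⟨a, b⟩, h⟩
      have h1 : a.1 * b.1 = 1 := h
      apply Subtype.ext
      apply Prod.ext
      · rfl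
      · apply Subtype.ext
        exact (eq_inv_of_mul_eq_one_right h1).symm
    · intro x
      rfl
  have h1 := Subgroup.card_mul_index Ψ.ker
  rw [Subgroup.index_ker, hrange, hker, Nat.card_prod] at h1
  rw [mul_comm]
  exact h1

theorem sl2_pair (h2 : (2 : F) ≠ 0) (φ₁ φ₂ : SpecialLinearGroup (Fin 2) F →* G)
    (inj₁ : Function.Injective φ₁) (inj₂ : Function.Injective φ₂)
    (comm : ∀ a b, φ₁ a * φ₂ b = φ₂ b * φ₁ a) {t : G} (h₁ : φ₁ (m1 F) = t) (h₂ : φ₂ (m1 F) = t)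
    (hC : Nat.card (Subgroup.centralizer ({t} : Set G)) =
      Fintype.card F ^ 2 * (Fintype.card F ^ 2 - 1) ^ 2) :
    ∃ L₁ L₂ : Subgroup G, Nonempty (L₁ ≃* SpecialLinearGroup (Fin 2) F) ∧
      Nonempty (L₂ ≃* SpecialLinearGroup (Fin 2) F) ∧ (∀ x ∈ L₁, ∀ y ∈ L₂, x * y = y * x) ∧
      L₁ ⊓ L₂ = Subgroup.zpowers t ∧ L₁ ⊔ L₂ ≤ Subgroup.centralizer ({t} : Set G) ∧
      (L₁ ⊔ L₂).relIndex (Subgroup.centralizer ({t} : Set G)) = 2 := by
  classical
  have hcomm : ∀ x ∈ φ₁.range, ∀ y ∈ φ₂.range, x * y = y * x := by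
    rintro _ ⟨a, rfl⟩ _ ⟨b, rfl⟩
    exact comm a b
  have hinf : φ₁.range ⊓ φ₂.range = Subgroup.zpowers t := by
    apply le_antisymm
    · rintro x ⟨⟨g, rfl⟩, ⟨g', hg'⟩⟩
      have hg : g ∈ Subgroup.center (SpecialLinearGroup (Fin 2) F) := by
        rw [Subgroup.mem_center_iff]
        intro a
        apply inj₁
        rw [map_mul, map_mul, ← hg']
        exact comm a g'
      rcases center_cases hg with rfl | rfl
      · simp
      · rw [h₁]
        exact Subgroup.mem_zpowers t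
    · rw [Subgroup.zpowers_le]
      exact ⟨⟨m1 F, h₁⟩, ⟨m1 F, h₂⟩⟩
  have hle : φ₁.range ⊔ φ₂.range ≤ Subgroup.centralizer ({t} : Set G) := by
    rw [sup_le_iff]
    constructor
    · rintro _ ⟨a, rfl⟩
      rw [Subgroup.mem_centralizer_singleton_iff, ← h₂]
      exact comm a _
    · rintro _ ⟨b, rfl⟩
      rw [Subgroup.mem_centralizer_singleton_iff, ← h₁]
      exact (comm _ b).symm
  refine ⟨φ₁.range, φ₂.range, ⟨(MonoidHom.ofInjective inj₁).symm⟩, ⟨(MonoidHom.ofInjective inj₂).symm⟩,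
    hcomm, hinf, hle, ?_⟩
  have hq : Nat.card (SpecialLinearGroup (Fin 2) F) =
      Fintype.card F * ((Fintype.card F - 1) * (Fintype.card F + 1)) :=
    Cfsg.Agent.Lib.PSL2.ClassSizes.card_SL2_mul
  have hq1 : 1 < Fintype.card F := Fintype.one_lt_card
  have hsq : Fintype.card F ^ 2 - 1 = (Fintype.card F - 1) * (Fintype.card F + 1) := by
    obtain ⟨m, hm⟩ : ∃ m, Fintype.card F = m + 2 := ⟨Fintype.card F - 2, by omega⟩
    rw [hm]
    have e1 : (m + 2) ^ 2 = (m + 2 - 1) * (m + 2 + 1) + 1 := by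
      simp only [Nat.add_succ_sub_one]
      ring
    rw [e1]
    simp
  have h3 := card_sup_mul_inf φ₁.range φ₂.range hcomm
  rw [hinf, Nat.card_zpowers] at h3
  have hord : orderOf t = 2 := by
    haveI : Fact (Nat.Prime 2) := ⟨Nat.prime_two⟩
    apply orderOf_eq_prime
    · rw [pow_two, ← h₁, ← map_mul, m1_sq, map_one]
    · rw [← h₁]
      intro h
      exact m1_ne h2 (inj₁ (by rw [h, map_one]))
  have hc1 : Nat.card φ₁.range = Nat.card (SpecialLinearGroup (Fin 2) F) :=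
    (Nat.card_congr (MonoidHom.ofInjective inj₁).toEquiv).symm
  have hc2 : Nat.card φ₂.range = Nat.card (SpecialLinearGroup (Fin 2) F) :=
    (Nat.card_congr (MonoidHom.ofInjective inj₂).toEquiv).symm
  rw [hord, hc1, hc2, hq] at h3
  set S := φ₁.range ⊔ φ₂.range with hS
  set C := Subgroup.centralizer ({t} : Set G) with hCdef
  have h4 := Subgroup.card_mul_index (S.subgroupOf C)
  rw [Nat.card_congr (Subgroup.subgroupOfEquivOfLe hle).toEquiv, hC, hsq] at h4
  have h5 : Nat.card ↥S * S.relIndex C = Nat.card ↥S * 2 := by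
    have e2 : S.relIndex C = (S.subgroupOf C).index := rfl
    rw [e2, h4, h3]
    ring
  exact Nat.eq_of_mul_eq_mul_left Nat.card_pos h5

end Cfsg.Agent.Lib.ChevOdd.SL2Pair
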