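import Cfsg.Agent.Lib.ChevOdd.Invol
import Cfsg.Agent.Lib.ChevOdd.SL2Pair
import Cfsg.Agent.Lib.Chevalley.SL2Root

/-!
The homomorphism from `SL₂(F)` attached to a positive root is injective when some root pairs to `1` with the coroot.
-/

set_option autoImplicit false
set_option linter.unusedSectionVars false

namespace Cfsg.Agent.Lib.ChevOdd.RootSL2

open Cfsg.Lie Cfsg.Agent.Lib.ChevBN.Elem Cfsg.Agent.Lib.ChevBN.Entries Cfsg.Agent.Lib.ChevBN.Table
open Cfsg.Agent.Lib.ChevBN.Collect Cfsg.Agent.Lib.ChevBN.Rel Cfsg.Agent.Lib.ChevBN.Torus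
open Cfsg.Agent.Lib.ChevBN.Monomial Cfsg.Agent.Lib.ChevBN.Core Cfsg.Agent.Lib.ChevBN.Pair
open Cfsg.Agent.Lib.ChevBN.Stmts Cfsg.Agent.Lib.ChevBN.BruhatForm Cfsg.Agent.Lib.ChevBN.Opp
open Cfsg.Agent.Lib.ChevOrder.Chev Cfsg.Agent.Lib.ChevOrder.BNCount
open Cfsg.Agent.Lib.ChevOdd.Kappa Cfsg.Agent.Lib.ChevOdd.Invol Cfsg.Agent.Lib.ChevOdd.SL2Pair
open Cfsg.Agent.Lib.Chevalley

variable {D : ChevalleyDatum} {F : Type*} [Field F] {η : ℕ → ℕ → ℤ}

variable (hR : Sys D F η) (hT : Tbl D)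
variable (hc : ∀ i < D.rank, D.cartan i (D.simple i) = 2) (hη : ∀ i < D.rank, η i (D.simple i) = -1)

/-- The homomorphism. -/
noncomputable def φr {r : ℕ} (hr : r < D.nroots) : Matrix.SpecialLinearGroup (Fin 2) F →* GL D.Idx F :=
  SL2Hom.hom (SL2Root.rel hR hT hc hη hr)

include hR hT

theorem φr_m1 {r : ℕ} (hr : r < D.nroots) : φr hR hT hc hη hr (m1 F) = hG hR.toAddRel r (-1) := by
  show SL2Hom.phi (x := X hR.toAddRel r) (y := X hR.toAddRel (D.neg r)) (m1 F) = _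
  rw [SL2Hom.phi]
  have h1 : (m1 F).1 1 0 = 0 := by simp [m1]
  have h3 : (m1 F).1 0 1 = 0 := by simp [m1]
  have h4 : (m1 F).1 0 0 = -1 := by simp [m1]
  rw [if_pos h1, h3, h4, mul_zero, X_zero, one_mul]
  rfl

theorem φr_mem_G {r : ℕ} (hr : r < D.nroots) (g : Matrix.SpecialLinearGroup (Fin 2) F) :
    φr hR hT hc hη hr g ∈ D.group F :=
  SL2Hom.hom_mem _ _ (fun t => X_mem_G hR hT hr t) (fun t => X_mem_G hR hT (hT.neg_lt hr) t) g

theorem φr_inj {r : ℕ} (hr : D.IsPosRoot r) (hs : ∃ s < D.nroots, Ad D (cr D r) s = 1) :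
    Function.Injective (φr hR hT hc hη hr.1) := by
  rw [injective_iff_map_eq_one]
  intro g hg
  have hg' : SL2Hom.phi (x := X hR.toAddRel r) (y := X hR.toAddRel (D.neg r)) g = 1 := hg
  have hdet := SL2Hom.det_eq g
  rw [SL2Hom.phi] at hg'
  by_cases hc0 : g.1 1 0 = 0
  · rw [if_pos hc0] at hg'
    rw [hc0] at hdet
    have had : g.1 0 0 * g.1 1 1 = 1 := by simpa using hdet
    have ha : g.1 0 0 ≠ 0 := left_ne_zero_of_mul_eq_one had
    have hh : SL2Hom.h (X hR.toAddRel r) (X hR.toAddRel (D.neg r)) (g.1 0 0) =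
        hG hR.toAddRel r (g.1 0 0) := rfl
    rw [hh] at hg'
    have h1 : hG hR.toAddRel r (g.1 0 0) ∈ D.posUnipotent F ⊓ D.diagonalSubgroup F := by
      refine ⟨?_, hG_mem_diagonal hR hr.1 ha⟩
      rw [eq_inv_of_mul_eq_one_right hg']
      exact Subgroup.inv_mem _ (X_mem_U hR hT hr _)
    rw [U_inf_H hR hT, Subgroup.mem_bot] at h1
    rw [h1, mul_one] at hg'
    obtain ⟨s, hsl, hsa⟩ := hs
    have h3 : g.1 0 0 = 1 := by
      have h4 := hP_conj hR (c := fun j => g.1 0 0 ^ cr D r j) (fun j _ => zpow_ne_zero _ ha) hsl 1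
      rw [← hG_eq_hP hR hT hr.1 ha, h1, one_mul, inv_one, mul_one, chi_pow ha, hsa, zpow_one,
        mul_one] at h4
      have h5 := Cfsg.Agent.Lib.ChevBN.GraphFix.X_param_inj hR hT hsl h4
      exact h5.symm
    rw [h3, one_mul] at hg' had
    have h5 : g.1 0 1 = 0 := by
      rw [← X_zero hR.toAddRel r] at hg'
      exact Cfsg.Agent.Lib.ChevBN.GraphFix.X_param_inj hR hT hr.1 hg'
    apply SL2Hom.sl2_ext
    · simpa using h3
    · simpa using h5
    · simpa using hc0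
    · simpa using had
  · exfalso
    rw [if_neg hc0] at hg'
    set t := -(g.1 1 0)⁻¹ with ht
    have ht0 : t ≠ 0 := neg_ne_zero.2 (inv_ne_zero hc0)
    have hw : SL2Hom.w (X hR.toAddRel r) (X hR.toAddRel (D.neg r)) t = nG hR.toAddRel r t := rfl
    rw [hw] at hg'
    have h1 : nG hR.toAddRel r t ∈ D.posUnipotent F ⊓ D.monomialSubgroup F := by
      refine ⟨?_, nG_c_mem_N hR hT hr.1 ht0⟩
      have e : nG hR.toAddRel r t = (X hR.toAddRel r (g.1 0 0 / g.1 1 0))⁻¹ *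
          (X hR.toAddRel r (g.1 1 1 / g.1 1 0))⁻¹ := by
        have e1 : X hR.toAddRel r (g.1 0 0 / g.1 1 0) * nG hR.toAddRel r t =
            (X hR.toAddRel r (g.1 1 1 / g.1 1 0))⁻¹ := eq_inv_of_mul_eq_one_left hg'
        rw [← e1]
        group
      rw [e]
      exact Subgroup.mul_mem _ (Subgroup.inv_mem _ (X_mem_U hR hT hr _))
        (Subgroup.inv_mem _ (X_mem_U hR hT hr _))
    rw [U_inf_N hR hT, Subgroup.mem_bot] at h1
    have h3 : X hR.toAddRel (D.neg r) (-t⁻¹) = (X hR.toAddRel r t)⁻¹ * (X hR.toAddRel r t)⁻¹ := by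
      have e1 : X hR.toAddRel r t * X hR.toAddRel (D.neg r) (-t⁻¹) * X hR.toAddRel r t = 1 := h1
      have e2 : X hR.toAddRel (D.neg r) (-t⁻¹) = (X hR.toAddRel r t)⁻¹ *
          (X hR.toAddRel r t * X hR.toAddRel (D.neg r) (-t⁻¹) * X hR.toAddRel r t) *
            (X hR.toAddRel r t)⁻¹ := by group
      rw [e2, e1]
      group
    apply X_neg_not_mem_B hR hT hr (t := -t⁻¹) (neg_ne_zero.2 (inv_ne_zero ht0))
    rw [h3]
    exact U_le_B hR hT (Subgroup.mul_mem _ (Subgroup.inv_mem _ (X_mem_U hR hT hr _))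
      (Subgroup.inv_mem _ (X_mem_U hR hT hr _)))

/-- Commutation is transported by the Weyl group. -/
theorem comm_transport {u v a b : ℕ} (hu : u < D.nroots) (hv : v < D.nroots) (w : WW (pair hR hT))
    (h1 : (σW hR hT w ⟨u, hu⟩ : ℕ) = a) (h2 : (σW hR hT w ⟨v, hv⟩ : ℕ) = b)
    (hC : ∀ s t : F, X hR.toAddRel a s * X hR.toAddRel b t = X hR.toAddRel b t * X hR.toAddRel a s)
    (s t : F) : X hR.toAddRel u s * X hR.toAddRel v t = X hR.toAddRel v t * X hR.toAddRel u s := by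
  obtain ⟨n, hn, rfl⟩ := mk_out_eq hR hT w
  obtain ⟨κ, -, h3⟩ := conj_X_wOf hR hT hn ⟨u, hu⟩
  obtain ⟨κ', -, h4⟩ := conj_X_wOf hR hT hn ⟨v, hv⟩
  rw [h1] at h3
  rw [h2] at h4
  have h5 := hC (κ * s) (κ' * t)
  rw [← h3 s, ← h4 t] at h5
  have h6 : n * (X hR.toAddRel u s * X hR.toAddRel v t) * n⁻¹ =
      n * (X hR.toAddRel v t * X hR.toAddRel u s) * n⁻¹ := by
    calc n * (X hR.toAddRel u s * X hR.toAddRel v t) * n⁻¹ =
        n * X hR.toAddRel u s * n⁻¹ * (n * X hR.toAddRel v t * n⁻¹) := by group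
      _ = n * X hR.toAddRel v t * n⁻¹ * (n * X hR.toAddRel u s * n⁻¹) := h5
      _ = _ := by group
  exact mul_left_cancel (mul_right_cancel h6)

/-- Commutation from the empty relation. -/
theorem comm_pos {r s : ℕ} (hr : D.IsPosRoot r) (hs : D.IsPosRoot s) (hne : s ≠ r)
    (h : D.commTerms r s = []) (t u : F) :
    X hR.toAddRel s u * X hR.toAddRel r t = X hR.toAddRel r t * X hR.toAddRel s u := by
  have h1 := commPos hR r s hr hs hne t u
  rw [ChevalleyDatum.commWord, h] at h1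
  simpa using h1

/-- Elementwise commuting images. -/
theorem φr_comm {r₁ r₂ : ℕ} (h₁ : r₁ < D.nroots) (h₂ : r₂ < D.nroots)
    (hC : ∀ u ∈ [r₁, D.neg r₁], ∀ v ∈ [r₂, D.neg r₂], ∀ s t : F,
      X hR.toAddRel u s * X hR.toAddRel v t = X hR.toAddRel v t * X hR.toAddRel u s)
    (a b : Matrix.SpecialLinearGroup (Fin 2) F) :
    φr hR hT hc hη h₁ a * φr hR hT hc hη h₂ b = φr hR hT hc hη h₂ b * φr hR hT hc hη h₁ a := by
  have h1 : ∀ v ∈ [r₂, D.neg r₂], ∀ t : F, φr hR hT hc hη h₁ a * X hR.toAddRel v t =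
      X hR.toAddRel v t * φr hR hT hc hη h₁ a := by
    intro v hv t
    have h3 : φr hR hT hc hη h₁ a ∈ Subgroup.centralizer {X hR.toAddRel v t} := by
      apply SL2Hom.hom_mem
      · intro s
        rw [Subgroup.mem_centralizer_singleton_iff]
        exact hC r₁ (by simp) v hv s t
      · intro s
        rw [Subgroup.mem_centralizer_singleton_iff]
        exact hC (D.neg r₁) (by simp) v hv s t
    exact Subgroup.mem_centralizer_singleton_iff.1 h3
  have h3 : φr hR hT hc hη h₂ b ∈ Subgroup.centralizer {φr hR hT hc hη h₁ a} := by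
    apply SL2Hom.hom_mem
    · intro t
      rw [Subgroup.mem_centralizer_singleton_iff]
      exact (h1 r₂ (by simp) t).symm
    · intro t
      rw [Subgroup.mem_centralizer_singleton_iff]
      exact (h1 (D.neg r₂) (by simp) t).symm
  exact (Subgroup.mem_centralizer_singleton_iff.1 h3).symm

end Cfsg.Agent.Lib.ChevOdd.RootSL2
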